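import Mathlib

/-!
# A field structure on an irreducible module for a commutative group

If a commutative subgroup `H` of `G` normalises a finite commutative subgroup `K` of order `p ^ f`
and acts irreducibly on it, then `K` can be identified with the additive group of a field `F` with
`p ^ f` elements in such a way that `H` acts by multiplications.
-/

set_option autoImplicit false

namespace Cfsg.Agent.Lib.Helper83

section EndRing

variable {V : Type*} [AddCommGroup V]

theorem endClosure_comm (T : Set (AddMonoid.End V)) (hT : ∀ x ∈ T, ∀ y ∈ T, x * y = y * x)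
    (a b : Subring.closure T) : a * b = b * a :=
  (Subring.isMulCommutative_closure (s := T) hT).is_comm.comm a b

theorem endClosure_exists_apply (T : Set (AddMonoid.End V))
    (hirr : ∀ W : AddSubgroup V, (∀ τ ∈ T, ∀ x ∈ W, τ x ∈ W) → W = ⊥ ∨ W = ⊤)
    {v : V} (hv : v ≠ 0) (w : V) : ∃ e : Subring.closure T, (e : AddMonoid.End V) v = w := by
  let W : AddSubgroup V :=
    { carrier := {w | ∃ e : Subring.closure T, (e : AddMonoid.End V) v = w}
      zero_mem' := ⟨0, rfl⟩
      add_mem' := by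
        rintro a b ⟨e, rfl⟩ ⟨f, rfl⟩
        exact ⟨e + f, rfl⟩
      neg_mem' := by
        rintro a ⟨e, rfl⟩
        exact ⟨-e, rfl⟩ }
  have hW : ∀ τ ∈ T, ∀ x ∈ W, τ x ∈ W := by
    rintro τ hτ x ⟨e, rfl⟩
    exact ⟨⟨τ, Subring.subset_closure hτ⟩ * e, rfl⟩
  rcases hirr W hW with h | h
  · exfalso
    apply hv
    have h1 : v ∈ W := ⟨1, rfl⟩
    rw [h] at h1
    exact h1
  · have h1 : w ∈ W := by rw [h]; trivial
    exact h1

theorem endClosure_eq_zero (T : Set (AddMonoid.End V)) (hT : ∀ x ∈ T, ∀ y ∈ T, x * y = y * x)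
    (hirr : ∀ W : AddSubgroup V, (∀ τ ∈ T, ∀ x ∈ W, τ x ∈ W) → W = ⊥ ∨ W = ⊤)
    (e : Subring.closure T) {v : V} (hv : v ≠ 0) (h : (e : AddMonoid.End V) v = 0) : e = 0 := by
  apply Subtype.ext
  apply AddMonoidHom.ext
  intro w
  obtain ⟨f, rfl⟩ := endClosure_exists_apply T hirr hv w
  have hc : e * f = f * e := endClosure_comm T hT e f
  have h1 : ((e * f : Subring.closure T) : AddMonoid.End V) v
      = ((f * e : Subring.closure T) : AddMonoid.End V) v := by rw [hc]
  calc (e : AddMonoid.End V) ((f : AddMonoid.End V) v)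
      = ((e * f : Subring.closure T) : AddMonoid.End V) v := rfl
    _ = ((f * e : Subring.closure T) : AddMonoid.End V) v := h1
    _ = (f : AddMonoid.End V) ((e : AddMonoid.End V) v) := rfl
    _ = 0 := by rw [h, map_zero]

end EndRing

section FieldOfSubgroups

variable {G : Type*} [Group G]

/-- A commutative subgroup `H` acting irreducibly by conjugation on a finite commutative subgroup
`K` of order `p ^ f` makes `K` the additive group of a field on which `H` acts by
multiplications. -/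
theorem field_of_subgroups (K H : Subgroup G) [Finite K] {p f : ℕ} [Fact p.Prime]
    (hK : ∀ x ∈ K, ∀ y ∈ K, x * y = y * x) (hH : ∀ x ∈ H, ∀ y ∈ H, x * y = y * x)
    (hnorm : ∀ h ∈ H, ∀ k ∈ K, h * k * h⁻¹ ∈ K)
    (hirr : ∀ L : Subgroup G, L ≤ K → (∀ h ∈ H, ∀ x ∈ L, h * x * h⁻¹ ∈ L) → L = ⊥ ∨ L = K)
    (hnt : K ≠ ⊥) (hcard : Nat.card K = p ^ f) :
    ∃ (F : Type) (_ : Field F) (_ : Fintype F) (θ : F → G) (lam : G → F),
      Fintype.card F = p ^ f ∧ (∀ z, θ z ∈ K) ∧ (∀ k ∈ K, ∃ z, θ z = k) ∧ Function.Injective θ ∧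
      (∀ x y, θ (x + y) = θ x * θ y) ∧ (∀ h ∈ H, ∀ z, h * θ z * h⁻¹ = θ (lam h * z)) ∧
      (∀ h ∈ H, ∀ h' ∈ H, lam (h * h') = lam h * lam h') ∧ lam 1 = 1 := by
  classical
  let _ : CommGroup ↥K :=
    { (inferInstance : Group ↥K) with mul_comm := fun x y => Subtype.ext (hK x x.2 y y.2) }
  -- conjugation endomorphisms
  let cj : ↥H → AddMonoid.End (Additive ↥K) := fun h =>
    AddMonoidHom.mk' (fun v => Additive.ofMul
      (⟨(h : G) * ((Additive.toMul v : ↥K) : G) * (h : G)⁻¹, hnorm h h.2 _ (Additive.toMul v).2⟩ : ↥K))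
      (by
        intro v w
        apply congrArg Additive.ofMul
        apply Subtype.ext
        show (h : G) * (((Additive.toMul v : ↥K) : G) * ((Additive.toMul w : ↥K) : G)) * (h : G)⁻¹
          = ((h : G) * ((Additive.toMul v : ↥K) : G) * (h : G)⁻¹) *
            ((h : G) * ((Additive.toMul w : ↥K) : G) * (h : G)⁻¹)
        group)
  have cj_apply : ∀ (h : ↥H) (v : Additive ↥K),
      ((Additive.toMul (cj h v) : ↥K) : G) = (h : G) * ((Additive.toMul v : ↥K) : G) * (h : G)⁻¹ :=
    fun _ _ => rfl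
  have cj_mul : ∀ h h' : ↥H, cj (h * h') = cj h * cj h' := by
    intro h h'
    apply AddMonoidHom.ext
    intro v
    apply Additive.toMul.injective
    apply Subtype.ext
    show ((h * h' : ↥H) : G) * ((Additive.toMul v : ↥K) : G) * ((h * h' : ↥H) : G)⁻¹
      = (h : G) * ((h' : G) * ((Additive.toMul v : ↥K) : G) * (h' : G)⁻¹) * (h : G)⁻¹
    rw [Subgroup.coe_mul]; group
  have cj_one : cj 1 = 1 := by
    apply AddMonoidHom.ext
    intro v
    apply Additive.toMul.injective
    apply Subtype.ext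
    show ((1 : ↥H) : G) * ((Additive.toMul v : ↥K) : G) * ((1 : ↥H) : G)⁻¹
      = ((Additive.toMul v : ↥K) : G)
    rw [Subgroup.coe_one]; group
  obtain ⟨T, hTdef⟩ : ∃ T : Set (AddMonoid.End (Additive ↥K)), T = Set.range cj := ⟨_, rfl⟩
  have hTcomm : ∀ x ∈ T, ∀ y ∈ T, x * y = y * x := by
    rw [hTdef]
    rintro _ ⟨h, rfl⟩ _ ⟨h', rfl⟩
    rw [← cj_mul, ← cj_mul]
    congr 1
    exact Subtype.ext (hH h h.2 h' h'.2)
  have hcjT : ∀ h : ↥H, cj h ∈ T := fun h => by rw [hTdef]; exact ⟨h, rfl⟩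
  -- irreducibility
  have hirrV : ∀ W : AddSubgroup (Additive ↥K), (∀ τ ∈ T, ∀ x ∈ W, τ x ∈ W) → W = ⊥ ∨ W = ⊤ := by
    intro W hW
    let L : Subgroup G :=
      { carrier := {g | ∃ hg : g ∈ K, Additive.ofMul (⟨g, hg⟩ : ↥K) ∈ W}
        one_mem' := ⟨K.one_mem, W.zero_mem⟩
        mul_mem' := by
          rintro x y ⟨hx, hx'⟩ ⟨hy, hy'⟩
          exact ⟨K.mul_mem hx hy, W.add_mem hx' hy'⟩
        inv_mem' := by
          rintro x ⟨hx, hx'⟩
          exact ⟨K.inv_mem hx, W.neg_mem hx'⟩ }
    have hLK : L ≤ K := fun g hg => hg.1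
    have hLinv : ∀ h ∈ H, ∀ x ∈ L, h * x * h⁻¹ ∈ L := by
      rintro h hh x ⟨hx, hx'⟩
      exact ⟨hnorm h hh x hx, hW (cj ⟨h, hh⟩) (hcjT _) _ hx'⟩
    rcases hirr L hLK hLinv with hL | hL
    · left
      rw [eq_bot_iff]
      intro v hv
      have h1 : ((Additive.toMul v : ↥K) : G) ∈ L := ⟨(Additive.toMul v).2, hv⟩
      rw [hL, Subgroup.mem_bot] at h1
      rw [AddSubgroup.mem_bot]
      have h2 : (Additive.toMul v : ↥K) = 1 := Subtype.ext h1
      exact Additive.toMul.injective h2
    · right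
      rw [eq_top_iff]
      intro v _
      have h1 : ((Additive.toMul v : ↥K) : G) ∈ L := by rw [hL]; exact (Additive.toMul v).2
      obtain ⟨_, h2⟩ := h1
      exact h2
  -- a nonzero vector
  obtain ⟨⟨k₀, hk₀⟩, hk₀1⟩ := (Subgroup.ne_bot_iff_exists_ne_one).mp hnt
  obtain ⟨v₀, hv₀def⟩ : ∃ v₀ : Additive ↥K, v₀ = Additive.ofMul (⟨k₀, hk₀⟩ : ↥K) := ⟨_, rfl⟩
  have hv₀ : v₀ ≠ 0 := by
    rw [hv₀def]
    intro h
    exact hk₀1 (Additive.ofMul.injective h)
  -- the ring
  let _ : CommRing (Subring.closure T) :=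
    { (Subring.closure T).toRing with mul_comm := endClosure_comm T hTcomm }
  have hev_inj : Function.Injective
      (fun e : Subring.closure T => (e : AddMonoid.End (Additive ↥K)) v₀) := by
    intro e e' hee
    have h1 : ((e - e' : Subring.closure T) : AddMonoid.End (Additive ↥K)) v₀ = 0 := by
      show (e : AddMonoid.End (Additive ↥K)) v₀ - (e' : AddMonoid.End (Additive ↥K)) v₀ = 0
      rw [sub_eq_zero]; exact hee
    exact sub_eq_zero.mp (endClosure_eq_zero T hTcomm hirrV (e - e') hv₀ h1)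
  have hev_surj : Function.Surjective
      (fun e : Subring.closure T => (e : AddMonoid.End (Additive ↥K)) v₀) :=
    fun w => endClosure_exists_apply T hirrV hv₀ w
  have : Finite (Additive ↥K) := Finite.of_equiv ↥K Additive.ofMul
  have : Finite (Subring.closure T) := Finite.of_injective _ hev_inj
  have : Nontrivial (Subring.closure T) := ⟨⟨0, 1, fun h => by
    have h1 : ((0 : Subring.closure T) : AddMonoid.End (Additive ↥K)) v₀
        = ((1 : Subring.closure T) : AddMonoid.End (Additive ↥K)) v₀ := by rw [h]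
    exact hv₀ h1.symm⟩⟩
  have : NoZeroDivisors (Subring.closure T) := ⟨by
    intro e e' hee
    by_contra hcon
    push Not at hcon
    obtain ⟨he, he'⟩ := hcon
    have h1 : ∃ v, (e' : AddMonoid.End (Additive ↥K)) v ≠ 0 := by
      by_contra hall
      push Not at hall
      apply he'
      apply Subtype.ext
      apply AddMonoidHom.ext
      intro v
      exact hall v
    obtain ⟨v, hv⟩ := h1
    apply he
    apply endClosure_eq_zero T hTcomm hirrV e hv
    have h2 : ((e * e' : Subring.closure T) : AddMonoid.End (Additive ↥K)) v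
        = ((0 : Subring.closure T) : AddMonoid.End (Additive ↥K)) v := by rw [hee]
    exact h2⟩
  have : IsDomain (Subring.closure T) := NoZeroDivisors.to_isDomain _
  let _ : Fintype (Subring.closure T) := Fintype.ofFinite _
  let _ : Field (Subring.closure T) := Fintype.fieldOfDomain (Subring.closure T)
  have hcardR : Nat.card (Subring.closure T) = p ^ f := by
    rw [← hcard]
    exact (Nat.card_congr (Equiv.ofBijective _ ⟨hev_inj, hev_surj⟩)).trans
      (Nat.card_congr Additive.toMul)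
  have hf0 : f ≠ 0 := by
    rintro rfl
    rw [pow_zero] at hcard
    exact hnt (Subgroup.eq_bot_of_card_eq K hcard)
  have : Finite (GaloisField p f) := Nat.finite_of_card_ne_zero (by
    rw [GaloisField.card p f hf0]
    exact pow_ne_zero _ (Fact.out : p.Prime).ne_zero)
  let _ : Fintype (GaloisField p f) := Fintype.ofFinite _
  have hcardF : Fintype.card (GaloisField p f) = p ^ f := by
    rw [← Nat.card_eq_fintype_card, GaloisField.card p f hf0]
  obtain ⟨ι⟩ : Nonempty (GaloisField p f ≃+* Subring.closure T) :=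
    ⟨FiniteField.ringEquivOfCardEq (by rw [hcardF, ← Nat.card_eq_fintype_card, hcardR])⟩
  refine ⟨GaloisField p f, inferInstance, inferInstance,
    fun z => ((Additive.toMul (((ι z : Subring.closure T) : AddMonoid.End (Additive ↥K)) v₀) : ↥K) : G),
    fun g => if hg : g ∈ H then ι.symm ⟨cj ⟨g, hg⟩, Subring.subset_closure (hcjT _)⟩ else 0,
    hcardF, ?_, ?_, ?_, ?_, ?_, ?_, ?_⟩
  · intro z
    exact (Additive.toMul (((ι z : Subring.closure T) : AddMonoid.End (Additive ↥K)) v₀)).2
  · intro k hk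
    obtain ⟨e, he⟩ := hev_surj (Additive.ofMul (⟨k, hk⟩ : ↥K))
    refine ⟨ι.symm e, ?_⟩
    show ((Additive.toMul (((ι (ι.symm e) : Subring.closure T) :
      AddMonoid.End (Additive ↥K)) v₀) : ↥K) : G) = k
    rw [RingEquiv.apply_symm_apply]
    have he' : ((e : AddMonoid.End (Additive ↥K)) v₀) = Additive.ofMul (⟨k, hk⟩ : ↥K) := he
    rw [he']
    rfl
  · intro z z' hzz
    have h1 : (Additive.toMul (((ι z : Subring.closure T) : AddMonoid.End (Additive ↥K)) v₀) : ↥K)
        = Additive.toMul (((ι z' : Subring.closure T) : AddMonoid.End (Additive ↥K)) v₀) :=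
      Subtype.ext hzz
    exact ι.injective (hev_inj (Additive.toMul.injective h1))
  · intro x y
    show ((Additive.toMul (((ι (x + y) : Subring.closure T) :
      AddMonoid.End (Additive ↥K)) v₀) : ↥K) : G) = _
    rw [map_add]
    rfl
  · intro h hh z
    show h * ((Additive.toMul (((ι z : Subring.closure T) :
        AddMonoid.End (Additive ↥K)) v₀) : ↥K) : G) * h⁻¹
      = ((Additive.toMul (((ι ((if hg : h ∈ H then
          ι.symm ⟨cj ⟨h, hg⟩, Subring.subset_closure (hcjT _)⟩ else 0) * z) : Subring.closure T) :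
        AddMonoid.End (Additive ↥K)) v₀) : ↥K) : G)
    rw [dif_pos hh, map_mul, RingEquiv.apply_symm_apply]
    rfl
  · intro h hh h' hh'
    show (if hg : h * h' ∈ H then
        ι.symm ⟨cj ⟨h * h', hg⟩, Subring.subset_closure (hcjT _)⟩ else 0)
      = (if hg : h ∈ H then ι.symm ⟨cj ⟨h, hg⟩, Subring.subset_closure (hcjT _)⟩ else 0) *
        (if hg : h' ∈ H then ι.symm ⟨cj ⟨h', hg⟩, Subring.subset_closure (hcjT _)⟩ else 0)
    rw [dif_pos hh, dif_pos hh', dif_pos (H.mul_mem hh hh'), ← map_mul]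
    congr 1
    apply Subtype.ext
    exact cj_mul ⟨h, hh⟩ ⟨h', hh'⟩
  · show (if hg : (1 : G) ∈ H then
        ι.symm ⟨cj ⟨1, hg⟩, Subring.subset_closure (hcjT _)⟩ else 0) = 1
    rw [dif_pos H.one_mem]
    rw [RingEquiv.symm_apply_eq, map_one]
    apply Subtype.ext
    exact cj_one

end FieldOfSubgroups

end Cfsg.Agent.Lib.Helper83
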