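import Cfsg.Agent.Lib.Helper83.RankOne2

set_option autoImplicit false

namespace Cfsg.Agent.Lib.Helper83

open Cfsg
open scoped commutatorElement

variable {G : Type*} [Group G]

theorem mulComm_of_isMulCommutative {B : Subgroup G} (hB : IsMulCommutative B) {x y : G} (hx : x ∈ B)
    (hy : y ∈ B) : x * y = y * x :=
  congrArg Subtype.val (hB.is_comm.comm ⟨x, hx⟩ ⟨y, hy⟩)

theorem commute_of_commutator_eq_bot {A B : Subgroup G} (h : ⁅A, B⁆ = ⊥) {a b : G} (ha : a ∈ A)
    (hb : b ∈ B) : a * b = b * a := by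
  rw [Subgroup.commutator_eq_bot_iff_le_centralizer] at h
  exact ((Subgroup.mem_centralizer_iff.mp (h ha)) b hb).symm

theorem conjBy_eq_of_commute {C : Subgroup G} {z : G} (hz : ∀ c ∈ C, z * c = c * z) : conjBy C z = C := by
  ext x
  rw [mem_conjBy]
  constructor
  · intro h
    have e : x = z * (z⁻¹ * x * z) * z⁻¹ := by group
    rw [e, hz _ h]
    simpa using h
  · intro h
    have e : z⁻¹ * x * z = x := by
      rw [mul_assoc, ← hz x h, ← mul_assoc, inv_mul_cancel, one_mul]
    rw [e]; exact h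

/-- In the commutator case, `B` commutes elementwise with its conjugates under elements of `E`. -/
theorem commCase_commute_conj {S : Set (Subgroup G)} {E B : Subgroup G} (hB : IsMulCommutative B)
    (hc : RootCommutatorCase S E B) {x : G} (hx : x ∈ E) :
    ∀ b ∈ B, ∀ b' ∈ conjBy B x, b * b' = b' * b := by
  intro b hb b' hb'
  rw [mem_conjBy] at hb'
  obtain ⟨b₁, hb₁, rfl⟩ : ∃ b₁ ∈ B, b' = x * b₁ * x⁻¹ := ⟨x⁻¹ * b' * x, hb', by group⟩
  have hcm : x * b₁ * x⁻¹ * b₁⁻¹ ∈ ⁅E, B⁆ := by
    have := Subgroup.commutator_mem_commutator hx hb₁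
    rwa [commutatorElement_def] at this
  have h1 := hc.2.1 _ hcm b (Subgroup.mem_sup_right hb)
  have h2 := mulComm_of_isMulCommutative hB hb hb₁
  calc b * (x * b₁ * x⁻¹) = b * ((x * b₁ * x⁻¹ * b₁⁻¹) * b₁) := by group
    _ = (b * (x * b₁ * x⁻¹ * b₁⁻¹)) * b₁ := by group
    _ = ((x * b₁ * x⁻¹ * b₁⁻¹) * b) * b₁ := by rw [h1]
    _ = (x * b₁ * x⁻¹ * b₁⁻¹) * (b * b₁) := by group
    _ = (x * b₁ * x⁻¹ * b₁⁻¹) * (b₁ * b) := by rw [h2]
    _ = x * b₁ * x⁻¹ * b := by group

theorem rankOne_not_commute_all {A B : Subgroup G} (h : IsRankOnePair A B) :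
    ¬ ∀ a ∈ A, ∀ b ∈ B, a * b = b * a := by
  intro hc
  obtain ⟨⟨a, ha⟩, ha1⟩ := (Subgroup.ne_bot_iff_exists_ne_one).mp (rankOne_ne_bot_left h)
  obtain ⟨⟨b, hb⟩, hb1⟩ := (Subgroup.ne_bot_iff_exists_ne_one).mp (rankOne_ne_bot_right h)
  exact rankOne_not_commute h ha (fun e => ha1 (Subtype.ext e)) hb (fun e => hb1 (Subtype.ext e))
    (hc a ha b hb)

theorem rankOne_not_commute_conj {A B : Subgroup G} (h : IsRankOnePair A B) {a : G} (ha : a ∈ A)
    (ha1 : a ≠ 1) : ¬ ∀ b ∈ B, ∀ b' ∈ conjBy B a, b * b' = b' * b := by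
  have hne : B ≠ conjBy B a := fun e => ha1 (rankOne_eq_one_of_normalizes h ha e.symm)
  have hp := (rankOne_pair_of_mem_unipotent h (rankOne_right_mem_unipotent h)
    (unipotent_conj_mem (rankOne_right_mem_unipotent h) (Subgroup.mem_sup_left ha)) hne).1
  exact rankOne_not_commute_all hp

theorem rankOne_cond_pos {A B : Subgroup G} (h : IsRankOnePair A B) {a : G} (ha : a ∈ A) (ha1 : a ≠ 1) :
    ∃ b ∈ B, b ≠ 1 ∧ conjBy A b = conjBy B a := by
  obtain ⟨b, hb, hb1, e⟩ := h.cond_left a⁻¹ (inv_mem ha) (fun e => ha1 (inv_eq_one.mp e))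
  rw [inv_inv] at e
  exact ⟨b⁻¹, inv_mem hb, fun e' => hb1 (inv_eq_one.mp e'), e⟩

/-- If `x ∈ E` acts on `C` like a non-identity element `a` of a rank one partner `A` of `C`, then `(E, C)` is a
rank one pair. -/
theorem root_rankOne_of_conj_eq {S : Set (Subgroup G)} (hS : IsRootSubgroupSet S) {A C E : Subgroup G}
    (hC : C ∈ S) (hE : E ∈ S) (hAC : IsRankOnePair A C) {a x : G} (ha : a ∈ A) (ha1 : a ≠ 1)
    (hx : x ∈ E) (hxa : conjBy C x = conjBy C a) : IsRankOnePair E C := by
  rcases hS.pair E hE C hC with h0 | h1 | h2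
  · exfalso
    have : conjBy C x = C := conjBy_eq_of_commute (fun c hc => commute_of_commutator_eq_bot h0 hx hc)
    rw [hxa] at this
    exact ha1 (rankOne_eq_one_of_normalizes hAC ha this)
  · exact h1
  · exfalso
    have := commCase_commute_conj (hS.commutative C hC) h2 hx
    rw [hxa] at this
    exact rankOne_not_commute_conj hAC ha ha1 this

theorem rankOne_conj_of_conj_eq {A B C : Subgroup G} (hAC : IsRankOnePair A C) (hBC : IsRankOnePair B C)
    {a x : G} (ha : a ∈ A) (ha1 : a ≠ 1) (hx : x ∈ B) (hxa : conjBy C x = conjBy C a) :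
    ∃ c ∈ C, B = conjBy A c := by
  have hx1 : x ≠ 1 := by
    rintro rfl
    rw [conjBy_one] at hxa
    exact ha1 (rankOne_eq_one_of_normalizes hAC ha hxa.symm)
  obtain ⟨c₁, hc₁, -, e₁⟩ := rankOne_cond_pos hAC ha ha1
  obtain ⟨c₂, hc₂, -, e₂⟩ := rankOne_cond_pos hBC hx hx1
  refine ⟨c₂⁻¹ * c₁, mul_mem (inv_mem hc₂) hc₁, ?_⟩
  rw [← conjBy_conjBy, e₁, ← hxa, ← e₂, conjBy_conjBy]
  simp [conjBy_one]

theorem root_eq_or_rankOne_of_conj_eq {S : Set (Subgroup G)} (hS : IsRootSubgroupSet S)
    {A C E : Subgroup G} (hC : C ∈ S) (hE : E ∈ S) (hAC : IsRankOnePair A C) {a x : G} (ha : a ∈ A)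
    (ha1 : a ≠ 1) (hx : x ∈ E) (hxa : conjBy C x = conjBy C a) : E = A ∨ IsRankOnePair A E := by
  have hEC := root_rankOne_of_conj_eq hS hC hE hAC ha ha1 hx hxa
  obtain ⟨c, hc, rfl⟩ := rankOne_conj_of_conj_eq hAC hEC ha ha1 hx hxa
  by_cases hne : conjBy A c = A
  · left; exact hne
  · right
    exact (rankOne_pair_of_mem_unipotent hAC (left_mem_unipotent A C)
      ⟨c, Subgroup.mem_sup_right hc, rfl⟩ (Ne.symm hne)).1

theorem exists_rankOne_partner_of_not_isolated {S : Set (Subgroup G)} {A : Subgroup G} (hAS : A ∈ S)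
    (h : ¬ IsIsolatedIn (FAdj S) S A) : ∃ C ∈ S, IsRankOnePair A C := by
  by_contra hno
  apply h
  refine ⟨hAS, fun B => ⟨?_, ?_⟩⟩
  · rintro ⟨-, hB, hp⟩
    exact hno ⟨B, hB, hp⟩
  · rintro ⟨hB, -, hp⟩
    exact hno ⟨B, hB, rankOne_symm hp⟩

/-- Timmesfeld II(2.5): a member with a rank one partner meets every other member trivially. -/
theorem root_inf_eq_bot_or_eq {S : Set (Subgroup G)} (hS : IsRootSubgroupSet S) {A C : Subgroup G}
    (hC : C ∈ S) (hAC : IsRankOnePair A C) {B : Subgroup G} (hB : B ∈ S) :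
    A ⊓ B = ⊥ ∨ A = B := by
  by_cases hbot : A ⊓ B = ⊥
  · left; exact hbot
  · right
    obtain ⟨⟨x, hx⟩, hx1⟩ := (Subgroup.ne_bot_iff_exists_ne_one).mp hbot
    have hx1' : x ≠ 1 := fun e => hx1 (Subtype.ext e)
    rcases root_eq_or_rankOne_of_conj_eq hS hC hB hAC hx.1 hx1' hx.2 rfl with e | hp
    · exact e.symm
    · exfalso
      exact rankOne_not_commute hp hx.1 hx1' hx.2 hx1' rfl

/-- Timmesfeld II(2.2): a non-identity element centralizing a rank one group `⟨A, B⟩` times a non-identity
element of `A` is never a root element. -/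
theorem root_central_mul_not_root {S : Set (Subgroup G)} (hS : IsRootSubgroupSet S) {A B : Subgroup G}
    (hB : B ∈ S) (hAB : IsRankOnePair A B) {z : G}
    (hz : z ∈ Subgroup.centralizer ((A ⊔ B : Subgroup G) : Set G)) (hz1 : z ≠ 1) {a : G} (ha : a ∈ A)
    (ha1 : a ≠ 1) : z * a ∉ rootElements S := by
  rintro ⟨-, E, hE, hzE⟩
  have hzc : ∀ y ∈ A ⊔ B, z * y = y * z := fun y hy => ((Subgroup.mem_centralizer_iff.mp hz) y hy).symm
  have hxa : conjBy B (z * a) = conjBy B a := by
    rw [← conjBy_conjBy]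
    apply conjBy_eq_of_commute
    intro c hc
    exact hzc c (conjBy_le_of_mem le_sup_right (Subgroup.mem_sup_left ha) hc)
  rcases root_eq_or_rankOne_of_conj_eq hS hB hE hAB ha ha1 hzE hxa with e | hp
  · rw [e] at hzE
    have hzA : z ∈ A := by
      have := A.mul_mem hzE (A.inv_mem ha)
      simpa using this
    have hzB : conjBy B z = B :=
      conjBy_eq_of_commute (fun c hc => hzc c (Subgroup.mem_sup_right hc))
    exact hz1 (rankOne_eq_one_of_normalizes hAB hzA hzB)
  · have hza1 : z * a ≠ 1 := by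
      intro e
      have hzA : z ∈ A := by
        have : z = a⁻¹ := mul_eq_one_iff_eq_inv.mp e
        rw [this]; exact inv_mem ha
      have hzB : conjBy B z = B :=
        conjBy_eq_of_commute (fun c hc => hzc c (Subgroup.mem_sup_right hc))
      exact hz1 (rankOne_eq_one_of_normalizes hAB hzA hzB)
    apply rankOne_not_commute hp ha ha1 hzE hza1
    rw [← mul_assoc, ← hzc a (Subgroup.mem_sup_left ha)]

theorem le_centralizer_zpowers_iff {E : Subgroup G} {x : G} :
    E ≤ Subgroup.centralizer ((Subgroup.zpowers x : Subgroup G) : Set G) ↔ ∀ e ∈ E, e * x = x * e := by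
  constructor
  · intro h e he
    exact ((Subgroup.mem_centralizer_iff.mp (h he)) x (Subgroup.mem_zpowers x)).symm
  · intro h e he
    rw [Subgroup.mem_centralizer_iff]
    intro y hy
    obtain ⟨k, rfl⟩ := Subgroup.mem_zpowers_iff.mp hy
    have : Commute e x := h e he
    exact (this.zpow_right k).eq.symm

/-- Timmesfeld II(2.3). -/
theorem root_centralizing_mul {S : Set (Subgroup G)} (hS : IsRootSubgroupSet S)
    (hdeg : IsDegenerateRootSet S) {a b : G} (ha : a ∈ rootElements S) (hb : b ∈ rootElements S)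
    (hab : a * b = b * a) (hab1 : a * b ≠ 1) :
    centralizingMembers S (Subgroup.zpowers (a * b)) =
      centralizingMembers S (Subgroup.zpowers a) ∩ centralizingMembers S (Subgroup.zpowers b) := by
  obtain ⟨ha1, A, hA, haA⟩ := ha
  obtain ⟨hb1, B, hB, hbB⟩ := hb
  ext E
  simp only [centralizingMembers, Set.mem_ofPred_eq, Set.mem_inter_iff, le_centralizer_zpowers_iff]
  constructor
  · rintro ⟨hE, hEab⟩
    have hEa : ∀ e ∈ E, e * a = a * e := by
      rcases hS.pair E hE A hA with h0 | h1 | h2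
      · intro e he
        exact commute_of_commutator_eq_bot h0 he haA
      · exfalso
        -- `A` and `B` commute elementwise
        have hAB : ∀ x ∈ A, ∀ y ∈ B, x * y = y * x := by
          rcases hS.pair A hA B hB with h0' | h1' | h2'
          · intro x hx y hy
            exact commute_of_commutator_eq_bot h0' hx hy
          · exact absurd hab (rankOne_not_commute h1' haA ha1 hbB hb1)
          · exact absurd h2' (hdeg A hA B hB)
        have hz : a * b ∈ Subgroup.centralizer ((A ⊔ E : Subgroup G) : Set G) := by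
          have hAc : A ≤ Subgroup.centralizer ({a * b} : Set G) := by
            intro x hx
            rw [Subgroup.mem_centralizer_iff]
            intro m hm
            rw [Set.mem_singleton_iff] at hm
            rw [hm, mul_assoc, ← hAB x hx b hbB, ← mul_assoc, ← mul_assoc,
              mulComm_of_isMulCommutative (hS.commutative A hA) haA hx]
          have hEc : E ≤ Subgroup.centralizer ({a * b} : Set G) := by
            intro e he
            rw [Subgroup.mem_centralizer_iff]
            intro m hm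
            rw [Set.mem_singleton_iff] at hm
            rw [hm]
            exact (hEab e he).symm
          rw [Subgroup.mem_centralizer_iff]
          intro y hy
          have := (sup_le hAc hEc) hy
          rw [Subgroup.mem_centralizer_iff] at this
          exact (this (a * b) rfl).symm
        have hnot := root_central_mul_not_root hS hE (rankOne_symm h1) hz hab1 (inv_mem haA)
          (fun e => ha1 (inv_eq_one.mp e))
        apply hnot
        have e : a * b * a⁻¹ = b := by rw [hab]; group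
        rw [e]
        exact ⟨hb1, B, hB, hbB⟩
      · exact absurd h2 (hdeg E hE A hA)
    refine ⟨⟨hE, hEa⟩, hE, ?_⟩
    intro e he
    have h1 := hEab e he
    have h2 := hEa e he
    calc e * b = a⁻¹ * (a * e) * b := by group
      _ = a⁻¹ * (e * a) * b := by rw [h2]
      _ = a⁻¹ * (e * (a * b)) := by group
      _ = a⁻¹ * (a * b * e) := by rw [h1]
      _ = b * e := by group
  · rintro ⟨⟨hE, hEa⟩, -, hEb⟩
    refine ⟨hE, fun e he => ?_⟩
    rw [← mul_assoc, hEa e he, mul_assoc, hEb e he, mul_assoc]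

/-- Timmesfeld II(2.4): if every member has a rank one partner then the second centre is the centre. -/
theorem root_upperCentralSeries_two {S : Set (Subgroup G)} (hS : IsRootSubgroupSet S)
    (hF : ∀ A ∈ S, ¬ IsIsolatedIn (FAdj S) S A) :
    Subgroup.upperCentralSeries G 2 = Subgroup.center G := by
  have hmono : Subgroup.center G ≤ Subgroup.upperCentralSeries G 2 := by
    rw [← Subgroup.upperCentralSeries_one]
    exact Subgroup.upperCentralSeries_mono G (by norm_num)
  refine le_antisymm ?_ hmono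
  intro z hz
  have hzc : ∀ y : G, z * y * z⁻¹ * y⁻¹ ∈ Subgroup.center G := by
    intro y
    have := (Subgroup.mem_upperCentralSeries_succ_iff (n := 1)).mp hz y
    rwa [Subgroup.upperCentralSeries_one, commutatorElement_def] at this
  have hcomm : ∀ A ∈ S, ∀ a ∈ A, z * a = a * z := by
    intro A hA
    obtain ⟨C, hC, hAC⟩ := exists_rankOne_partner_of_not_isolated hA (hF A hA)
    -- `z` normalizes `A`
    have hzA : conjBy A z = A := by
      by_contra hne
      obtain ⟨⟨a, ha⟩, ha1⟩ := (Subgroup.ne_bot_iff_exists_ne_one).mp (rankOne_ne_bot_left hAC)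
      have ha1' : a ≠ 1 := fun e => ha1 (Subtype.ext e)
      have hx : z * a * z⁻¹ ∈ conjBy A z := conj_mem_conjBy ha z
      have hxe : z * a * z⁻¹ = (z * a * z⁻¹ * a⁻¹) * a := by group
      have hxa : conjBy C (z * a * z⁻¹) = conjBy C a := by
        rw [hxe, ← conjBy_conjBy, conjBy_of_mem_center _ (hzc a)]
      rcases root_eq_or_rankOne_of_conj_eq hS hC (hS.conj_mem A hA z) hAC ha ha1' hx hxa with e | hp
      · exact hne e
      · have hx1 : z * a * z⁻¹ ≠ 1 := by
          intro e
          apply ha1'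
          have : a = z⁻¹ * (z * a * z⁻¹) * z := by group
          rw [this, e]; group
        apply rankOne_not_commute hp ha ha1' hx hx1
        have h1 := Subgroup.mem_center_iff.mp (hzc a) a
        rw [hxe, ← mul_assoc, h1]
    intro a ha
    have hcA : z * a * z⁻¹ * a⁻¹ ∈ A := by
      refine mul_mem ?_ (inv_mem ha)
      have : z * a * z⁻¹ ∈ conjBy A z := conj_mem_conjBy ha z
      rwa [hzA] at this
    have h1 := rankOne_eq_one_of_normalizes hAC hcA (conjBy_of_mem_center C (hzc a))
    calc z * a = (z * a * z⁻¹ * a⁻¹) * (a * z) := by group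
      _ = a * z := by rw [h1, one_mul]
  have hle : (⨆ A ∈ S, A) ≤ Subgroup.centralizer ({z} : Set G) := by
    refine iSup₂_le ?_
    intro A hA a ha
    rw [Subgroup.mem_centralizer_iff]
    intro m hm
    rw [Set.mem_singleton_iff] at hm
    rw [hm]
    exact hcomm A hA a ha
  rw [hS.generates] at hle
  rw [Subgroup.mem_center_iff]
  intro g
  have := hle (Subgroup.mem_top g)
  rw [Subgroup.mem_centralizer_iff] at this
  exact (this z rfl).symm

/-- Timmesfeld II(2.1). -/
theorem root_rankOne_le_eq {S : Set (Subgroup G)} (hS : IsRootSubgroupSet S) {A B C D : Subgroup G}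
    (hA : A ∈ S) (hB : B ∈ S) (hAB : IsRankOnePair A B) (hCS : C ∈ S) (hCD : IsRankOnePair C D)
    (hle : A ⊔ B ≤ C ⊔ D) :
    A ⊔ B = C ⊔ D ∧ C ∈ unipotentSubgroups A B ∧ D ∈ unipotentSubgroups A B := by
  have hΩS : ∀ E ∈ unipotentSubgroups C D, E ∈ S := by
    rintro E ⟨x, -, rfl⟩
    exact hS.conj_mem C hCS x
  -- a member of S inside C ⊔ D with a rank one partner inside C ⊔ D is a conjugate of C
  have key : ∀ A' B' : Subgroup G, A' ∈ S → IsRankOnePair A' B' → A' ⊔ B' ≤ C ⊔ D →
      A' ∈ unipotentSubgroups C D := by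
    intro A' B' hA' hp hle'
    by_contra hnot
    have hnorm : ∀ a ∈ A', ∀ E ∈ unipotentSubgroups C D, conjBy E a = E := by
      intro a ha E hE
      rcases hS.pair A' hA' E (hΩS E hE) with h0 | h1 | h2
      · exact conjBy_eq_of_commute (fun c hc => commute_of_commutator_eq_bot h0 ha hc)
      · exfalso
        apply hnot
        obtain ⟨x, hx, e⟩ := rankOne_right_mem_unipotent (rankOne_symm h1)
        obtain ⟨y, hy, rfl⟩ := hE
        refine ⟨x * y, mul_mem ?_ hy, ?_⟩
        · exact (sup_le (conjBy_le_of_mem le_sup_left hy) (le_sup_left.trans hle')) hx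
        · rw [e, conjBy_conjBy]
      · by_contra hne
        have hcomm := commCase_commute_conj (hS.commutative E (hΩS E hE)) h2 ha
        have hp' := (rankOne_pair_of_mem_unipotent hCD hE
          (unipotent_conj_mem hE (hle' (Subgroup.mem_sup_left ha))) (Ne.symm hne)).1
        exact rankOne_not_commute_all hp' hcomm
    apply rankOne_ne_bot_left hp
    rw [eq_bot_iff]
    intro a ha
    have hc := rankOne_centralizes_of_normalizes_all hCD (hnorm a ha)
    have hB' : conjBy B' a = B' := by
      apply conjBy_eq_of_commute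
      intro c hc'
      exact ((Subgroup.mem_centralizer_iff.mp hc) c (hle' (Subgroup.mem_sup_right hc'))).symm
    rw [Subgroup.mem_bot]
    exact rankOne_eq_one_of_normalizes hp ha hB'
  have hAΩ := key A B hA hAB hle
  have hBΩ := key B A hB (rankOne_symm hAB) (by rw [sup_comm]; exact hle)
  have h1 := rankOne_pair_of_mem_unipotent hCD hAΩ hBΩ hAB.ne
  have h2 := unipotent_eq_of_mem hCD hAΩ hBΩ hAB.ne
  refine ⟨h1.2, ?_, ?_⟩
  · rw [h2]; exact left_mem_unipotent C D
  · rw [h2]; exact rankOne_right_mem_unipotent hCD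

end Cfsg.Agent.Lib.Helper83
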