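import Cfsg.Agent.Lib.Helper83.Special
import Cfsg.Agent.Lib.Helper83.RootSet

set_option autoImplicit false

namespace Cfsg.Agent.Lib.Helper83

open Cfsg
open scoped commutatorElement

variable {G : Type*} [Group G] {A B : Subgroup G}

/-- `n B n⁻¹ = A` and `n A n⁻¹ = B` for `n = a b⁻¹ a`. -/
theorem special_conj_n (hs : IsSpecialRankOnePair A B) {a b : G} (r : RPartner A B a b) :
    conjBy B (a * b⁻¹ * a) = A ∧ conjBy A (a * b⁻¹ * a) = B := by
  have h1 := special_swap_left hs r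
  have h2 := special_swap_right hs r
  constructor
  · rw [conjBy_eq_iff]; exact h1.symm
  · rw [conjBy_eq_iff]; exact h2.symm

/-- `n_y` maps the point `y B y⁻¹` to the point `y⁻¹ B y`. -/
theorem special_n_point (hs : IsSpecialRankOnePair A B) {y b : G} (r : RPartner A B y b) :
    conjBy B ((y * b⁻¹ * y) * y) = conjBy B y⁻¹ := by
  rw [← special_n_right hs r, ← conjBy_conjBy B, (special_conj_n hs r).1]
  exact r.2.2

theorem special_n_mem_sup {a b : G} (r : RPartner A B a b) : a * b⁻¹ * a ∈ A ⊔ B :=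
  mul_mem (mul_mem (Subgroup.mem_sup_left r.1) (inv_mem (Subgroup.mem_sup_right r.2.1)))
    (Subgroup.mem_sup_left r.1)

/-- `n_a n_y⁻¹` lies in the diagonal subgroup. -/
theorem special_diag_mem (hs : IsSpecialRankOnePair A B) {a b y c : G} (r : RPartner A B a b)
    (ry : RPartner A B y c) : (a * b⁻¹ * a) * (y * c⁻¹ * y)⁻¹ ∈ rankOneDiagonal A B := by
  unfold rankOneDiagonal
  refine Subgroup.mem_inf.mpr ⟨Subgroup.mem_inf.mpr
    ⟨mul_mem (special_n_mem_sup r) (inv_mem (special_n_mem_sup ry)), ?_⟩, ?_⟩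
  · rw [mem_normalizer_iff_conjBy, ← conjBy_conjBy, special_swap_left hs ry,
      (special_conj_n hs r).1]
  · rw [mem_normalizer_iff_conjBy, ← conjBy_conjBy, special_swap_right hs ry,
      (special_conj_n hs r).2]

/-- `n_a` maps the point `y` to the point `y⁻¹ κ` with `κ ∈ ⁅A, H⁆`. -/
theorem special_n_point_gen (hs : IsSpecialRankOnePair A B) {a b y : G} (r : RPartner A B a b)
    (hy : y ∈ A) (hy1 : y ≠ 1) :
    ∃ κ ∈ ⁅A, rankOneDiagonal A B⁆, y⁻¹ * κ ∈ A ∧
      conjBy B ((a * b⁻¹ * a) * y) = conjBy B (y⁻¹ * κ) := by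
  obtain ⟨c, ry⟩ := rpartner_exists hs.1 hy hy1
  have hh := special_diag_mem hs r ry
  obtain ⟨h', hh'def⟩ : ∃ h', h' = (a * b⁻¹ * a) * (y * c⁻¹ * y)⁻¹ := ⟨_, rfl⟩
  rw [← hh'def] at hh
  have hh2 := hh
  unfold rankOneDiagonal at hh2
  have hhA : conjBy A h' = A := mem_normalizer_iff_conjBy.mp (Subgroup.mem_inf.mp (Subgroup.mem_inf.mp hh2).1).2
  have hhB : conjBy B h' = B := mem_normalizer_iff_conjBy.mp (Subgroup.mem_inf.mp hh2).2
  have e : y⁻¹ * ⁅y, h'⁆ = h' * y⁻¹ * h'⁻¹ := by rw [commutatorElement_def]; group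
  refine ⟨⁅y, h'⁆, Subgroup.commutator_mem_commutator hy hh, ?_, ?_⟩
  · rw [e]
    have := conj_mem_conjBy (inv_mem hy) h'
    rwa [hhA] at this
  · have e2 : (a * b⁻¹ * a) * y = h' * ((y * c⁻¹ * y) * y) := by rw [hh'def]; group
    have hhB' : conjBy B h'⁻¹ = B := (conjBy_eq_iff.mp hhB).symm
    calc conjBy B ((a * b⁻¹ * a) * y) = conjBy (conjBy B ((y * c⁻¹ * y) * y)) h' := by
          rw [e2, conjBy_conjBy]
      _ = conjBy (conjBy B y⁻¹) h' := by rw [special_n_point hs ry]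
      _ = conjBy (conjBy B h'⁻¹) (h' * y⁻¹) := by rw [hhB', conjBy_conjBy]
      _ = conjBy B (y⁻¹ * ⁅y, h'⁆) := by rw [conjBy_conjBy, e]

/-- The basic relation: `x a x ∈ ⁅A, H⁆` for non-identity `a, x ∈ A` with `a x ≠ 1`. -/
theorem special_base (hs : IsSpecialRankOnePair A B) (hA : IsMulCommutative A) {a x : G}
    (ha : a ∈ A) (ha1 : a ≠ 1) (hx : x ∈ A) (hx1 : x ≠ 1) (hax : a * x ≠ 1) :
    x * a * x ∈ ⁅A, rankOneDiagonal A B⁆ := by
  obtain ⟨b, r⟩ := rpartner_exists hs.1 ha ha1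
  have r' := rpartner_inv hs r
  obtain ⟨n, hn⟩ : ∃ n, n = a * b⁻¹ * a := ⟨_, rfl⟩
  have hninv : n⁻¹ = a⁻¹ * (b⁻¹)⁻¹ * a⁻¹ := by rw [hn]; group
  have hnn : n = a * (n⁻¹ * (a * (n * a))) := by
    have h1 := special_n_left hs r
    rw [← hn] at h1
    calc n = a * b⁻¹ * a := hn
      _ = a * (n⁻¹ * (n * b⁻¹)) * a := by group
      _ = a * (n⁻¹ * (a * n)) * a := by rw [h1]
      _ = a * (n⁻¹ * (a * (n * a))) := by group
  obtain ⟨κ₁, hκ₁, hm₁, e₁⟩ := special_n_point_gen hs r (mul_mem ha hx) hax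
  rw [← hn] at e₁
  obtain ⟨y₂, hy₂⟩ : ∃ y₂, y₂ = a * ((a * x)⁻¹ * κ₁) := ⟨_, rfl⟩
  have hy₂A : y₂ ∈ A := by rw [hy₂]; exact mul_mem ha hm₁
  obtain ⟨κ₃, hκ₃, hm₃, e₃⟩ := special_n_point_gen hs r hx hx1
  rw [← hn] at e₃
  have step1 : conjBy B (a * (n * (a * x))) = conjBy B y₂ := by
    rw [← conjBy_conjBy B, e₁, conjBy_conjBy, hy₂]
  have enx : n * x = a * (n⁻¹ * (a * (n * (a * x)))) := by
    calc n * x = (a * (n⁻¹ * (a * (n * a)))) * x := by rw [← hnn]
      _ = a * (n⁻¹ * (a * (n * (a * x)))) := by group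
  have hy₂1 : y₂ ≠ 1 := by
    intro h1
    rw [h1, conjBy_one] at step1
    have h2 : conjBy B (n * x) = A := by
      rw [enx, ← conjBy_conjBy B, ← conjBy_conjBy B, step1, hn, special_swap_right hs r,
        conjBy_of_mem ha]
    rw [e₃] at h2
    exact rankOne_conjBy_right_ne_left hs.1 hm₃ h2
  obtain ⟨κ₂, hκ₂, hm₂, e₂⟩ := special_n_point_gen hs r' hy₂A hy₂1
  rw [← hninv] at e₂
  have key : x⁻¹ * κ₃ = a * (y₂⁻¹ * κ₂) := by
    apply rankOne_conjBy_right_inj hs.1 hm₃ (mul_mem ha hm₂)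
    rw [← e₃, enx, ← conjBy_conjBy B, ← conjBy_conjBy B, step1, conjBy_conjBy B, e₂,
      conjBy_conjBy]
  have hκ₁A : κ₁ ∈ A := (Subgroup.mul_mem_cancel_left A (inv_mem (mul_mem ha hx))).mp hm₁
  have c1 : a * x = x * a := mulComm_of_isMulCommutative hA ha hx
  have c2 : κ₁ * x = x * κ₁ := mulComm_of_isMulCommutative hA hκ₁A hx
  have e5 : x * a * x = κ₃ * κ₂⁻¹ * κ₁ := by
    have e6 : κ₃ = x * (a * (y₂⁻¹ * κ₂)) := by rw [← key]; group
    rw [e6, hy₂]
    calc x * a * x = x * a * (κ₁⁻¹ * (κ₁ * x)) := by group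
      _ = x * a * (κ₁⁻¹ * (x * κ₁)) := by rw [c2]
      _ = x * a * κ₁⁻¹ * ((x * a) * a⁻¹) * κ₁ := by group
      _ = x * a * κ₁⁻¹ * ((a * x) * a⁻¹) * κ₁ := by rw [c1]
      _ = x * (a * ((a * ((a * x)⁻¹ * κ₁))⁻¹ * κ₂)) * κ₂⁻¹ * κ₁ := by group
  rw [e5]
  exact mul_mem (mul_mem hκ₃ (inv_mem hκ₂)) hκ₁

/-- For a special rank one pair with `A` abelian in which every `a ∈ A` misses some `x ∈ A`
outside `{1, a, a⁻¹}`, one has `A = ⁅A, H⁆`. -/
theorem special_comm_diag_top (hs : IsSpecialRankOnePair A B) (hA : IsMulCommutative A)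
    (h3 : ∀ a ∈ A, ∃ x ∈ A, x ≠ 1 ∧ x ≠ a ∧ x ≠ a⁻¹) : A ≤ ⁅A, rankOneDiagonal A B⁆ := by
  intro a ha
  by_cases ha1 : a = 1
  · rw [ha1]; exact one_mem _
  obtain ⟨x, hx, hx1, hxa, hxa'⟩ := h3 a ha
  have c1 : a * x = x * a := mulComm_of_isMulCommutative hA ha hx
  have u1 : x * a * x ∈ ⁅A, rankOneDiagonal A B⁆ :=
    special_base hs hA ha ha1 hx hx1 (fun e => hxa' (eq_inv_of_mul_eq_one_right e))
  have u2 : a * x * a ∈ ⁅A, rankOneDiagonal A B⁆ :=
    special_base hs hA hx hx1 ha ha1 (fun e => hxa' (eq_inv_of_mul_eq_one_left e))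
  have u3 : x * a⁻¹ * x ∈ ⁅A, rankOneDiagonal A B⁆ :=
    special_base hs hA (inv_mem ha) (fun e => ha1 (inv_eq_one.mp e)) hx hx1
      (fun e => hxa (inv_mul_eq_one.mp e).symm)
  have e1 : a * a = (x * a * x) * (x * a⁻¹ * x)⁻¹ := by
    calc a * a = a * ((a * x) * x⁻¹) := by group
      _ = a * ((x * a) * x⁻¹) := by rw [c1]
      _ = (a * x) * a * x⁻¹ := by group
      _ = (x * a) * a * x⁻¹ := by rw [c1]
      _ = (x * a * x) * (x * a⁻¹ * x)⁻¹ := by group
  have haa : a * a ∈ ⁅A, rankOneDiagonal A B⁆ := by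
    rw [e1]; exact mul_mem u1 (inv_mem u3)
  have e2 : x = (a * a)⁻¹ * (a * x * a) := by
    calc x = (a * a)⁻¹ * (a * (a * x)) := by group
      _ = (a * a)⁻¹ * (a * (x * a)) := by rw [c1]
      _ = (a * a)⁻¹ * (a * x * a) := by group
  have hxK : x ∈ ⁅A, rankOneDiagonal A B⁆ := by
    have h := mul_mem (inv_mem haa) u2
    rwa [← e2] at h
  have e3 : a = x⁻¹ * (x * a * x) * x⁻¹ := by group
  have h := mul_mem (mul_mem (inv_mem hxK) u1) (inv_mem hxK)
  rwa [← e3] at h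

/-- A subgroup with more than three elements contains, for each `a`, an element outside
`{1, a, a⁻¹}`. -/
theorem exists_third_of_card {A : Subgroup G} (h : 3 < ENat.card A) :
    ∀ a ∈ A, ∃ x ∈ A, x ≠ 1 ∧ x ≠ a ∧ x ≠ a⁻¹ := by
  classical
  intro a ha
  by_contra hcon
  push Not at hcon
  have hinj : Function.Injective (fun x : ↥A =>
      if (x : G) = 1 then (0 : Fin 3) else if (x : G) = a then 1 else 2) := by
    intro x y hxy
    apply Subtype.ext
    simp only at hxy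
    by_cases hx1 : (x : G) = 1
    · by_cases hy1 : (y : G) = 1
      · rw [hx1, hy1]
      · exfalso
        rw [if_pos hx1, if_neg hy1] at hxy
        by_cases hya : (y : G) = a
        · rw [if_pos hya] at hxy; exact absurd hxy (by decide)
        · rw [if_neg hya] at hxy; exact absurd hxy (by decide)
    · by_cases hxa : (x : G) = a
      · rw [if_neg hx1, if_pos hxa] at hxy
        by_cases hy1 : (y : G) = 1
        · rw [if_pos hy1] at hxy; exact absurd hxy (by decide)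
        · rw [if_neg hy1] at hxy
          by_cases hya : (y : G) = a
          · rw [hxa, hya]
          · rw [if_neg hya] at hxy; exact absurd hxy (by decide)
      · rw [if_neg hx1, if_neg hxa] at hxy
        by_cases hy1 : (y : G) = 1
        · rw [if_pos hy1] at hxy; exact absurd hxy (by decide)
        · rw [if_neg hy1] at hxy
          by_cases hya : (y : G) = a
          · rw [if_pos hya] at hxy; exact absurd hxy (by decide)
          · rw [hcon x x.2 hx1 hxa, hcon y y.2 hy1 hya]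
  have hle := ENat.card_le_card_of_injective hinj
  rw [ENat.card_eq_coe_fintype_card (α := Fin 3), Fintype.card_fin] at hle
  exact absurd (lt_of_lt_of_le h hle) (lt_irrefl _)

/-- For a special rank one pair with `A` abelian of more than three elements, `A = ⁅A, H⁆`. -/
theorem special_comm_diag_top_of_card (hs : IsSpecialRankOnePair A B) (hA : IsMulCommutative A)
    (h : 3 < ENat.card A) : A ≤ ⁅A, rankOneDiagonal A B⁆ :=
  special_comm_diag_top hs hA (exists_third_of_card h)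

end Cfsg.Agent.Lib.Helper83
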