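import Cfsg.Agent.Lib.Helper83.RootSet3

set_option autoImplicit false

namespace Cfsg.Agent.Lib.Helper83

open Cfsg
open scoped commutatorElement

variable {G : Type*} [Group G]

/-- The elements normalizing `W` and centralizing `B` modulo `W`. -/
def relCentralizer (B W : Subgroup G) : Subgroup G where
  carrier := {x | x ∈ Subgroup.normalizer (W : Set G) ∧ ∀ b ∈ B, ⁅x, b⁆ ∈ W}
  one_mem' := by
    refine ⟨one_mem _, fun b _ => ?_⟩
    rw [commutatorElement_one_left]
    exact one_mem _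
  mul_mem' := by
    rintro x y ⟨hx, hx'⟩ ⟨hy, hy'⟩
    refine ⟨mul_mem hx hy, fun b hb => ?_⟩
    have e : ⁅x * y, b⁆ = x * ⁅y, b⁆ * x⁻¹ * ⁅x, b⁆ := by
      simp only [commutatorElement_def]; group
    rw [e]
    exact mul_mem ((Subgroup.mem_normalizer_iff.mp hx _).mp (hy' b hb)) (hx' b hb)
  inv_mem' := by
    rintro x ⟨hx, hx'⟩
    refine ⟨inv_mem hx, fun b hb => ?_⟩
    have e : ⁅x⁻¹, b⁆ = x⁻¹ * ⁅x, b⁆⁻¹ * x⁻¹⁻¹ := by
      simp only [commutatorElement_def]; group
    rw [e]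
    exact (Subgroup.mem_normalizer_iff.mp (inv_mem hx) _).mp (inv_mem (hx' b hb))

theorem mem_relCentralizer {B W : Subgroup G} {x : G} :
    x ∈ relCentralizer B W ↔ x ∈ Subgroup.normalizer (W : Set G) ∧ ∀ b ∈ B, ⁅x, b⁆ ∈ W :=
  Iff.rfl

theorem commutator_le_of_le_relCentralizer {K B W : Subgroup G} (h : K ≤ relCentralizer B W) :
    ⁅K, B⁆ ≤ W :=
  Subgroup.commutator_le.mpr (fun _ hk b hb => (h hk).2 b hb)

theorem le_relCentralizer {K B W : Subgroup G} (hn : K ≤ Subgroup.normalizer (W : Set G))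
    (hc : ⁅K, B⁆ ≤ W) : K ≤ relCentralizer B W :=
  fun _ hk => ⟨hn hk, fun _ hb => hc (Subgroup.commutator_mem_commutator hk hb)⟩

theorem comm_sup_left {K₁ K₂ H W : Subgroup G} (h1 : ⁅K₁, H⁆ ≤ W) (h2 : ⁅K₂, H⁆ ≤ W)
    (n1 : K₁ ≤ Subgroup.normalizer (W : Set G)) (n2 : K₂ ≤ Subgroup.normalizer (W : Set G)) :
    ⁅K₁ ⊔ K₂, H⁆ ≤ W :=
  commutator_le_of_le_relCentralizer (sup_le (le_relCentralizer n1 h1) (le_relCentralizer n2 h2))

theorem comm_sup_right {K H₁ H₂ W : Subgroup G} (h1 : ⁅K, H₁⁆ ≤ W) (h2 : ⁅K, H₂⁆ ≤ W)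
    (n1 : H₁ ≤ Subgroup.normalizer (W : Set G)) (n2 : H₂ ≤ Subgroup.normalizer (W : Set G)) :
    ⁅K, H₁ ⊔ H₂⁆ ≤ W := by
  rw [Subgroup.commutator_comm]
  rw [Subgroup.commutator_comm] at h1 h2
  exact comm_sup_left h1 h2 n1 n2

theorem comm_commutator_left {A E B W : Subgroup G}
    (hn : ⁅A, E⁆ ≤ Subgroup.normalizer (W : Set G))
    (h : ∀ a ∈ A, ∀ e ∈ E, ∀ b ∈ B, ⁅⁅a, e⁆, b⁆ ∈ W) : ⁅⁅A, E⁆, B⁆ ≤ W := by
  apply commutator_le_of_le_relCentralizer
  intro x hx
  have hx' := hx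
  rw [Subgroup.commutator_def] at hx'
  refine Subgroup.closure_induction (p := fun y _ => y ∈ relCentralizer B W) ?_ (one_mem _)
    (fun _ _ _ _ h1 h2 => mul_mem h1 h2) (fun _ _ h1 => inv_mem h1) hx'
  rintro _ ⟨a, ha, e, he, rfl⟩
  exact ⟨hn (Subgroup.commutator_mem_commutator ha he), h a ha e he⟩

theorem bot_le_of_eq_bot {K W : Subgroup G} (h : K = ⊥) : K ≤ W := by rw [h]; exact bot_le

theorem comm_eq_bot_of_le_centralizer {K H : Subgroup G}
    (h : K ≤ Subgroup.centralizer (H : Set G)) : ⁅K, H⁆ = ⊥ :=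
  Subgroup.commutator_eq_bot_iff_le_centralizer.mpr h

theorem comm_le_of_le_centralizer {K H W : Subgroup G}
    (h : K ≤ Subgroup.centralizer (H : Set G)) : ⁅K, H⁆ ≤ W :=
  bot_le_of_eq_bot (comm_eq_bot_of_le_centralizer h)

theorem le_centralizer_symm {K H : Subgroup G} (h : K ≤ Subgroup.centralizer (H : Set G)) :
    H ≤ Subgroup.centralizer (K : Set G) :=
  Subgroup.le_centralizer_iff.mp h

theorem le_centralizer_sup {K A E : Subgroup G} (hA : K ≤ Subgroup.centralizer (A : Set G))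
    (hE : K ≤ Subgroup.centralizer (E : Set G)) :
    K ≤ Subgroup.centralizer ((A ⊔ E : Subgroup G) : Set G) :=
  Subgroup.le_centralizer_iff.mp
    (sup_le (Subgroup.le_centralizer_iff.mp hA) (Subgroup.le_centralizer_iff.mp hE))

theorem le_centralizer_of_le {K A E : Subgroup G} (hA : K ≤ Subgroup.centralizer (A : Set G))
    (hE : E ≤ A) : K ≤ Subgroup.centralizer (E : Set G) :=
  hA.trans (Subgroup.centralizer_le hE)

theorem le_centralizer_commutator {K A E : Subgroup G}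
    (hA : K ≤ Subgroup.centralizer (A : Set G)) (hE : K ≤ Subgroup.centralizer (E : Set G)) :
    K ≤ Subgroup.centralizer ((⁅A, E⁆ : Subgroup G) : Set G) :=
  le_centralizer_of_le (le_centralizer_sup hA hE) (Subgroup.commutator_le_sup A E)

theorem le_normalizer_of_le_centralizer {K W : Subgroup G}
    (h : K ≤ Subgroup.centralizer (W : Set G)) : K ≤ Subgroup.normalizer (W : Set G) :=
  h.trans (Subgroup.centralizer_le_normalizer _)

theorem le_normalizer_of_conjBy_le {K T : Subgroup G} (h : ∀ k ∈ K, conjBy T k ≤ T) :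
    K ≤ Subgroup.normalizer (T : Set G) := by
  intro k hk
  rw [mem_normalizer_iff_conjBy]
  exact conjBy_eq_of_le (h k hk) (h k⁻¹ (inv_mem hk))

theorem conjBy_eq_of_le_normalizer {K T : Subgroup G} (h : K ≤ Subgroup.normalizer (T : Set G))
    {k : G} (hk : k ∈ K) : conjBy T k = T :=
  mem_normalizer_iff_conjBy.mp (h hk)

theorem commutator_le_of_le_normalizer {Z K : Subgroup G}
    (h : K ≤ Subgroup.normalizer (Z : Set G)) : ⁅Z, K⁆ ≤ Z := by
  rw [Subgroup.commutator_le]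
  intro z hz k hk
  rw [commutatorElement_def, mul_assoc, mul_assoc]
  refine mul_mem hz ?_
  rw [← mul_assoc]
  exact (Subgroup.mem_normalizer_iff.mp (h hk) _).mp (inv_mem hz)

theorem conjBy_commutator (A E : Subgroup G) (g : G) :
    conjBy ⁅A, E⁆ g = ⁅conjBy A g, conjBy E g⁆ :=
  Subgroup.map_commutator A E _

theorem isMulCommutative_sup {A B : Subgroup G} (hA : IsMulCommutative A) (hB : IsMulCommutative B)
    (h : A ≤ Subgroup.centralizer (B : Set G)) : IsMulCommutative ↥(A ⊔ B) := by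
  rw [← Subgroup.le_centralizer_iff_isMulCommutative]
  have hA' : A ≤ Subgroup.centralizer (A : Set G) :=
    Subgroup.le_centralizer_iff_isMulCommutative.mpr hA
  have hB' : B ≤ Subgroup.centralizer (B : Set G) :=
    Subgroup.le_centralizer_iff_isMulCommutative.mpr hB
  exact sup_le (le_centralizer_sup hA' h) (le_centralizer_sup (le_centralizer_symm h) hB')

/-- A chain of subgroups each mapped into the next by commutation with `R` forces `R` to be
nilpotent. -/
theorem isNilpotent_of_chain {R : Subgroup G} (K : ℕ → Subgroup G) (n : ℕ) (h0 : R ≤ K 0)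
    (hstep : ∀ i, i < n → ⁅K i, R⁆ ≤ K (i + 1)) (hn : K n = ⊥) : Group.IsNilpotent ↥R := by
  rw [Subgroup.isNilpotent_iff_lowerCentralSeries]
  refine ⟨n, ?_⟩
  have key : ∀ i, i ≤ n → R.lowerCentralSeries i ≤ K i := by
    intro i
    induction i with
    | zero => intro _; exact h0
    | succ i ih =>
      intro hi
      rw [Subgroup.lowerCentralSeries_succ]
      exact (Subgroup.commutator_mono (ih (Nat.le_of_succ_le hi)) le_rfl).trans
        (hstep i (Nat.lt_of_succ_le hi))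
  rw [eq_bot_iff, ← hn]
  exact key n le_rfl

end Cfsg.Agent.Lib.Helper83
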