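import Cfsg.Agent.Lib.Helper83.RankOne2

set_option autoImplicit false

namespace Cfsg.Agent.Lib.Helper83

open Cfsg

section RingLemmas

variable {E : Type*} [Ring E]

theorem quad_ring_unit (α u' : E) (hα : α * α = 0) (h : u' * (1 + α) = 1) : u' = 1 - α := by
  have h1 : (1 + α) * (1 - α) = 1 := by
    simp only [mul_sub, add_mul, mul_one, one_mul, hα]; abel
  calc u' = u' * ((1 + α) * (1 - α)) := by rw [h1, mul_one]
    _ = 1 - α := by rw [← mul_assoc, h, one_mul]

theorem quad_ring_pow (α : E) (hα : α * α = 0) (n : ℕ) : (1 + α) ^ n = 1 + (n : E) * α := by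
  induction n with
  | zero => simp
  | succ n ih =>
    rw [pow_succ, ih]
    have h2 : (n : E) * α * α = 0 := by rw [mul_assoc, hα, mul_zero]
    simp only [mul_add, add_mul, mul_one, one_mul, h2, Nat.cast_add, Nat.cast_one]
    abel

/-- The general product relation. -/
theorem quad_ring_star (α β α' β' : E) (hα : α * α = 0) (hβ : β * β = 0)
    (h1 : α' * α = 0) (h2 : β * β' = 0)
    (hP : ((1 - β) * (1 + α') * (1 + β) - 1) * ((1 - α) * (1 + β') * (1 + α) - 1) = 0) :
    α' * β' = α' * β * α * β' := by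
  have hα' : ∀ z : E, α * (α * z) = 0 := fun z => by rw [← mul_assoc, hα, zero_mul]
  have hβ' : ∀ z : E, β * (β * z) = 0 := fun z => by rw [← mul_assoc, hβ, zero_mul]
  have h1' : ∀ z : E, α' * (α * z) = 0 := fun z => by rw [← mul_assoc, h1, zero_mul]
  have h2' : ∀ z : E, β * (β' * z) = 0 := fun z => by rw [← mul_assoc, h2, zero_mul]
  have key : α' * β' - α' * β * α * β' =
      (1 + β) * (((1 - β) * (1 + α') * (1 + β) - 1) * ((1 - α) * (1 + β') * (1 + α) - 1)) *
        (1 - α) := by
    simp only [mul_add, add_mul, mul_sub, sub_mul, mul_one, one_mul, mul_assoc, hα, hβ, hβ',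
      h1, h1', h2, h2', mul_zero, sub_zero, add_zero]
    abel
  rw [hP, mul_zero, zero_mul] at key
  exact sub_eq_zero.mp key

theorem quad_ring_main (α β : E) (hα : α * α = 0) (hβ : β * β = 0)
    (h1 : α * β * α * β = α * β) (h2 : β * α * β * α = β * α) :
    (1 + β) * ((1 + α) * (1 - β) * (1 + α) * (1 + β) * (1 - α)) =
      1 + (α + β - α * β * α - β * α * β) := by
  have hα' : ∀ z : E, α * (α * z) = 0 := fun z => by rw [← mul_assoc, hα, zero_mul]
  have hβ' : ∀ z : E, β * (β * z) = 0 := fun z => by rw [← mul_assoc, hβ, zero_mul]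
  have h1a : α * (β * (α * β)) = α * β := by simpa only [mul_assoc] using h1
  have h1b : ∀ z : E, α * (β * (α * (β * z))) = α * (β * z) := fun z => by
    have := congrArg (· * z) h1; simpa only [mul_assoc] using this
  have h2a : β * (α * (β * α)) = β * α := by simpa only [mul_assoc] using h2
  have h2b : ∀ z : E, β * (α * (β * (α * z))) = β * (α * z) := fun z => by
    have := congrArg (· * z) h2; simpa only [mul_assoc] using this
  simp only [mul_add, add_mul, mul_sub, sub_mul, mul_one, one_mul, mul_assoc, hα, hβ, hβ',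
    h1a, h2a, mul_zero, sub_zero, add_zero]
  abel

theorem quad_ring_comm (α β : E) (hα : α * α = 0)
    (h1 : α * β * α * β = α * β) (h2 : β * α * β * α = β * α) :
    (1 + α) * (1 + (α + β - α * β * α - β * α * β)) =
      (1 + (α + β - α * β * α - β * α * β)) * (1 + α) := by
  have hα' : ∀ z : E, α * (α * z) = 0 := fun z => by rw [← mul_assoc, hα, zero_mul]
  have h1a : α * (β * (α * β)) = α * β := by simpa only [mul_assoc] using h1
  have h2a : β * (α * (β * α)) = β * α := by simpa only [mul_assoc] using h2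
  simp only [mul_add, add_mul, mul_sub, sub_mul, mul_one, one_mul, mul_assoc, hα, hα',
    h1a, h2a, mul_zero, sub_zero, add_zero, zero_add]
  abel

end RingLemmas

section Module

variable {X : Type*} [Group X] {N : Type*} [AddCommGroup N] [DistribMulAction X N]

/-- The representation attached to an action on an abelian group. -/
abbrev actRho (X : Type*) [Group X] (N : Type*) [AddCommGroup N] [DistribMulAction X N] :
    X →* AddMonoid.End N := DistribMulAction.toAddMonoidEnd X N

theorem actRho_quad_iff {c c' : X} :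
    (actRho X N c' - 1) * (actRho X N c - 1) = 0 ↔ ∀ n : N, c' • (c • n - n) = c • n - n := by
  constructor
  · intro h n
    have := congrArg (fun f : AddMonoid.End N => f n) h
    have h2 : c' • (c • n - n) - (c • n - n) = 0 := this
    exact sub_eq_zero.mp h2
  · intro h
    apply AddMonoidHom.ext
    intro n
    show c' • (c • n - n) - (c • n - n) = 0
    rw [sub_eq_zero]
    exact h n

theorem actRho_eq_smul {c d : X} (h : actRho X N c = actRho X N d) (n : N) : c • n = d • n :=
  congrArg (fun f : AddMonoid.End N => f n) h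

theorem actRho_eq_one_iff {c : X} : actRho X N c = 1 ↔ ∀ n : N, c • n = n := by
  constructor
  · intro h n
    exact congrArg (fun f : AddMonoid.End N => f n) h
  · intro h
    apply AddMonoidHom.ext
    intro n
    exact h n

theorem actRho_inv_mul (g : X) : actRho X N g⁻¹ * actRho X N g = 1 := by
  rw [← map_mul, inv_mul_cancel, map_one]

theorem actRho_mul_inv (g : X) : actRho X N g * actRho X N g⁻¹ = 1 := by
  rw [← map_mul, mul_inv_cancel, map_one]

/-- `A` acts quadratically on `N`. -/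
def QuadOn (A : Subgroup X) (N : Type*) [AddCommGroup N] [DistribMulAction X N] : Prop :=
  ∀ a ∈ A, ∀ a' ∈ A, (actRho X N a' - 1) * (actRho X N a - 1) = 0

theorem quadOn_iff {A : Subgroup X} :
    QuadOn A N ↔ ∀ a ∈ A, ∀ a' ∈ A, ∀ n : N, a' • (a • n - n) = a • n - n := by
  constructor
  · intro h a ha a' ha'
    exact actRho_quad_iff.mp (h a ha a' ha')
  · intro h a ha a' ha'
    exact actRho_quad_iff.mpr (h a ha a' ha')

theorem actRho_conj_sub_one (g y : X) :
    actRho X N (g * y * g⁻¹) - 1 = actRho X N g * (actRho X N y - 1) * actRho X N g⁻¹ := by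
  rw [map_mul, map_mul, mul_sub, sub_mul, mul_one, actRho_mul_inv]

theorem quadOn_conj {A : Subgroup X} (h : QuadOn A N) (g : X) : QuadOn (conjBy A g) N := by
  intro x hx x' hx'
  rw [mem_conjBy] at hx hx'
  have ex : x = g * (g⁻¹ * x * g) * g⁻¹ := by group
  have ex' : x' = g * (g⁻¹ * x' * g) * g⁻¹ := by group
  rw [ex, ex', actRho_conj_sub_one, actRho_conj_sub_one]
  have := h _ hx _ hx'
  calc actRho X N g * (actRho X N (g⁻¹ * x' * g) - 1) * actRho X N g⁻¹ *
        (actRho X N g * (actRho X N (g⁻¹ * x * g) - 1) * actRho X N g⁻¹)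
      = actRho X N g * ((actRho X N (g⁻¹ * x' * g) - 1) * (actRho X N g⁻¹ * actRho X N g) *
          (actRho X N (g⁻¹ * x * g) - 1)) * actRho X N g⁻¹ := by simp only [mul_assoc]
    _ = 0 := by rw [actRho_inv_mul, mul_one, this, mul_zero, zero_mul]

theorem quadOn_right_of_rankOne {A B : Subgroup X} (hp : IsRankOnePair A B) (h : QuadOn A N) :
    QuadOn B N := by
  obtain ⟨x, -, rfl⟩ := rankOne_right_mem_unipotent hp
  exact quadOn_conj h x

theorem quadOn_inv {A : Subgroup X} (h : QuadOn A N) {a : X} (ha : a ∈ A) :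
    actRho X N a⁻¹ = 1 - (actRho X N a - 1) := by
  apply quad_ring_unit _ _ (h a ha a ha)
  rw [add_sub_cancel, actRho_inv_mul]

theorem quadOn_pow {A : Subgroup X} (h : QuadOn A N) {a : X} (ha : a ∈ A) (n : ℕ) :
    actRho X N (a ^ n) = 1 + (n : AddMonoid.End N) * (actRho X N a - 1) := by
  rw [map_pow, ← quad_ring_pow _ (h a ha a ha), add_sub_cancel]

theorem quadOn_mul {A : Subgroup X} (h : QuadOn A N) {a a' : X} (ha : a ∈ A) (ha' : a' ∈ A) :
    actRho X N (a' * a) = 1 + ((actRho X N a' - 1) + (actRho X N a - 1)) := by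
  have e : actRho X N (a' * a) = (1 + (actRho X N a' - 1)) * (1 + (actRho X N a - 1)) := by
    rw [add_sub_cancel, add_sub_cancel, map_mul]
  rw [e, mul_add, add_mul, add_mul, h a ha a' ha']
  simp only [mul_one, one_mul, add_zero]
  abel

/-- The product relations coming from the quadratic action of `A^b = B^a`. -/
theorem quad_star {A B : Subgroup X} (hA : QuadOn A N) (hB : QuadOn B N) {a b a' b' : X}
    (ha : a ∈ A) (hb : b ∈ B) (ha' : a' ∈ A) (hb' : b' ∈ B)
    (e : conjBy A b⁻¹ = conjBy B a⁻¹) :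
    (actRho X N a' - 1) * (actRho X N b' - 1) =
        (actRho X N a' - 1) * (actRho X N b - 1) * (actRho X N a - 1) * (actRho X N b' - 1) ∧
      (actRho X N b' - 1) * (actRho X N a' - 1) =
        (actRho X N b' - 1) * (actRho X N a - 1) * (actRho X N b - 1) * (actRho X N a' - 1) := by
  have hQ : QuadOn (conjBy A b⁻¹) N := quadOn_conj hA b⁻¹
  have hp : b⁻¹ * a' * b ∈ conjBy A b⁻¹ := by
    have := conj_mem_conjBy ha' b⁻¹
    rwa [inv_inv] at this
  have hr : a⁻¹ * b' * a ∈ conjBy A b⁻¹ := by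
    rw [e]
    have := conj_mem_conjBy hb' a⁻¹
    rwa [inv_inv] at this
  have e1 : actRho X N (b⁻¹ * a' * b) =
      (1 - (actRho X N b - 1)) * (1 + (actRho X N a' - 1)) * (1 + (actRho X N b - 1)) := by
    rw [map_mul, map_mul, quadOn_inv hB hb, add_sub_cancel, add_sub_cancel]
  have e2 : actRho X N (a⁻¹ * b' * a) =
      (1 - (actRho X N a - 1)) * (1 + (actRho X N b' - 1)) * (1 + (actRho X N a - 1)) := by
    rw [map_mul, map_mul, quadOn_inv hA ha, add_sub_cancel, add_sub_cancel]
  have h1 := hQ _ hr _ hp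
  have h2 := hQ _ hp _ hr
  rw [e1, e2] at h1 h2
  exact ⟨quad_ring_star _ _ _ _ (hA a ha a ha) (hB b hb b hb) (hA a ha a' ha') (hB b' hb' b hb) h1,
    quad_ring_star _ _ _ _ (hB b hb b hb) (hA a ha a ha) (hB b hb b' hb') (hA a' ha' a ha) h2⟩

/-- The element `b₂ = b · (a b⁻¹ a b a⁻¹)` of `B`: its image and the fact that it commutes with `a`
modulo the kernel of the action. -/
theorem quad_core {A B : Subgroup X} (hA : QuadOn A N) (hB : QuadOn B N) {a b : X}
    (ha : a ∈ A) (hb : b ∈ B) (e : conjBy A b⁻¹ = conjBy B a⁻¹) :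
    b * (a * b⁻¹ * a * b * a⁻¹) ∈ B ∧
      actRho X N (b * (a * b⁻¹ * a * b * a⁻¹)) =
        1 + ((actRho X N a - 1) + (actRho X N b - 1) -
          (actRho X N a - 1) * (actRho X N b - 1) * (actRho X N a - 1) -
          (actRho X N b - 1) * (actRho X N a - 1) * (actRho X N b - 1)) ∧
      actRho X N (a * (b * (a * b⁻¹ * a * b * a⁻¹))) =
        actRho X N (b * (a * b⁻¹ * a * b * a⁻¹) * a) := by
  obtain ⟨s1, s2⟩ := quad_star hA hB ha hb ha hb e
  have hmem : a * b⁻¹ * a * b * a⁻¹ ∈ B := by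
    have h1 : b⁻¹ * a * b ∈ conjBy B a⁻¹ := by
      rw [← e]
      have := conj_mem_conjBy ha b⁻¹
      rwa [inv_inv] at this
    rw [mem_conjBy, inv_inv] at h1
    have e' : a * b⁻¹ * a * b * a⁻¹ = a * (b⁻¹ * a * b) * a⁻¹ := by group
    rw [e']; exact h1
  have hα := hA a ha a ha
  have hβ := hB b hb b hb
  have e1 : actRho X N (b * (a * b⁻¹ * a * b * a⁻¹)) =
      1 + ((actRho X N a - 1) + (actRho X N b - 1) -
          (actRho X N a - 1) * (actRho X N b - 1) * (actRho X N a - 1) -
          (actRho X N b - 1) * (actRho X N a - 1) * (actRho X N b - 1)) := by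
    rw [← quad_ring_main _ _ hα hβ s1.symm s2.symm]
    simp only [map_mul, quadOn_inv hA ha, quadOn_inv hB hb, add_sub_cancel]
  refine ⟨B.mul_mem hb hmem, e1, ?_⟩
  rw [map_mul, map_mul _ _ a, e1]
  have := quad_ring_comm _ _ hα s1.symm s2.symm
  rw [add_sub_cancel] at this
  exact this

/-- If the kernel of the action is central, then the pair `(a, b(a))` satisfies the special relation. -/
theorem quad_special {A B : Subgroup X} (hp : IsRankOnePair A B) (hA : QuadOn A N) (hB : QuadOn B N)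
    (hker : ∀ z : X, actRho X N z = 1 → z ∈ Subgroup.center X) {a b : X}
    (ha : a ∈ A) (hb : b ∈ B) (e : conjBy A b⁻¹ = conjBy B a⁻¹) :
    b⁻¹ * a * b = a⁻¹ * b⁻¹ * a := by
  obtain ⟨hb2, -, hc⟩ := quad_core hA hB ha hb e
  generalize hb2' : b * (a * b⁻¹ * a * b * a⁻¹) = b₂ at hb2 hc
  -- z = a b₂ a⁻¹ b₂⁻¹ is central
  have hz : a * b₂ * a⁻¹ * b₂⁻¹ ∈ Subgroup.center X := by
    apply hker
    have e1 : a * b₂ * a⁻¹ * b₂⁻¹ = (a * b₂) * (b₂ * a)⁻¹ := by group
    rw [e1, map_mul, hc, ← map_mul, mul_inv_cancel, map_one]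
  have e2 : conjBy A (b * b₂)⁻¹ = conjBy B a⁻¹ := by
    have e3 : (b * b₂)⁻¹ = b₂⁻¹ * b⁻¹ := by group
    rw [e3, ← conjBy_conjBy, e, conjBy_conjBy]
    have e4 : b₂⁻¹ * a⁻¹ = a⁻¹ * (b₂⁻¹ * (a * b₂ * a⁻¹ * b₂⁻¹)⁻¹) := by group
    rw [e4, ← conjBy_conjBy, ← conjBy_conjBy, conjBy_of_mem_center _ (inv_mem hz),
      conjBy_of_mem (inv_mem hb2)]
  have e5 := rankOne_partner_unique hp (B.mul_mem hb hb2) hb e2 e
  have hb21 : b₂ = 1 := by
    have : b * b₂ = b * 1 := by rw [mul_one]; exact e5
    exact mul_left_cancel this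
  rw [hb21] at hb2'
  have e6 : b⁻¹ * a * b = a⁻¹ * b⁻¹ * (b * (a * b⁻¹ * a * b * a⁻¹)) * a := by group
  rw [e6, hb2', mul_one]

end Module

end Cfsg.Agent.Lib.Helper83
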