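import Cfsg.Agent.Lib.Helper83.RootSet3

set_option autoImplicit false

namespace Cfsg.Agent.Lib.Helper83

open Cfsg
open scoped commutatorElement

variable {G : Type*} [Group G]

theorem exists_conj_of_reachable {S : Set (Subgroup G)} {A B : Subgroup G}
    (h : Relation.ReflTransGen (FAdj S) A B) : ∃ g : G, B = conjBy A g := by
  induction h with
  | refl => exact ⟨1, (conjBy_one A).symm⟩
  | tail _ hbc ih =>
    obtain ⟨g, rfl⟩ := ih
    obtain ⟨x, -, e⟩ := rankOne_right_mem_unipotent hbc.2.2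
    exact ⟨x * g, by rw [e, conjBy_conjBy]⟩

/-- Timmesfeld II(2.9). -/
theorem root_connected_iff {S : Set (Subgroup G)} (hS : IsRootSubgroupSet S)
    (h2 : ∃ A ∈ S, ∃ B ∈ S, A ≠ B) :
    IsConnectedFamily (FAdj S) S ↔
      (IsConjClassOfSubgroups S ∧ ∃ A ∈ S, ¬ IsIsolatedIn (FAdj S) S A) := by
  constructor
  · intro hconn
    obtain ⟨A, hA, B, hB, hne⟩ := h2
    refine ⟨⟨⟨A, hA⟩, fun A' hA' B' hB' => exists_conj_of_reachable (hconn A' hA' B' hB')⟩, A, hA, ?_⟩
    rintro ⟨-, hiso⟩
    rcases Relation.ReflTransGen.cases_head (hconn A hA B hB) with e | ⟨F, hF, -⟩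
    · exact hne e
    · exact (hiso F).1 hF
  · rintro ⟨⟨-, hconj⟩, A₀, hA₀, hniso⟩
    obtain ⟨F₀, hF₀, hAF₀⟩ := exists_rankOne_partner_of_not_isolated hA₀ hniso
    have hpartner : ∀ A ∈ S, ∃ F ∈ S, IsRankOnePair A F := by
      intro A hA
      obtain ⟨g, rfl⟩ := hconj A₀ hA₀ A hA
      exact ⟨conjBy F₀ g, hS.conj_mem F₀ hF₀ g, rankOne_conj hAF₀ g⟩
    have hcomp2 : ∀ A ∈ S, ∃ A' ∈ componentOf (FAdj S) S A, A' ≠ A := by
      intro A hA
      obtain ⟨F, hF, hAF⟩ := hpartner A hA
      exact ⟨F, ⟨hF, Relation.ReflTransGen.single ⟨hA, hF, hAF⟩⟩, hAF.ne.symm⟩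
    have key : ∀ E ∈ S, ∀ e ∈ E, ∀ C ∈ S, Relation.ReflTransGen (FAdj S) C (conjBy C e) := by
      intro E hE e he C hC
      by_cases hCe : conjBy C e = C
      · rw [hCe]
      rcases hS.pair C hC E hE with h0 | h1 | hc
      · exact absurd (conjBy_eq_of_commute
          (fun c hc => (commute_of_commutator_eq_bot h0 hc he).symm)) hCe
      · have := (rankOne_pair_of_mem_unipotent h1 (left_mem_unipotent C E)
          (unipotent_conj_mem (left_mem_unipotent C E) (Subgroup.mem_sup_right he)) (Ne.symm hCe)).1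
        exact Relation.ReflTransGen.single ⟨hC, hS.conj_mem C hC e, this⟩
      · obtain ⟨F, hF, hCF⟩ := hpartner C hC
        have hD : ⁅C, E⁆ ∈ S := hc.1
        have hL1 : C ∈ linePartners S ⁅C, E⁆ := root_mem_linePartners_commutator hS hC hF hCF hc
        have hC' : conjBy C e ∈ S := hS.conj_mem C hC e
        have hDe : ⁅conjBy C e, E⁆ = ⁅C, E⁆ := by
          have h1 : conjBy ⁅C, E⁆ e = ⁅conjBy C e, conjBy E e⁆ := Subgroup.map_commutator _ _ _
          rw [conjBy_of_mem he] at h1
          rw [← h1]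
          exact conjBy_eq_of_commute (fun d hd => (hc.2.1 d hd e (Subgroup.mem_sup_right he)).symm)
        have hc' : RootCommutatorCase S (conjBy C e) E :=
          root_commCase_of_commutator_mem hS hC' hE (by rw [hDe]; exact hD)
        have hL2 : conjBy C e ∈ linePartners S ⁅C, E⁆ := by
          have := root_mem_linePartners_commutator hS hC' (hS.conj_mem F hF e) (rankOne_conj hCF e) hc'
          rwa [hDe] at this
        have e1 : componentOf (FAdj S) S ⁅C, E⁆ = componentOf (FAdj S) S C := by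
          by_contra hne
          exact root_not_linePartner hS hD hC hne (hcomp2 _ hD) (hcomp2 _ hC) hL1
        have e2 : componentOf (FAdj S) S ⁅C, E⁆ = componentOf (FAdj S) S (conjBy C e) := by
          by_contra hne
          exact root_not_linePartner hS hD hC' hne (hcomp2 _ hD) (hcomp2 _ hC') hL2
        have : conjBy C e ∈ componentOf (FAdj S) S C := by
          rw [← e1, e2]; exact ⟨hC', Relation.ReflTransGen.refl⟩
        exact this.2
    intro A hA B hB
    have hstab : ∀ E ∈ S, E ≤ conjStabilizer (componentOf (FAdj S) S A) := by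
      intro E hE e he
      have h1 : ∀ x ∈ E, ∀ C ∈ componentOf (FAdj S) S A, conjBy C x ∈ componentOf (FAdj S) S A := by
        intro x hx C hC
        exact ⟨hS.conj_mem C hC.1 x, hC.2.trans (key E hE x hx C hC.1)⟩
      exact ⟨h1 e he, h1 e⁻¹ (inv_mem he)⟩
    have htop : (⊤ : Subgroup G) ≤ conjStabilizer (componentOf (FAdj S) S A) := by
      rw [← hS.generates]
      exact iSup₂_le hstab
    obtain ⟨g, rfl⟩ := hconj A hA B hB
    exact ((htop (Subgroup.mem_top g)).1 A ⟨hA, Relation.ReflTransGen.refl⟩).2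

end Cfsg.Agent.Lib.Helper83
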