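import Cfsg.Agent.Lib.Helper83.RootSet8

set_option autoImplicit false
open Cfsg
open scoped commutatorElement

namespace Cfsg.Agent.Lib.Helper83

variable {G : Type*} [Group G]

theorem conjBy_conjBy_inv (A : Subgroup G) (g : G) : conjBy (conjBy A g) g⁻¹ = A := by
  rw [conjBy_conjBy, inv_mul_cancel, conjBy_one]

theorem conjBy_inv_conjBy (A : Subgroup G) (g : G) : conjBy (conjBy A g⁻¹) g = A := by
  rw [conjBy_conjBy, mul_inv_cancel, conjBy_one]

theorem membersIn_conj {S : Set (Subgroup G)} (hS : IsRootSubgroupSet S) {N E : Subgroup G}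
    (h : E ∈ membersIn S N) (g : G) : conjBy E g ∈ membersIn S (conjBy N g) :=
  ⟨hS.conj_mem E h.1 g, conjBy_mono h.2 g⟩

theorem subgroupPartition_conj {S : Set (Subgroup G)} (hS : IsRootSubgroupSet S) {N : Subgroup G}
    (h : IsSubgroupPartition N (membersIn S N)) (g : G) :
    IsSubgroupPartition (conjBy N g) (membersIn S (conjBy N g)) := by
  have hback : ∀ C ∈ membersIn S (conjBy N g), conjBy C g⁻¹ ∈ membersIn S N := by
    intro C hC
    have := membersIn_conj hS hC g⁻¹
    rwa [conjBy_conjBy_inv] at this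
  refine ⟨fun C hC => hC.2, ?_, ?_⟩
  · intro x hx hx1
    have hx' : g⁻¹ * x * g ∈ N := mem_conjBy.mp hx
    have hx1' : g⁻¹ * x * g ≠ 1 := by
      intro e
      apply hx1
      have : x = g * (g⁻¹ * x * g) * g⁻¹ := by group
      rw [this, e]; group
    obtain ⟨C₀, hC₀, hm⟩ := h.2.1 _ hx' hx1'
    exact ⟨conjBy C₀ g, membersIn_conj hS hC₀ g, mem_conjBy.mpr hm⟩
  · intro C hC D hD hne
    have hne' : conjBy C g⁻¹ ≠ conjBy D g⁻¹ := fun e => hne (conjBy_inj e)
    have := h.2.2 _ (hback C hC) _ (hback D hD) hne'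
    rw [← conjBy_inf] at this
    by_contra hbot
    exact conjBy_ne_bot hbot g⁻¹ this

theorem linePartners_conj {S : Set (Subgroup G)} (hS : IsRootSubgroupSet S) {A C : Subgroup G}
    (hC : C ∈ linePartners S A) (g : G) : conjBy C g ∈ linePartners S (conjBy A g) := by
  obtain ⟨⟨hCS, hne, hcomm⟩, hpart⟩ := hC
  refine ⟨⟨hS.conj_mem C hCS g, fun e => hne (conjBy_inj e), ?_⟩, ?_⟩
  · rw [← conjBy_commutator, hcomm, conjBy_bot]
  · rw [← conjBy_sup]; exact subgroupPartition_conj hS hpart g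

end Cfsg.Agent.Lib.Helper83
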