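import Cfsg.Agent.Lib.Helper83.RootSet6
import Cfsg.Agent.Lib.Helper83.Special

set_option autoImplicit false
open Cfsg
open scoped commutatorElement

namespace Cfsg.Agent.Lib.Helper83

variable {G : Type*} [Group G]

theorem linePartners_symm {S : Set (Subgroup G)} {A B : Subgroup G} (hA : A ∈ S)
    (hB : B ∈ linePartners S A) : A ∈ linePartners S B := by
  obtain ⟨⟨hBS, hne, hcomm⟩, hpart⟩ := hB
  refine ⟨⟨hA, hne.symm, ?_⟩, ?_⟩
  · rw [Subgroup.commutator_comm]; exact hcomm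
  · rw [sup_comm]; exact hpart

theorem conj_eq_comm {u v f : G} (e : u * f * u⁻¹ = v * f * v⁻¹) :
    (v⁻¹ * u) * f = f * (v⁻¹ * u) := by
  calc v⁻¹ * u * f = v⁻¹ * (u * f * u⁻¹) * u := by group
    _ = v⁻¹ * (v * f * v⁻¹) * u := by rw [e]
    _ = f * (v⁻¹ * u) := by group

theorem nat_conj_u {a b c f : G} (hbf : b * f = f * b)
    (hdef : b⁻¹ * c * b = c * f) (hψ : f⁻¹ * a * f * a⁻¹ = c⁻¹) :
    (b⁻¹ * a * b) * f * (b⁻¹ * a * b)⁻¹ = c⁻¹ := by
  have haf : a * f * a⁻¹ = f * c⁻¹ := by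
    calc a * f * a⁻¹ = f * (f⁻¹ * a * f * a⁻¹) := by group
      _ = f * c⁻¹ := by rw [hψ]
  have hbf' : b * f * b⁻¹ = f := by rw [hbf, mul_inv_cancel_right]
  have hbf'' : b⁻¹ * f * b = f := by rw [mul_assoc, ← hbf, inv_mul_cancel_left]
  calc (b⁻¹ * a * b) * f * (b⁻¹ * a * b)⁻¹ = b⁻¹ * (a * (b * f * b⁻¹) * a⁻¹) * b := by group
    _ = b⁻¹ * (a * f * a⁻¹) * b := by rw [hbf']
    _ = b⁻¹ * (f * c⁻¹) * b := by rw [haf]
    _ = (b⁻¹ * f * b) * (b⁻¹ * c * b)⁻¹ := by group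
    _ = f * (c * f)⁻¹ := by rw [hbf'', hdef]
    _ = c⁻¹ := by group

theorem nat_conj_v {a b c f : G} (hac : a * c = c * a) (hbf : b * f = f * b)
    (hdef : b⁻¹ * c * b = c * f) (hψ : f⁻¹ * a * f * a⁻¹ = c⁻¹) :
    (a⁻¹ * b⁻¹ * a) * f * (a⁻¹ * b⁻¹ * a)⁻¹ = c⁻¹ := by
  have haf : a * f * a⁻¹ = f * c⁻¹ := by
    calc a * f * a⁻¹ = f * (f⁻¹ * a * f * a⁻¹) := by group
      _ = f * c⁻¹ := by rw [hψ]
  have hbf'' : b⁻¹ * f * b = f := by rw [mul_assoc, ← hbf, inv_mul_cancel_left]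
  calc (a⁻¹ * b⁻¹ * a) * f * (a⁻¹ * b⁻¹ * a)⁻¹ = a⁻¹ * (b⁻¹ * (a * f * a⁻¹) * b) * a := by group
    _ = a⁻¹ * (b⁻¹ * (f * c⁻¹) * b) * a := by rw [haf]
    _ = a⁻¹ * ((b⁻¹ * f * b) * (b⁻¹ * c * b)⁻¹) * a := by group
    _ = a⁻¹ * (f * (c * f)⁻¹) * a := by rw [hbf'', hdef]
    _ = (c * a)⁻¹ * a := by group
    _ = (a * c)⁻¹ * a := by rw [hac]
    _ = c⁻¹ := by group

/-- The "natural module" relation: if `(A, B)` is a rank one pair, `C` commutes with `A`, lies on a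
line with `A`, and `⁅B, C⁆ ∈ S`, then for partners `a`, `b` and `c ∈ C`, with `f = c⁻¹ b⁻¹ c b`,
one has `f⁻¹ a f a⁻¹ = c⁻¹`. -/
theorem root_natural_rel {S : Set (Subgroup G)} (hS : IsRootSubgroupSet S) {A B C : Subgroup G}
    (hA : A ∈ S) (hB : B ∈ S) (hC : C ∈ S) (hAB : IsRankOnePair A B) (hAC : ⁅A, C⁆ = ⊥)
    (hne : C ≠ A) (hBC : ⁅B, C⁆ ∈ S)
    (hline : ∀ c ∈ C, ∀ a ∈ A, c * a ≠ 1 → ∃ E ∈ S, c * a ∈ E)
    {a b : G} (ha : a ∈ A) (ha1 : a ≠ 1) (hb : b ∈ B) (r : conjBy A b⁻¹ = conjBy B a⁻¹)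
    {c : G} (hc : c ∈ C) :
    (c⁻¹ * b⁻¹ * c * b)⁻¹ * a * (c⁻¹ * b⁻¹ * c * b) * a⁻¹ = c⁻¹ := by
  have hcBC := root_commCase_of_commutator_mem hS hB hC hBC
  have hCB : ⁅C, B⁆ ∈ S := by rw [Subgroup.commutator_comm]; exact hBC
  have hcCB := root_commCase_of_commutator_mem hS hC hB hCB
  have hBA := rankOne_symm hAB
  have cF : ∀ f ∈ ⁅B, C⁆, ∀ x ∈ B ⊔ C, f * x = x * f := hcBC.2.1
  have hAinfC : A ⊓ C = ⊥ := by
    rcases root_inf_eq_bot_or_eq hS hB hAB hC with h | h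
    · exact h
    · exact absurd h.symm hne
  have hCcentB : ∀ b' ∈ B, b' ≠ 1 → ∀ c' ∈ C, b' * c' = c' * b' → c' = 1 :=
    fun b' hb' hb'1 c' hc' h => root_commCase_centralizer_trivial hS hB hA hBA hcBC hb' hb'1 hc' h
  have hcent : ∀ g ∈ ⁅A, ⁅B, C⁆⁆, ∀ x ∈ A ⊔ ⁅B, C⁆, g * x = x * g := by
    rcases hS.pair A hA _ hBC with h0 | h1 | h2
    · intro g hg x _
      rw [h0, Subgroup.mem_bot] at hg
      rw [hg, one_mul, mul_one]
    · exfalso
      obtain ⟨⟨c₀, hc₀⟩, hc₀1⟩ := (Subgroup.ne_bot_iff_exists_ne_one).mp (hS.ne_bot C hC)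
      have hc₀1' : c₀ ≠ 1 := fun e => hc₀1 (Subtype.ext e)
      obtain ⟨⟨f₀, hf₀⟩, hf₀1⟩ := (Subgroup.ne_bot_iff_exists_ne_one).mp (hS.ne_bot _ hBC)
      have hf₀1' : f₀ ≠ 1 := fun e => hf₀1 (Subtype.ext e)
      have hFA := rankOne_symm h1
      have hz : c₀ ∈ Subgroup.centralizer ((⁅B, C⁆ ⊔ A : Subgroup G) : Set G) := by
        rw [Subgroup.mem_centralizer_iff]
        intro y hy
        refine (commute_sup (A := ⁅B, C⁆) (B := A) (z := c₀) ?_ ?_ y hy).symm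
        · intro x hx; exact (cF x hx c₀ (Subgroup.mem_sup_right hc₀)).symm
        · intro x hx; exact (commute_of_commutator_eq_bot hAC hx hc₀).symm
      apply root_central_mul_not_root hS hA hFA hz hc₀1' hf₀ hf₀1'
      have hf₀' : f₀ ∈ ⁅C, B⁆ := by rw [Subgroup.commutator_comm]; exact hf₀
      obtain ⟨b', hb', hmem⟩ := root_comm_cover hcCB hc₀ hc₀1' hf₀'
      refine ⟨?_, conjBy C b', hS.conj_mem C hC b', hmem⟩
      intro e
      have hc₀F : c₀ ∈ ⁅B, C⁆ := by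
        have : c₀ = f₀⁻¹ := mul_eq_one_iff_eq_inv.mp e
        rw [this]; exact inv_mem hf₀
      obtain ⟨⟨b₀, hb₀⟩, hb₀1⟩ := (Subgroup.ne_bot_iff_exists_ne_one).mp (hS.ne_bot B hB)
      have hb₀1' : b₀ ≠ 1 := fun e => hb₀1 (Subtype.ext e)
      exact hc₀1' (hCcentB b₀ hb₀ hb₀1' c₀ hc₀ (cF c₀ hc₀F b₀ (Subgroup.mem_sup_left hb₀)).symm)
    · exact h2.2.1
  obtain ⟨f, hfdef⟩ : ∃ f, f = c⁻¹ * b⁻¹ * c * b := ⟨_, rfl⟩
  rw [← hfdef]
  have hfF' : f ∈ ⁅C, B⁆ := by rw [hfdef]; exact commCase_map_mem hc hb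
  have hfF : f ∈ ⁅B, C⁆ := by rw [Subgroup.commutator_comm]; exact hfF'
  obtain ⟨ψ, hψdef⟩ : ∃ ψ, ψ = f⁻¹ * a * f * a⁻¹ := ⟨_, rfl⟩
  rw [← hψdef]
  have hψ : ψ ∈ ⁅A, ⁅B, C⁆⁆ := by
    have := Subgroup.commutator_mem_commutator (inv_mem hfF) ha
    rw [commutatorElement_def, inv_inv, Subgroup.commutator_comm] at this
    rw [hψdef]; exact this
  have hac : ∀ a' ∈ A, a' * c = c * a' := fun a' ha' => commute_of_commutator_eq_bot hAC ha' hc
  have hfc : f * c = c * f := cF f hfF c (Subgroup.mem_sup_right hc)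
  have hfψ : ψ * f = f * ψ := hcent ψ hψ f (Subgroup.mem_sup_right hfF)
  have hzA : ∀ x ∈ A, (c * ψ) * x = x * (c * ψ) := by
    intro x hx
    have h1 := hac x hx
    have h2 := hcent ψ hψ x (Subgroup.mem_sup_left hx)
    calc c * ψ * x = c * (ψ * x) := mul_assoc _ _ _
      _ = c * (x * ψ) := by rw [h2]
      _ = (c * x) * ψ := (mul_assoc _ _ _).symm
      _ = (x * c) * ψ := by rw [h1]
      _ = x * (c * ψ) := mul_assoc _ _ _
  have hk : a * (b⁻¹ * c * b) * a⁻¹ = c * ψ * f := by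
    have e1 : b⁻¹ * c * b = c * f := by rw [hfdef]; group
    calc a * (b⁻¹ * c * b) * a⁻¹ = a * (c * f) * a⁻¹ := by rw [e1]
      _ = (a * c) * (f * a⁻¹) := by group
      _ = (c * a) * (f * a⁻¹) := by rw [hac a ha]
      _ = c * (f * ψ) := by rw [hψdef]; group
      _ = c * (ψ * f) := by rw [hfψ]
      _ = c * ψ * f := (mul_assoc _ _ _).symm
  have hkB : ∀ b' ∈ B, b' * (a * (b⁻¹ * c * b) * a⁻¹) = (a * (b⁻¹ * c * b) * a⁻¹) * b' := by
    intro b' hb'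
    have h1 : a⁻¹ * b' * a ∈ conjBy B a⁻¹ := by
      have := conj_mem_conjBy hb' a⁻¹
      rwa [inv_inv] at this
    rw [← r, mem_conjBy, inv_inv] at h1
    have h2 := hac _ h1
    calc b' * (a * (b⁻¹ * c * b) * a⁻¹)
        = a * b⁻¹ * (b * (a⁻¹ * b' * a) * b⁻¹ * c) * b * a⁻¹ := by group
      _ = a * b⁻¹ * (c * (b * (a⁻¹ * b' * a) * b⁻¹)) * b * a⁻¹ := by rw [h2]
      _ = (a * (b⁻¹ * c * b) * a⁻¹) * b' := by group
  have hzB : ∀ x ∈ B, (c * ψ) * x = x * (c * ψ) := by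
    intro x hx
    have h1 := hkB x hx
    rw [hk] at h1
    have h2 : f * x = x * f := cF f hfF x (Subgroup.mem_sup_left hx)
    have h3 : x * (c * ψ) * f = c * ψ * x * f := by
      calc x * (c * ψ) * f = x * (c * ψ * f) := mul_assoc _ _ _
        _ = c * ψ * f * x := h1
        _ = c * ψ * (f * x) := mul_assoc _ _ _
        _ = c * ψ * (x * f) := by rw [h2]
        _ = c * ψ * x * f := (mul_assoc _ _ _).symm
    exact (mul_right_cancel h3).symm
  have hz : c * ψ ∈ Subgroup.centralizer ((A ⊔ B : Subgroup G) : Set G) := by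
    rw [Subgroup.mem_centralizer_iff]
    intro y hy
    exact (commute_sup hzA hzB y hy).symm
  by_contra hne1
  have hz1 : c * ψ ≠ 1 := by
    intro e
    apply hne1
    exact eq_inv_of_mul_eq_one_right e
  apply root_central_mul_not_root hS hB hAB hz hz1 ha ha1
  have hca1 : c * a ≠ 1 := by
    intro e
    have : a = c⁻¹ := eq_inv_of_mul_eq_one_right e
    have haC' : a ∈ C := by rw [this]; exact inv_mem hc
    have haC : a ∈ A ⊓ C := ⟨ha, haC'⟩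
    rw [hAinfC, Subgroup.mem_bot] at haC
    exact ha1 haC
  obtain ⟨E, hE, hEm⟩ := hline c hc a ha hca1
  have e : c * ψ * a = f⁻¹ * (c * a) * f⁻¹⁻¹ := by
    have hfc' : f⁻¹ * c = c * f⁻¹ := by
      calc f⁻¹ * c = f⁻¹ * (c * f) * f⁻¹ := by group
        _ = f⁻¹ * (f * c) * f⁻¹ := by rw [hfc]
        _ = c * f⁻¹ := by group
    calc c * ψ * a = c * f⁻¹ * a * f := by rw [hψdef]; group
      _ = f⁻¹ * c * a * f := by rw [hfc']
      _ = f⁻¹ * (c * a) * f⁻¹⁻¹ := by group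
  refine ⟨?_, conjBy E f⁻¹, hS.conj_mem E hE f⁻¹, ?_⟩
  · rw [e]
    intro h
    apply hca1
    have : c * a = f⁻¹⁻¹ * (f⁻¹ * (c * a) * f⁻¹⁻¹) * f⁻¹ := by group
    rw [this, h]; group
  · rw [e]; exact conj_mem_conjBy hEm f⁻¹

/-- `⁅A, ⁅B, C⁆⁆ = C` in the situation of `root_natural_rel`. -/
theorem root_comm_comm_eq {S : Set (Subgroup G)} (hS : IsRootSubgroupSet S) {A B C : Subgroup G}
    (hA : A ∈ S) (hB : B ∈ S) (hC : C ∈ S) (hAB : IsRankOnePair A B) (hAC : ⁅A, C⁆ = ⊥)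
    (hne : C ≠ A) (hBC : ⁅B, C⁆ ∈ S)
    (hline : ∀ c ∈ C, ∀ a ∈ A, c * a ≠ 1 → ∃ E ∈ S, c * a ∈ E) : ⁅A, ⁅B, C⁆⁆ = C := by
  have hcBC := root_commCase_of_commutator_mem hS hB hC hBC
  have cF : ∀ f ∈ ⁅B, C⁆, ∀ x ∈ B ⊔ C, f * x = x * f := hcBC.2.1
  apply le_antisymm
  · rw [Subgroup.commutator_le]
    intro a ha f hf
    by_cases ha1 : a = 1
    · rw [ha1, commutatorElement_one_left]; exact one_mem _
    · obtain ⟨b, hb, hb1, r⟩ := hAB.cond_left a ha ha1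
      have hbi1 : b⁻¹ ≠ 1 := fun e => hb1 (inv_eq_one.mp e)
      obtain ⟨c', hc', e⟩ := root_comm_map_surjective hcBC (inv_mem hb) hbi1 hf
      rw [inv_inv] at e
      have hfb : b * f = f * b := (cF f hf b (Subgroup.mem_sup_left hb)).symm
      have e' : f = c'⁻¹ * b⁻¹ * c' * b := by
        calc f = b⁻¹ * (b * f) := by group
          _ = b⁻¹ * (f * b) := by rw [hfb]
          _ = b⁻¹ * (b * c'⁻¹ * b⁻¹ * c' * b) := by rw [← e]
          _ = c'⁻¹ * b⁻¹ * c' * b := by group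
      have rel := root_natural_rel hS hA hB hC hAB hAC hne hBC hline ha ha1 hb r hc'
      rw [← e'] at rel
      have hfc : f * c' = c' * f := cF f hf c' (Subgroup.mem_sup_right hc')
      have : ⁅a, f⁆ = c'⁻¹ := by
        rw [commutatorElement_def]
        calc a * f * a⁻¹ * f⁻¹ = f * (f⁻¹ * a * f * a⁻¹) * f⁻¹ := by group
          _ = f * c'⁻¹ * f⁻¹ := by rw [rel]
          _ = c'⁻¹ * (c' * f) * c'⁻¹ * f⁻¹ := by group
          _ = c'⁻¹ * (f * c') * c'⁻¹ * f⁻¹ := by rw [hfc]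
          _ = c'⁻¹ := by group
      rw [this]; exact inv_mem hc'
  · intro c hc
    obtain ⟨⟨a, ha⟩, ha1⟩ := (Subgroup.ne_bot_iff_exists_ne_one).mp (hS.ne_bot A hA)
    have ha1' : a ≠ 1 := fun e => ha1 (Subtype.ext e)
    obtain ⟨b, hb, hb1, r⟩ := hAB.cond_left a ha ha1'
    have rel := root_natural_rel hS hA hB hC hAB hAC hne hBC hline ha ha1' hb r hc
    have hfF : c⁻¹ * b⁻¹ * c * b ∈ ⁅B, C⁆ := by
      rw [Subgroup.commutator_comm]; exact commCase_map_mem hc hb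
    have h1 := Subgroup.commutator_mem_commutator (inv_mem hfF) ha
    rw [commutatorElement_def, inv_inv, rel, Subgroup.commutator_comm] at h1
    have := inv_mem h1
    rwa [inv_inv] at this

/-- Given a line `A ⊔ D` through `A` and a rank one partner `F` of `A`, some point `E ≠ A` of the
line has `⁅F, E⁆ ∈ S`, and `A ⊔ E` is the whole line. -/
theorem root_line_special {S : Set (Subgroup G)} (hS : IsRootSubgroupSet S) {A D F : Subgroup G}
    (hA : A ∈ S) (hF : F ∈ S) (hAF : IsRankOnePair A F) (hD : D ∈ linePartners S A) :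
    ∃ E ∈ linePartners S A, ⁅F, E⁆ ∈ S ∧ A ⊔ E = A ⊔ D := by
  obtain ⟨⟨hDS, hDA, hAD⟩, hpart⟩ := hD
  have hAinfD : A ⊓ D = ⊥ := by
    rcases root_inf_eq_bot_or_eq hS hF hAF hDS with h | h
    · exact h
    · exact absurd h.symm hDA
  rcases hS.pair F hF D hDS with h0 | h1 | h2
  · exact absurd h0 (root_line_not_commute hS hA hDS hF hAF hAD (Ne.symm hDA) hpart)
  · have hFD := h1
    obtain ⟨⟨a, ha⟩, ha1⟩ := (Subgroup.ne_bot_iff_exists_ne_one).mp (hS.ne_bot A hA)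
    have ha1' : a ≠ 1 := fun e => ha1 (Subtype.ext e)
    obtain ⟨b, hb, hb1, r⟩ := hAF.cond_left a ha ha1'
    obtain ⟨d, hd, hd1, r'⟩ := hFD.cond_left b hb hb1
    have hx : a * d⁻¹ ∈ A ⊔ D :=
      mul_mem (Subgroup.mem_sup_left ha) (inv_mem (Subgroup.mem_sup_right hd))
    have hx1 : a * d⁻¹ ≠ 1 := by
      intro e
      have : a = d := by rw [mul_inv_eq_one] at e; exact e
      have hdA : d ∈ A ⊓ D := ⟨this ▸ ha, hd⟩
      rw [hAinfD, Subgroup.mem_bot] at hdA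
      exact hd1 hdA
    obtain ⟨E, ⟨hES, hEle⟩, hxE⟩ := hpart.2.1 _ hx hx1
    have cAA : A ≤ Subgroup.centralizer (A : Set G) :=
      Subgroup.le_centralizer_iff_isMulCommutative.mpr (hS.commutative A hA)
    have cAD : A ≤ Subgroup.centralizer (D : Set G) :=
      Subgroup.commutator_eq_bot_iff_le_centralizer.mp hAD
    have cAN : A ≤ Subgroup.centralizer ((A ⊔ D : Subgroup G) : Set G) := le_centralizer_sup cAA cAD
    have hAE : ⁅A, E⁆ = ⊥ := comm_eq_bot_of_le_centralizer (le_centralizer_of_le cAN hEle)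
    have hEA : E ≠ A := by
      intro e
      have hdA : d ∈ A := by
        have h1 : a * d⁻¹ ∈ A := e ▸ hxE
        have h2 : d⁻¹ ∈ A := by
          have := mul_mem (inv_mem ha) h1
          rwa [inv_mul_cancel_left] at this
        have := inv_mem h2
        rwa [inv_inv] at this
      have hdAD : d ∈ A ⊓ D := ⟨hdA, hd⟩
      rw [hAinfD, Subgroup.mem_bot] at hdAD
      exact hd1 hdAD
    have hcommF : ∀ y ∈ F, ∀ y' ∈ conjBy F (a * d⁻¹)⁻¹, y * y' = y' * y := by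
      have h1 : conjBy F a⁻¹ ≤ Subgroup.centralizer ((conjBy F d⁻¹ : Subgroup G) : Set G) := by
        rw [← r, r', ← conjBy_centralizer]
        exact conjBy_mono cAD b⁻¹
      have h2 := conjBy_mono h1 d
      rw [conjBy_centralizer, conjBy_conjBy F, conjBy_conjBy F, mul_inv_cancel, conjBy_one] at h2
      intro y hy y' hy'
      have e : (a * d⁻¹)⁻¹ = d * a⁻¹ := by group
      rw [e] at hy'
      exact (Subgroup.mem_centralizer_iff.mp (h2 hy')) y hy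
    have hxi : (a * d⁻¹)⁻¹ ∈ E := inv_mem hxE
    have hxi1 : (a * d⁻¹)⁻¹ ≠ 1 := fun e => hx1 (inv_eq_one.mp e)
    have hEF : ⁅E, F⁆ ∈ S := by
      rcases hS.pair E hES F hF with k0 | k1 | k2
      · exfalso
        have e1 : conjBy F (a * d⁻¹)⁻¹ = F :=
          conjBy_eq_of_commute (fun y hy => commute_of_commutator_eq_bot k0 hxi hy)
        have e2 : (a * d⁻¹)⁻¹ = d * a⁻¹ := by group
        rw [e2, ← conjBy_conjBy F, conjBy_eq_iff] at e1
        rw [← r, r'] at e1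
        exact hDA (conjBy_inj e1).symm
      · exact absurd hcommF (rankOne_not_commute_conj k1 hxi hxi1)
      · exact k2.1
    have hFE : ⁅F, E⁆ ∈ S := by rw [Subgroup.commutator_comm]; exact hEF
    have hlineE : ∀ c ∈ E, ∀ a' ∈ A, c * a' ≠ 1 → ∃ E' ∈ S, c * a' ∈ E' := by
      intro c hc a' ha' hne
      obtain ⟨E', hE', hm⟩ :=
        hpart.2.1 (c * a') (mul_mem (hEle hc) (Subgroup.mem_sup_left ha')) hne
      exact ⟨E', hE'.1, hm⟩
    have hAT : ⁅A, ⁅F, E⁆⁆ = E := root_comm_comm_eq hS hA hF hES hAF hAE hEA hFE hlineE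
    have hcAT : RootCommutatorCase S A ⁅F, E⁆ :=
      root_commCase_of_commutator_mem hS hA hFE (by rw [hAT]; exact hES)
    have hpartE := root_partition_sup_commutator hS hA hF hAF hcAT
    rw [hAT] at hpartE
    have hdAE : d ∈ A ⊔ E := by
      have e : d = (a * d⁻¹)⁻¹ * a := by group
      rw [e]; exact mul_mem (Subgroup.mem_sup_right hxi) (Subgroup.mem_sup_left ha)
    obtain ⟨P, ⟨hPS, hPle⟩, hdP⟩ := hpartE.2.1 d hdAE hd1
    have hDP : D = P := by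
      rcases root_inf_eq_bot_or_eq hS hF (rankOne_symm hFD) hPS with h | h
      · exfalso
        have : d ∈ D ⊓ P := ⟨hd, hdP⟩
        rw [h, Subgroup.mem_bot] at this
        exact hd1 this
      · exact h
    have hsup : A ⊔ E = A ⊔ D := by
      apply le_antisymm (sup_le le_sup_left hEle)
      refine sup_le le_sup_left ?_
      rw [hDP]; exact hPle
    refine ⟨E, ⟨⟨hES, hEA, hAE⟩, ?_⟩, hFE, hsup⟩
    rw [hsup]; exact hpart
  · exact ⟨D, ⟨⟨hDS, hDA, hAD⟩, hpart⟩, h2.1, rfl⟩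

end Cfsg.Agent.Lib.Helper83
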