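import Cfsg.Agent.Lib.Helper83.Hua
import Cfsg.Agent.Lib.Helper83.RootSet4
import Cfsg.Agent.Lib.Helper83.Nilp
import Cfsg.Agent.Lib.Helper83.RootSet9
import Cfsg.Agent.S5034

set_option autoImplicit false

namespace Cfsg.Agent.Lib.Helper83

open Cfsg
open scoped commutatorElement

variable {G : Type*} [Group G]

/-- If an element of a normal subgroup `N` inside `A ⊔ B` moves `A`, then `A ⊔ B ≤ N A`. -/
theorem rankOne_sup_le_normal_sup {A B N : Subgroup G} (h : IsRankOnePair A B) (hN : N.Normal)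
    {n : G} (hnN : n ∈ N) (hnX : n ∈ A ⊔ B) (hne : conjBy A n ≠ A) : A ⊔ B ≤ N ⊔ A := by
  have hE : conjBy A n ∈ unipotentSubgroups A B := ⟨n, hnX, rfl⟩
  have hp := (rankOne_pair_of_mem_unipotent h hE (left_mem_unipotent A B) hne).2
  rw [← hp]
  refine sup_le ?_ le_sup_right
  intro z hz
  rw [mem_conjBy] at hz
  have e : z = (n * ((n⁻¹ * z * n) * n⁻¹ * (n⁻¹ * z * n)⁻¹)) * (n⁻¹ * z * n) := by group
  rw [e]
  exact mul_mem (Subgroup.mem_sup_left (mul_mem hnN (hN.conj_mem _ (inv_mem hnN) _)))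
    (Subgroup.mem_sup_right hz)

/-- A normal subgroup meeting one member of a rank one pair meets the other, with the same
product. -/
theorem rankOne_normal_step {D E N : Subgroup G} (h : IsRankOnePair D E) (hN : N.Normal)
    (hD : N ⊓ D ≠ ⊥) : N ⊓ E ≠ ⊥ ∧ N ⊔ D = N ⊔ E := by
  obtain ⟨d, hd, hd1⟩ : ∃ d ∈ N ⊓ D, d ≠ 1 := by
    by_contra hcon
    push Not at hcon
    exact hD ((Subgroup.eq_bot_iff_forall _).mpr hcon)
  obtain ⟨hdN, hdD⟩ := Subgroup.mem_inf.mp hd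
  obtain ⟨e, he, he1, hde⟩ := h.cond_left d hdD hd1
  have hm : e⁻¹ * d * e ∈ conjBy E d⁻¹ := by
    rw [← hde]
    have := conj_mem_conjBy hdD e⁻¹
    rwa [inv_inv] at this
  rw [mem_conjBy, inv_inv] at hm
  obtain ⟨e', he'def⟩ : ∃ e', e' = d * (e⁻¹ * d * e) * d⁻¹ := ⟨_, rfl⟩
  rw [← he'def] at hm
  have he'N : e' ∈ N := by
    rw [he'def]
    refine hN.conj_mem _ ?_ d
    have := hN.conj_mem d hdN e⁻¹
    rwa [inv_inv] at this
  have he'1 : e' ≠ 1 := by
    intro h1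
    apply hd1
    have e2 : d = e * (d⁻¹ * (d * (e⁻¹ * d * e) * d⁻¹) * d) * e⁻¹ := by group
    rw [e2, ← he'def, h1]; group
  have hNE : N ⊓ E ≠ ⊥ := by
    intro hbot
    have hmem : e' ∈ N ⊓ E := Subgroup.mem_inf.mpr ⟨he'N, hm⟩
    rw [hbot] at hmem
    exact he'1 (Subgroup.mem_bot.mp hmem)
  refine ⟨hNE, ?_⟩
  have h1 : D ⊔ E ≤ N ⊔ D := rankOne_sup_le_normal_sup h hN he'N (Subgroup.mem_sup_right hm)
    (fun hc => he'1 (rankOne_eq_one_of_normalizes (rankOne_symm h) hm hc))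
  have h2 : E ⊔ D ≤ N ⊔ E := rankOne_sup_le_normal_sup (rankOne_symm h) hN hdN
    (Subgroup.mem_sup_right hdD) (fun hc => hd1 (rankOne_eq_one_of_normalizes h hdD hc))
  apply le_antisymm
  · exact sup_le le_sup_left (le_sup_right.trans h2)
  · exact sup_le le_sup_left (le_sup_right.trans h1)

/-- In a perfect group generated by an `F`-connected set of abstract root subgroups, a normal
subgroup meeting a member non-trivially is the whole group. -/
theorem root_normal_top_of_inf_ne_bot {S : Set (Subgroup G)} (hS : IsRootSubgroupSet S)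
    (h1 : IsConnectedFamily (FAdj S) S) (hperf : commutator G = ⊤) {N : Subgroup G}
    (hN : N.Normal) {D : Subgroup G} (hD : D ∈ S) (hND : N ⊓ D ≠ ⊥) : N = ⊤ := by
  have key : ∀ C, Relation.ReflTransGen (FAdj S) D C → N ⊓ C ≠ ⊥ ∧ N ⊔ D = N ⊔ C := by
    intro C hC
    induction hC with
    | refl => exact ⟨hND, rfl⟩
    | tail _ hbc ih =>
      obtain ⟨i1, i2⟩ := ih
      obtain ⟨j1, j2⟩ := rankOne_normal_step hbc.2.2 hN i1
      exact ⟨j1, i2.trans j2⟩
  have htop : N ⊔ D = ⊤ := by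
    rw [eq_top_iff, ← hS.generates]
    refine iSup₂_le (fun C hC => ?_)
    rw [(key C (h1 D hD C hC)).2]
    exact le_sup_right
  have hcomm : commutator G ≤ N := by
    rw [commutator_def, ← htop]
    have nN : N ≤ Subgroup.normalizer (N : Set G) := Subgroup.le_normalizer
    have nD : D ≤ Subgroup.normalizer (N : Set G) := by
      rw [Subgroup.normalizer_eq_top]; exact le_top
    have hNN : ⁅N, N⁆ ≤ N := Subgroup.commutator_le_left N N
    have hND' : ⁅N, D⁆ ≤ N := Subgroup.commutator_le_left N D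
    have hDN : ⁅D, N⁆ ≤ N := Subgroup.commutator_le_right D N
    have hDD : ⁅D, D⁆ ≤ N := by
      apply comm_le_of_le_centralizer
      exact Subgroup.le_centralizer_iff_isMulCommutative.mpr (hS.commutative D hD)
    exact comm_sup_left (comm_sup_right hNN hND' nN nD) (comm_sup_right hDN hDD nN nD) nN nD
  rw [hperf] at hcomm
  exact top_le_iff.mp hcomm

/-- If `E` centralizes the conjugate `m A m⁻¹` with `m` in the normal subgroup `N`, then
`⁅A, E⁆ ≤ N`. -/
theorem normal_comm_le_of_conj_centralizes {N A E : Subgroup G} (hN : N.Normal) {m : G}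
    (hm : m ∈ N) (hE : E ≤ Subgroup.centralizer ((conjBy A m : Subgroup G) : Set G)) :
    ⁅A, E⁆ ≤ N := by
  rw [Subgroup.commutator_le]
  intro a' ha' e he
  obtain ⟨c, hcdef⟩ : ∃ c, c = m * a'⁻¹ * m⁻¹ := ⟨_, rfl⟩
  have hc' : c ∈ conjBy A m := by rw [hcdef]; exact conj_mem_conjBy (inv_mem ha') m
  have hce : Commute c e := (Subgroup.mem_centralizer_iff.mp (hE he)) c hc'
  have hy : c * a' ∈ N := by
    have e1 : c * a' = m * (a'⁻¹ * m⁻¹ * a'⁻¹⁻¹) := by rw [hcdef]; group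
    rw [e1]
    exact mul_mem hm (hN.conj_mem _ (inv_mem hm) _)
  have hw : (c * a') * e * (c * a')⁻¹ * e⁻¹ ∈ N := by
    have e1 : (c * a') * e * (c * a')⁻¹ * e⁻¹ = (c * a') * (e * (c * a')⁻¹ * e⁻¹) := by group
    rw [e1]
    exact mul_mem hy (hN.conj_mem _ (inv_mem hy) _)
  have e2 : ⁅a', e⁆ = c⁻¹ * ((c * a') * e * (c * a')⁻¹ * e⁻¹) * c := by
    calc ⁅a', e⁆ = a' * e * a'⁻¹ * e⁻¹ := commutatorElement_def _ _
      _ = a' * e * a'⁻¹ * (c⁻¹ * (c * e⁻¹)) := by group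
      _ = a' * e * a'⁻¹ * (c⁻¹ * (e⁻¹ * c)) := by rw [hce.inv_right.eq]
      _ = c⁻¹ * ((c * a') * e * (c * a')⁻¹ * e⁻¹) * c := by group
  rw [e2]
  exact hN.conj_mem' _ hw c

/-- For a rank one pair `(A, E)` with `⁅A, E⁆` inside the normal subgroup `N`: `A ⊔ E ≤ N A`. -/
theorem rankOne_sup_le_of_comm_le {A E N : Subgroup G} (h : IsRankOnePair A E) (hN : N.Normal)
    (hle : ⁅A, E⁆ ≤ N) : A ⊔ E ≤ N ⊔ A := by
  obtain ⟨⟨a₁, ha₁⟩, ha₁1⟩ := (Subgroup.ne_bot_iff_exists_ne_one).mp (rankOne_ne_bot_left h)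
  obtain ⟨⟨e₁, he₁⟩, he₁1⟩ := (Subgroup.ne_bot_iff_exists_ne_one).mp (rankOne_ne_bot_right h)
  have ha₁1' : a₁ ≠ 1 := fun e => ha₁1 (Subtype.ext e)
  have he₁1' : e₁ ≠ 1 := fun e => he₁1 (Subtype.ext e)
  have hg : e₁ * a₁ * e₁⁻¹ * a₁⁻¹ ∈ N := by
    have h1 : ⁅a₁, e₁⁆⁻¹ ∈ N := inv_mem (hle (Subgroup.commutator_mem_commutator ha₁ he₁))
    rwa [commutatorElement_inv, commutatorElement_def] at h1
  have hgX : e₁ * a₁ * e₁⁻¹ * a₁⁻¹ ∈ A ⊔ E :=
    mul_mem (mul_mem (mul_mem (Subgroup.mem_sup_right he₁) (Subgroup.mem_sup_left ha₁))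
      (inv_mem (Subgroup.mem_sup_right he₁))) (inv_mem (Subgroup.mem_sup_left ha₁))
  refine rankOne_sup_le_normal_sup h hN hg hgX ?_
  intro hc
  have e1 : e₁ * a₁ * e₁⁻¹ * a₁⁻¹ = (e₁ * a₁ * e₁⁻¹) * a₁⁻¹ := by group
  rw [e1, ← conjBy_conjBy, conjBy_of_mem (inv_mem ha₁)] at hc
  have hA' : conjBy A e₁ ∈ unipotentSubgroups A E := ⟨e₁, Subgroup.mem_sup_right he₁, rfl⟩
  have hne : conjBy A e₁ ≠ A := fun e =>
    he₁1' (rankOne_eq_one_of_normalizes (rankOne_symm h) he₁ e)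
  have hp := (rankOne_pair_of_mem_unipotent h hA' (left_mem_unipotent A E) hne).1
  have ht := rankOne_eq_one_of_normalizes hp (conj_mem_conjBy ha₁ e₁) hc
  apply ha₁1'
  have e3 : a₁ = e₁⁻¹ * (e₁ * a₁ * e₁⁻¹) * e₁ := by group
  rw [e3, ht]; group

/-- A set of abstract root subgroups that is not degenerate and has a rank one pair is
non-degenerate. -/
theorem root_nondegenerate_of_not_degenerate {S : Set (Subgroup G)} (hS : IsRootSubgroupSet S)
    (hnd : ¬ IsDegenerateRootSet S) {A E : Subgroup G} (hA : A ∈ S) (hE : E ∈ S)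
    (hAE : IsRankOnePair A E) : IsNondegenerateRootSet S := by
  unfold IsDegenerateRootSet at hnd
  push Not at hnd
  obtain ⟨A₁, hA₁, T₁, hT₁, hc⟩ := hnd
  refine ⟨⟨A₁, hA₁, ⁅A₁, T₁⁆, hc.1, root_ne_commutator hS hc, ?_⟩, ⟨A, hA, E, hE, hAE⟩,
    ⟨A₁, hA₁, T₁, hT₁, hc⟩⟩
  rw [Subgroup.commutator_eq_bot_iff_le_centralizer]
  intro x hx
  rw [Subgroup.mem_centralizer_iff]
  intro y hy
  exact hc.2.1 y hy x (Subgroup.mem_sup_left hx)

/-- The finishing lemma: from a rank one pair `(A, E)` of members with `A ⊔ E ≤ N A`, the normal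
subgroup `N` contains a member of `S`. -/
theorem root_normal_of_rankOne_le {S : Set (Subgroup G)} (hS : IsRootSubgroupSet S)
    (hcls : IsConjClassOfSubgroups S)
    (h3 : IsDegenerateRootSet S → ∀ A ∈ S, 3 < ENat.card A)
    (h4 : ∀ A ∈ S, ∀ B ∈ rankOnePartners S A, IsSpecialRankOnePair A B)
    {N : Subgroup G} (hN : N.Normal) {A E : Subgroup G} (hA : A ∈ S) (hE : E ∈ S)
    (hAE : IsRankOnePair A E) (hle : A ⊔ E ≤ N ⊔ A) : ∃ D ∈ S, D ≤ N := by
  by_cases hdeg : IsDegenerateRootSet S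
  · refine ⟨A, hA, ?_⟩
    have hK := special_comm_diag_top_of_card (h4 A hA E ⟨hE, hAE⟩) (hS.commutative A hA)
      (h3 hdeg A hA)
    refine hK.trans ?_
    rw [Subgroup.commutator_le]
    intro a₁ ha₁ h hh
    have hh' : h ∈ A ⊔ E := by
      unfold rankOneDiagonal at hh
      exact (Subgroup.mem_inf.mp (Subgroup.mem_inf.mp hh).1).1
    obtain ⟨μ, hμ, a', ha', rfl⟩ := exists_mul_of_mem_normal_sup hN (hle hh')
    have c1 : a' * a₁⁻¹ = a₁⁻¹ * a' :=
      mulComm_of_isMulCommutative (hS.commutative A hA) ha' (inv_mem ha₁)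
    have e1 : ⁅a₁, μ * a'⁆ = (a₁ * μ * a₁⁻¹) * μ⁻¹ := by
      calc ⁅a₁, μ * a'⁆ = a₁ * μ * (a' * a₁⁻¹) * a'⁻¹ * μ⁻¹ := by
            rw [commutatorElement_def]; group
        _ = a₁ * μ * (a₁⁻¹ * a') * a'⁻¹ * μ⁻¹ := by rw [c1]
        _ = (a₁ * μ * a₁⁻¹) * μ⁻¹ := by group
    rw [e1]
    exact mul_mem (hN.conj_mem _ hμ _) (inv_mem hμ)
  · have hnd := root_nondegenerate_of_not_degenerate hS hdeg hA hE hAE
    obtain ⟨⟨C', hC'line, hC'comm⟩, -⟩ :=
      Cfsg.Agent.S5034.result (S := S) ⟨hS, hcls⟩ hnd hA (B := E) ⟨hE, hAE⟩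
    refine ⟨⁅E, C'⁆, hC'comm.2, ?_⟩
    have h0 : ⁅A, C'⁆ = ⊥ := hC'line.1.2.2
    rw [Subgroup.commutator_le]
    intro e he c' hc'
    obtain ⟨μ, hμ, a', ha', rfl⟩ := exists_mul_of_mem_normal_sup hN (hle (Subgroup.mem_sup_right he))
    have c1 : a' * c' = c' * a' := commute_of_commutator_eq_bot h0 ha' hc'
    have e1 : ⁅μ * a', c'⁆ = μ * (c' * μ⁻¹ * c'⁻¹) := by
      calc ⁅μ * a', c'⁆ = μ * (a' * c') * a'⁻¹ * μ⁻¹ * c'⁻¹ := by
            rw [commutatorElement_def]; group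
        _ = μ * (c' * a') * a'⁻¹ * μ⁻¹ * c'⁻¹ := by rw [c1]
        _ = μ * (c' * μ⁻¹ * c'⁻¹) := by group
    rw [e1]
    exact mul_mem hμ (hN.conj_mem _ (inv_mem hμ) _)

/-- The commuting case of the main lemma. -/
theorem root_normal_case_comm {S : Set (Subgroup G)} (hS : IsRootSubgroupSet S)
    (hcls : IsConjClassOfSubgroups S)
    (h3 : IsDegenerateRootSet S → ∀ A ∈ S, 3 < ENat.card A)
    (h4 : ∀ A ∈ S, ∀ B ∈ rankOnePartners S A, IsSpecialRankOnePair A B)
    {N : Subgroup G} (hN : N.Normal) {m : G} (hm : m ∈ N) {A E : Subgroup G} (hA : A ∈ S)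
    (hE : E ∈ S) (hEC : E ≤ Subgroup.centralizer ((conjBy A m : Subgroup G) : Set G))
    (hEA : ¬ E ≤ Subgroup.centralizer (A : Set G)) : ∃ D ∈ S, D ≤ N := by
  have hle : ⁅A, E⁆ ≤ N := normal_comm_le_of_conj_centralizes hN hm hEC
  rcases hS.pair A hA E hE with h0 | hr | hc
  · exfalso
    apply hEA
    exact le_centralizer_symm (Subgroup.commutator_eq_bot_iff_le_centralizer.mp h0)
  · exact root_normal_of_rankOne_le hS hcls h3 h4 hN hA hE hr (rankOne_sup_le_of_comm_le hr hN hle)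
  · exact ⟨⁅A, E⁆, hc.1, hle⟩

/-- The main lemma: a non-central normal subgroup contains a member of `S`. -/
theorem root_normal_exists_le {S : Set (Subgroup G)} (hS : IsRootSubgroupSet S)
    (hcls : IsConjClassOfSubgroups S)
    (h2' : ∀ A ∈ S, ∀ C ∈ S, A ≠ C → centralizingMembers S A ≠ centralizingMembers S C)
    (h3 : IsDegenerateRootSet S → ∀ A ∈ S, 3 < ENat.card A)
    (h4 : ∀ A ∈ S, ∀ B ∈ rankOnePartners S A, IsSpecialRankOnePair A B)
    {N : Subgroup G} (hN : N.Normal) (hNZ : ¬ N ≤ Subgroup.center G) : ∃ D ∈ S, N ⊓ D ≠ ⊥ := by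
  have hfin : ∀ D ∈ S, D ≤ N → ∃ D ∈ S, N ⊓ D ≠ ⊥ := by
    intro D hD hDN
    refine ⟨D, hD, ?_⟩
    rw [inf_eq_right.mpr hDN]
    exact hS.ne_bot D hD
  obtain ⟨m, hm, A, hA, a, ha, hma⟩ : ∃ m ∈ N, ∃ A ∈ S, ∃ a ∈ A, m * a ≠ a * m := by
    by_contra hcon
    push Not at hcon
    apply hNZ
    intro m hm
    have hle : ∀ A ∈ S, A ≤ Subgroup.centralizer ({m} : Set G) := by
      intro A hA a ha
      rw [Subgroup.mem_centralizer_iff]
      intro x hx
      rw [Set.mem_singleton_iff] at hx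
      rw [hx]
      exact hcon m hm A hA a ha
    have htop : (⊤ : Subgroup G) ≤ Subgroup.centralizer ({m} : Set G) := by
      rw [← hS.generates]
      exact iSup₂_le hle
    rw [Subgroup.mem_center_iff]
    intro g
    have := Subgroup.mem_centralizer_iff.mp (htop (Subgroup.mem_top g)) m rfl
    exact this.symm
  have ha1 : a ≠ 1 := by
    intro h; apply hma; rw [h, mul_one, one_mul]
  obtain ⟨c, hcdef⟩ : ∃ c, c = m * a * m⁻¹ := ⟨_, rfl⟩
  have hcC : c ∈ conjBy A m := by rw [hcdef]; exact conj_mem_conjBy ha m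
  have hc1 : c ≠ 1 := by
    intro h
    apply ha1
    have e : a = m⁻¹ * (m * a * m⁻¹) * m := by group
    rw [e, ← hcdef, h]; group
  have hC : conjBy A m ∈ S := hS.conj_mem A hA m
  have hyN : c * a⁻¹ ∈ N := by
    have e : c * a⁻¹ = m * (a * m⁻¹ * a⁻¹) := by rw [hcdef]; group
    rw [e]
    exact mul_mem hm (hN.conj_mem _ (inv_mem hm) _)
  have hy1 : c * a⁻¹ ≠ 1 := by
    intro h
    apply hma
    have e : c = a := by
      calc c = (c * a⁻¹) * a := by group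
        _ = a := by rw [h, one_mul]
    rw [hcdef] at e
    calc m * a = (m * a * m⁻¹) * m := by group
      _ = a * m := by rw [e]
  by_cases hCA : conjBy A m = A
  · refine ⟨A, hA, ?_⟩
    intro hbot
    rw [hCA] at hcC
    have hmem : c * a⁻¹ ∈ N ⊓ A := Subgroup.mem_inf.mpr ⟨hyN, mul_mem hcC (inv_mem ha)⟩
    rw [hbot] at hmem
    exact hy1 (Subgroup.mem_bot.mp hmem)
  rcases hS.pair A hA (conjBy A m) hC with h0 | hr | hc
  · have hne := h2' A hA (conjBy A m) hC (Ne.symm hCA)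
    have hex : ∃ E, ¬ (E ∈ centralizingMembers S A ↔ E ∈ centralizingMembers S (conjBy A m)) := by
      by_contra hcon
      push Not at hcon
      exact hne (Set.ext hcon)
    obtain ⟨E, hE⟩ := hex
    by_cases hEA : E ∈ centralizingMembers S A
    · have hEC : E ∉ centralizingMembers S (conjBy A m) := fun h => hE ⟨fun _ => h, fun _ => hEA⟩
      have hES : E ∈ S := hEA.1
      obtain ⟨D, hD, hDN⟩ := root_normal_case_comm hS hcls h3 h4 hN (inv_mem hm) hC hES
        (by rw [conjBy_conjBy_inv]; exact hEA.2) (fun h => hEC ⟨hES, h⟩)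
      exact hfin D hD hDN
    · have hEC : E ∈ centralizingMembers S (conjBy A m) := by
        by_contra h
        exact hE ⟨fun h' => absurd h' hEA, fun h' => absurd h' h⟩
      have hES : E ∈ S := hEC.1
      obtain ⟨D, hD, hDN⟩ := root_normal_case_comm hS hcls h3 h4 hN hm hA hES hEC.2
        (fun h => hEA ⟨hES, h⟩)
      exact hfin D hD hDN
  · have hne : conjBy A (c * a⁻¹) ≠ A := by
      rw [← conjBy_conjBy, conjBy_of_mem (inv_mem ha)]
      exact fun e => hc1 (rankOne_eq_one_of_normalizes (rankOne_symm hr) hcC e)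
    have hle := rankOne_sup_le_normal_sup hr hN hyN
      (mul_mem (Subgroup.mem_sup_right hcC) (inv_mem (Subgroup.mem_sup_left ha))) hne
    obtain ⟨D, hD, hDN⟩ := root_normal_of_rankOne_le hS hcls h3 h4 hN hA hC hr hle
    exact hfin D hD hDN
  · refine hfin _ hc.1 ?_
    rw [← hc.2.2.2 c hcC hc1, Subgroup.closure_le]
    rintro _ ⟨a₁, ha₁, rfl⟩
    have c1 : a * a₁⁻¹ = a₁⁻¹ * a :=
      mulComm_of_isMulCommutative (hS.commutative A hA) ha (inv_mem ha₁)
    have e1 : a₁ * c * a₁⁻¹ * c⁻¹ = (a₁ * (c * a⁻¹) * a₁⁻¹) * (c * a⁻¹)⁻¹ := by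
      calc a₁ * c * a₁⁻¹ * c⁻¹ = a₁ * (c * a⁻¹) * (a * a₁⁻¹) * a⁻¹ * (c * a⁻¹)⁻¹ := by group
        _ = a₁ * (c * a⁻¹) * (a₁⁻¹ * a) * a⁻¹ * (c * a⁻¹)⁻¹ := by rw [c1]
        _ = (a₁ * (c * a⁻¹) * a₁⁻¹) * (c * a⁻¹)⁻¹ := by group
    show a₁ * c * a₁⁻¹ * c⁻¹ ∈ N
    rw [e1]
    exact mul_mem (hN.conj_mem _ hyN _) (inv_mem hyN)

/-- A perfect non-abelian group whose normal subgroups are central or everything is
quasisimple. -/
theorem isQuasisimple_of_dichotomy (hperf : commutator G = ⊤) (hZ : Subgroup.center G ≠ ⊤)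
    (hdich : ∀ N : Subgroup G, N.Normal → N ≤ Subgroup.center G ∨ N = ⊤) : IsQuasisimple G := by
  refine ⟨Group.isPerfect_def.mpr hperf, ?_⟩
  have : Nontrivial (G ⧸ Subgroup.center G) := QuotientGroup.nontrivial_iff.mpr hZ
  refine ⟨fun M hM => ?_⟩
  have hcN : (M.comap (QuotientGroup.mk' (Subgroup.center G))).Normal := hM.comap _
  rcases hdich _ hcN with h | h
  · left
    rw [eq_bot_iff]
    intro q hq
    obtain ⟨g, rfl⟩ := QuotientGroup.mk_surjective q
    have hg : g ∈ M.comap (QuotientGroup.mk' (Subgroup.center G)) := hq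
    rw [Subgroup.mem_bot]
    exact (QuotientGroup.eq_one_iff g).mpr (h hg)
  · right
    rw [eq_top_iff]
    intro q _
    obtain ⟨g, rfl⟩ := QuotientGroup.mk_surjective q
    have hg : g ∈ M.comap (QuotientGroup.mk' (Subgroup.center G)) := by rw [h]; trivial
    exact hg

/-- Quasisimplicity transfers along an isomorphism. -/
theorem isQuasisimple_congr {H₁ H₂ : Type*} [Group H₁] [Group H₂] (e : H₁ ≃* H₂)
    (h : IsQuasisimple H₂) : IsQuasisimple H₁ := by
  obtain ⟨hp, hs⟩ := h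
  refine ⟨?_, ?_⟩
  · exact Group.IsPerfect.ofSurjective (f := e.symm.toMonoidHom) e.symm.surjective
  · have hc : (Subgroup.center H₁).map (e : H₁ →* H₂) = Subgroup.center H₂ := by
      ext x
      constructor
      · rintro ⟨y, hy, rfl⟩
        have hy' : ∀ g, g * y = y * g := Subgroup.mem_center_iff.mp hy
        rw [Subgroup.mem_center_iff]
        intro g
        have := congrArg e (hy' (e.symm g))
        simpa using this
      · intro hx
        rw [Subgroup.mem_center_iff] at hx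
        refine ⟨e.symm x, Subgroup.mem_center_iff.mpr ?_, by simp⟩
        intro g
        have := congrArg e.symm (hx (e g))
        simpa using this
    exact (QuotientGroup.congr (Subgroup.center H₁) (Subgroup.center H₂) e hc).isSimpleGroup

end Cfsg.Agent.Lib.Helper83
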