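import Mathlib
import Cfsg.Agent.S0688
import Cfsg.Agent.Lib.Helper83.CommField

/-!
# Solvable linear groups regular on the nonzero vectors

`reglin_core`: a solvable group of linear maps over a prime field which is regular on the nonzero
vectors and has order divisible by nine has a commutative subgroup containing all commutators
(the centraliser of an irreducible cyclic normal subgroup).
-/

set_option autoImplicit false

namespace Cfsg.Agent.Lib.Helper83

section RegLin

variable {p : ℕ} [Fact p.Prime] {V : Type*} [AddCommGroup V] [Module (ZMod p) V] [Finite V]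

theorem reglin_card (H : Subgroup (V ≃ₗ[ZMod p] V))
    (hreg : ∀ v w : V, v ≠ 0 → w ≠ 0 → ∃! h : H, (h : V ≃ₗ[ZMod p] V) v = w)
    {v₀ : V} (hv₀ : v₀ ≠ 0) : Nat.card H + 1 = Nat.card V := by
  have hne : ∀ h : H, (h : V ≃ₗ[ZMod p] V) v₀ ≠ 0 := by
    intro h h0
    exact hv₀ ((LinearEquiv.map_eq_zero_iff _).mp h0)
  have h1 : Nat.card H = Nat.card {w : V // w ≠ 0} := by
    apply Nat.card_congr
    apply Equiv.ofBijective (fun h : H => (⟨(h : V ≃ₗ[ZMod p] V) v₀, hne h⟩ : {w : V // w ≠ 0}))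
    constructor
    · intro h h' hh
      have h2 : (h : V ≃ₗ[ZMod p] V) v₀ = (h' : V ≃ₗ[ZMod p] V) v₀ := congrArg Subtype.val hh
      obtain ⟨x, -, hx2⟩ := hreg v₀ ((h' : V ≃ₗ[ZMod p] V) v₀) hv₀ (hne h')
      exact (hx2 h h2).trans (hx2 h' rfl).symm
    · rintro ⟨w, hw⟩
      obtain ⟨h, hh, -⟩ := hreg v₀ w hv₀ hw
      exact ⟨h, Subtype.ext hh⟩
  rw [h1]
  have h2 := Set.ncard_add_ncard_compl ({0} : Set V)
  rw [Set.ncard_singleton] at h2
  have h3 : Nat.card {w : V // w ≠ 0} = (({0} : Set V)ᶜ).ncard := rfl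
  omega

theorem reglin_core (H : Subgroup (V ≃ₗ[ZMod p] V))
    (hreg : ∀ v w : V, v ≠ 0 → w ≠ 0 → ∃! h : H, (h : V ≃ₗ[ZMod p] V) v = w)
    (hsolv : Group.IsSolvable H) (h9 : 9 ∣ Nat.card H) :
    ∃ D : Subgroup H, (∀ x y : H, x * y * x⁻¹ * y⁻¹ ∈ D) ∧
      (∀ x ∈ D, ∀ y ∈ D, x * y = y * x) := by
  by_cases hV : ∀ v : V, v = 0
  · refine ⟨⊤, fun _ _ => trivial, ?_⟩
    intro x _ y _
    have hx : ∀ z : H, z = 1 := by
      intro z
      apply Subtype.ext
      apply LinearEquiv.ext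
      intro v
      rw [hV v, map_zero]
      exact (hV _).symm
    rw [hx x, hx y]
  push Not at hV
  obtain ⟨v₀, hv₀⟩ := hV
  have hcard := reglin_card H hreg hv₀
  have hnotI : ¬ (∀ A : Subgroup H, A.Normal → IsCyclic A →
      ∃ W : Submodule (ZMod p) V, W ≠ ⊥ ∧ W ≠ ⊤ ∧
        ∀ a ∈ A, ∀ v ∈ W, ((a : H) : V ≃ₗ[ZMod p] V) v ∈ W) := by
    intro hI
    have h := Cfsg.Agent.S0688.result H hreg hI hsolv
    rcases h with h | h | h | h
    all_goals
      rw [h] at hcard
      obtain ⟨m, hm⟩ := h9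
      omega
  push Not at hnotI
  obtain ⟨A, hAn, hAc, hAirr⟩ := hnotI
  have hAcomm : ∀ a ∈ A, ∀ a' ∈ A, a * a' = a' * a := by
    intro a ha a' ha'
    have h := (IsCyclic.commGroup (α := A)).mul_comm ⟨a, ha⟩ ⟨a', ha'⟩
    exact congrArg Subtype.val h
  have hconj : ∀ x : H, ∃ m : ℤ, ∀ a ∈ A, x * a * x⁻¹ = a ^ m := by
    intro x
    obtain ⟨m, hm⟩ := MonoidHom.map_cyclic ((MulAut.conjNormal x : MulAut A).toMonoidHom)
    refine ⟨m, fun a ha => ?_⟩
    have h := congrArg Subtype.val (hm ⟨a, ha⟩)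
    simpa using h
  have hcc : ∀ x y : H, ∀ a ∈ A, x * (y * a * y⁻¹) * x⁻¹ = y * (x * a * x⁻¹) * y⁻¹ := by
    intro x y a ha
    obtain ⟨m, hm⟩ := hconj x
    obtain ⟨n, hn⟩ := hconj y
    rw [hn a ha, hm a ha, hm _ (A.zpow_mem ha n), hn _ (A.zpow_mem ha m), ← zpow_mul, ← zpow_mul,
      mul_comm]
  refine ⟨Subgroup.centralizer (A : Set H), ?_, ?_⟩
  · intro x y
    rw [Subgroup.mem_centralizer_iff]
    intro a ha
    have ha' : (y * x)⁻¹ * a * (y * x) ∈ A := by
      have := hAn.conj_mem a ha (y * x)⁻¹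
      rwa [inv_inv] at this
    have h1 := hcc x y _ ha'
    have h2 : (x * y * x⁻¹ * y⁻¹) * a * (x * y * x⁻¹ * y⁻¹)⁻¹ = a := by
      calc (x * y * x⁻¹ * y⁻¹) * a * (x * y * x⁻¹ * y⁻¹)⁻¹
          = x * (y * ((y * x)⁻¹ * a * (y * x)) * y⁻¹) * x⁻¹ := by group
        _ = y * (x * ((y * x)⁻¹ * a * (y * x)) * x⁻¹) * y⁻¹ := h1
        _ = a := by group
    calc a * (x * y * x⁻¹ * y⁻¹)
        = ((x * y * x⁻¹ * y⁻¹) * a * (x * y * x⁻¹ * y⁻¹)⁻¹) * (x * y * x⁻¹ * y⁻¹) := by rw [h2]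
      _ = x * y * x⁻¹ * y⁻¹ * a := by group
  · obtain ⟨φ, hφ⟩ : ∃ φ : H → AddMonoid.End V, ∀ h v, φ h v = (h : V ≃ₗ[ZMod p] V) v :=
      ⟨fun h => ((h : V ≃ₗ[ZMod p] V) : V →ₗ[ZMod p] V).toAddMonoidHom, fun h v => rfl⟩
    have hφmul : ∀ h h' : H, φ (h * h') = φ h * φ h' := by
      intro h h'
      apply AddMonoidHom.ext
      intro v
      change φ (h * h') v = φ h (φ h' v)
      rw [hφ, hφ, hφ]
      rfl
    obtain ⟨T, hT⟩ : ∃ T : Set (AddMonoid.End V), T = {τ | ∃ a ∈ A, τ = φ a} := ⟨_, rfl⟩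
    have hTcomm : ∀ x ∈ T, ∀ y ∈ T, x * y = y * x := by
      intro x hx y hy
      rw [hT] at hx hy
      obtain ⟨a, ha, rfl⟩ := hx
      obtain ⟨a', ha', rfl⟩ := hy
      rw [← hφmul, ← hφmul, hAcomm a ha a' ha']
    have hirr : ∀ W : AddSubgroup V, (∀ τ ∈ T, ∀ x ∈ W, τ x ∈ W) → W = ⊥ ∨ W = ⊤ := by
      intro W hW
      by_contra hcon
      push Not at hcon
      obtain ⟨hb, ht⟩ := hcon
      have hb' : AddSubgroup.toZModSubmodule p W ≠ ⊥ := by
        intro h
        apply hb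
        rw [← (AddSubgroup.toZModSubmodule p).map_bot] at h
        exact (AddSubgroup.toZModSubmodule p).injective h
      have ht' : AddSubgroup.toZModSubmodule p W ≠ ⊤ := by
        intro h
        apply ht
        rw [← (AddSubgroup.toZModSubmodule p).map_top] at h
        exact (AddSubgroup.toZModSubmodule p).injective h
      obtain ⟨a, ha, v, hv, hav⟩ := hAirr _ hb' ht'
      apply hav
      have h1 := hW (φ a) (by rw [hT]; exact ⟨a, ha, rfl⟩) v hv
      rw [hφ] at h1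
      exact h1
    have hkey : ∀ g ∈ Subgroup.centralizer (A : Set H), ∃ e : Subring.closure T,
        ∀ w : V, (e : AddMonoid.End V) w = (g : V ≃ₗ[ZMod p] V) w := by
      intro g hg
      rw [Subgroup.mem_centralizer_iff] at hg
      obtain ⟨e, he⟩ := endClosure_exists_apply T hirr hv₀ ((g : V ≃ₗ[ZMod p] V) v₀)
      refine ⟨e, fun w => ?_⟩
      obtain ⟨f, rfl⟩ := endClosure_exists_apply T hirr hv₀ w
      have hle : Subring.closure T ≤ Subring.centralizer {φ g} := by
        rw [Subring.closure_le]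
        intro τ hτ
        rw [hT] at hτ
        obtain ⟨a, ha, rfl⟩ := hτ
        rw [SetLike.mem_coe, Subring.mem_centralizer_iff]
        intro z hz
        rw [Set.mem_singleton_iff] at hz
        rw [hz, ← hφmul, ← hφmul, hg a ha]
      have hf := hle f.2
      rw [Subring.mem_centralizer_iff] at hf
      have hf' := hf (φ g) rfl
      have hc : e * f = f * e := endClosure_comm T hTcomm e f
      have h1 : ((e * f : Subring.closure T) : AddMonoid.End V) v₀
          = ((f * e : Subring.closure T) : AddMonoid.End V) v₀ := by rw [hc]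
      have h2 : (φ g * (f : AddMonoid.End V)) v₀ = ((f : AddMonoid.End V) * φ g) v₀ := by rw [hf']
      calc (e : AddMonoid.End V) ((f : AddMonoid.End V) v₀)
          = ((e * f : Subring.closure T) : AddMonoid.End V) v₀ := rfl
        _ = ((f * e : Subring.closure T) : AddMonoid.End V) v₀ := h1
        _ = (f : AddMonoid.End V) ((e : AddMonoid.End V) v₀) := rfl
        _ = (f : AddMonoid.End V) (φ g v₀) := by rw [he, hφ]
        _ = ((f : AddMonoid.End V) * φ g) v₀ := rfl
        _ = (φ g * (f : AddMonoid.End V)) v₀ := h2.symm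
        _ = φ g ((f : AddMonoid.End V) v₀) := rfl
        _ = (g : V ≃ₗ[ZMod p] V) ((f : AddMonoid.End V) v₀) := hφ _ _
    intro x hx y hy
    obtain ⟨e, he⟩ := hkey x hx
    obtain ⟨f, hf⟩ := hkey y hy
    apply Subtype.ext
    apply LinearEquiv.ext
    intro w
    have hc : e * f = f * e := endClosure_comm T hTcomm e f
    have h1 : ((e * f : Subring.closure T) : AddMonoid.End V) w
        = ((f * e : Subring.closure T) : AddMonoid.End V) w := by rw [hc]
    calc ((x * y : H) : V ≃ₗ[ZMod p] V) w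
        = (x : V ≃ₗ[ZMod p] V) ((y : V ≃ₗ[ZMod p] V) w) := rfl
      _ = (e : AddMonoid.End V) ((f : AddMonoid.End V) w) := by rw [he, hf]
      _ = ((e * f : Subring.closure T) : AddMonoid.End V) w := rfl
      _ = ((f * e : Subring.closure T) : AddMonoid.End V) w := h1
      _ = (f : AddMonoid.End V) ((e : AddMonoid.End V) w) := rfl
      _ = (y : V ≃ₗ[ZMod p] V) ((x : V ≃ₗ[ZMod p] V) w) := by rw [he, hf]
      _ = ((y * x : H) : V ≃ₗ[ZMod p] V) w := rfl

/-- Version of `reglin_core` for an abstract group with a faithful linear representation. -/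
theorem reglin_core' {X : Type*} [Group X] (ρ : X →* (V ≃ₗ[ZMod p] V))
    (hρ : Function.Injective ρ)
    (hreg : ∀ v w : V, v ≠ 0 → w ≠ 0 → ∃! x : X, ρ x v = w)
    (hsolv : Group.IsSolvable X) (h9 : 9 ∣ Nat.card X) :
    ∃ D : Subgroup X, (∀ x y : X, x * y * x⁻¹ * y⁻¹ ∈ D) ∧
      (∀ x ∈ D, ∀ y ∈ D, x * y = y * x) := by
  have hreg' : ∀ v w : V, v ≠ 0 → w ≠ 0 → ∃! h : ρ.range, (h : V ≃ₗ[ZMod p] V) v = w := by
    intro v w hv hw
    obtain ⟨x, hx, hxu⟩ := hreg v w hv hw
    refine ⟨⟨ρ x, x, rfl⟩, hx, ?_⟩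
    rintro ⟨_, x', rfl⟩ hx'
    have := hxu x' hx'
    subst this
    rfl
  have hsolv' : Group.IsSolvable ρ.range :=
    Group.isSolvable_of_surjective (f := ρ.rangeRestrict) ρ.rangeRestrict_surjective
  have hcard : Nat.card ρ.range = Nat.card X :=
    (Nat.card_congr (MonoidHom.ofInjective hρ).toEquiv).symm
  obtain ⟨D', hD1, hD2⟩ := reglin_core ρ.range hreg' hsolv' (by rw [hcard]; exact h9)
  refine ⟨D'.comap ρ.rangeRestrict, ?_, ?_⟩
  · intro x y
    rw [Subgroup.mem_comap]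
    have := hD1 (ρ.rangeRestrict x) (ρ.rangeRestrict y)
    simpa using this
  · intro x hx y hy
    rw [Subgroup.mem_comap] at hx hy
    have h1 := hD2 _ hx _ hy
    have h2 : ρ.rangeRestrict (x * y) = ρ.rangeRestrict (y * x) := by
      rw [map_mul, map_mul, h1]
    have h3 : ρ (x * y) = ρ (y * x) := congrArg Subtype.val h2
    exact hρ h3

/-- Multiplicative version: a solvable group of order divisible by nine acting faithfully on an
elementary abelian `p`-group, regularly on its nonidentity elements, has a commutative subgroup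
containing all commutators. -/
theorem reglin_mul {K : Type*} [CommGroup K] [Finite K] {X : Type*} [Group X] {p : ℕ}
    [Fact p.Prime] (hKp : ∀ k : K, k ^ p = 1) (ψ : X →* MulAut K) (hψ : Function.Injective ψ)
    (hreg : ∀ k k' : K, k ≠ 1 → k' ≠ 1 → ∃! x : X, ψ x k = k')
    (hsolv : Group.IsSolvable X) (h9 : 9 ∣ Nat.card X) :
    ∃ D : Subgroup X, (∀ x y : X, x * y * x⁻¹ * y⁻¹ ∈ D) ∧
      (∀ x ∈ D, ∀ y ∈ D, x * y = y * x) := by
  have : Module (ZMod p) (Additive K) := AddCommGroup.zmodModule (fun v => by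
    change Additive.ofMul ((Additive.toMul v) ^ p) = 0
    rw [hKp]
    rfl)
  obtain ⟨L, hL⟩ : ∃ L : X → (Additive K →ₗ[ZMod p] Additive K),
      ∀ (x : X) (v : Additive K), L x v = Additive.ofMul (ψ x (Additive.toMul v)) :=
    ⟨fun x => AddMonoidHom.toZModLinearMap p (MonoidHom.toAdditive (ψ x).toMonoidHom),
      fun x v => rfl⟩
  have hL1 : L 1 = LinearMap.id := by
    apply LinearMap.ext
    intro v
    rw [hL, map_one]
    rfl
  have hLmul : ∀ x y, L (x * y) = (L x).comp (L y) := by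
    intro x y
    apply LinearMap.ext
    intro v
    rw [LinearMap.comp_apply, hL, hL, hL, map_mul]
    rfl
  obtain ⟨ρ, hρ⟩ : ∃ ρ : X →* (Additive K ≃ₗ[ZMod p] Additive K),
      ∀ (x : X) (v : Additive K), ρ x v = Additive.ofMul (ψ x (Additive.toMul v)) := by
    refine ⟨{ toFun := fun x => LinearEquiv.ofLinearMap (L x) (L x⁻¹)
                (by rw [← hLmul, mul_inv_cancel, hL1]) (by rw [← hLmul, inv_mul_cancel, hL1])
              map_one' := ?_
              map_mul' := ?_ }, ?_⟩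
    · apply LinearEquiv.ext
      intro v
      change L 1 v = v
      rw [hL1]
      rfl
    · intro x y
      apply LinearEquiv.ext
      intro v
      change L (x * y) v = L x (L y v)
      rw [hLmul]
      rfl
    · intro x v
      exact hL x v
  apply reglin_core' ρ ?_ ?_ hsolv h9
  · intro x y hxy
    apply hψ
    apply MulEquiv.ext
    intro k
    have h1 : ρ x (Additive.ofMul k) = ρ y (Additive.ofMul k) := by rw [hxy]
    rw [hρ, hρ] at h1
    exact h1
  · intro v w hv hw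
    have hv' : Additive.toMul v ≠ 1 := fun h => hv h
    have hw' : Additive.toMul w ≠ 1 := fun h => hw h
    obtain ⟨x, hx, hxu⟩ := hreg (Additive.toMul v) (Additive.toMul w) hv' hw'
    refine ⟨x, ?_, ?_⟩
    · change ρ x v = w
      rw [hρ, hx]
      rfl
    · intro y hy
      apply hxu
      change ρ y v = w at hy
      rw [hρ] at hy
      exact hy

/-- Conjugation version: a solvable subgroup `H` of order divisible by nine normalising a finite
elementary abelian subgroup `K` and regular on its nonidentity elements has a commutative subgroup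
containing all commutators. -/
theorem reglin_conj {Y : Type*} [Group Y] (K H : Subgroup Y) [Finite K] {p : ℕ} [Fact p.Prime]
    (hKc : ∀ x ∈ K, ∀ y ∈ K, x * y = y * x) (hKp : ∀ k ∈ K, k ^ p = 1)
    (hnorm : ∀ h ∈ H, ∀ k ∈ K, h * k * h⁻¹ ∈ K)
    (hreg : ∀ k ∈ K, ∀ k' ∈ K, k ≠ 1 → k' ≠ 1 →
      ∃ h ∈ H, h * k * h⁻¹ = k' ∧ ∀ h' ∈ H, h' * k * h'⁻¹ = k' → h' = h)
    (hne : ∃ k ∈ K, k ≠ 1)
    (hsolv : Group.IsSolvable H) (h9 : 9 ∣ Nat.card H) :
    ∃ D : Subgroup H, (∀ x y : H, x * y * x⁻¹ * y⁻¹ ∈ D) ∧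
      (∀ x ∈ D, ∀ y ∈ D, x * y = y * x) := by
  have hnorm' : ∀ h ∈ H, ∀ k ∈ K, h⁻¹ * k * h ∈ K := by
    intro h hh k hk
    have := hnorm h⁻¹ (H.inv_mem hh) k hk
    rwa [inv_inv] at this
  obtain ⟨ψ, hψ⟩ : ∃ ψ : ↥H →* MulAut ↥K,
      ∀ (h : ↥H) (k : ↥K), ((ψ h k : ↥K) : Y) = (h : Y) * (k : Y) * (h : Y)⁻¹ := by
    refine ⟨{ toFun := fun h =>
                { toFun := fun k => ⟨(h : Y) * (k : Y) * (h : Y)⁻¹, hnorm h h.2 k k.2⟩
                  invFun := fun k => ⟨(h : Y)⁻¹ * (k : Y) * (h : Y), hnorm' h h.2 k k.2⟩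
                  left_inv := fun k => Subtype.ext (by
                    change (h : Y)⁻¹ * ((h : Y) * (k : Y) * (h : Y)⁻¹) * (h : Y) = (k : Y)
                    group)
                  right_inv := fun k => Subtype.ext (by
                    change (h : Y) * ((h : Y)⁻¹ * (k : Y) * (h : Y)) * (h : Y)⁻¹ = (k : Y)
                    group)
                  map_mul' := fun k k' => Subtype.ext (by
                    change (h : Y) * ((k : Y) * (k' : Y)) * (h : Y)⁻¹
                      = ((h : Y) * (k : Y) * (h : Y)⁻¹) * ((h : Y) * (k' : Y) * (h : Y)⁻¹)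
                    group) }
              map_one' := ?_
              map_mul' := ?_ }, ?_⟩
    · apply MulEquiv.ext
      intro k
      apply Subtype.ext
      change ((1 : ↥H) : Y) * (k : Y) * ((1 : ↥H) : Y)⁻¹ = (k : Y)
      rw [Subgroup.coe_one]
      group
    · intro h h'
      apply MulEquiv.ext
      intro k
      apply Subtype.ext
      change ((h * h' : ↥H) : Y) * (k : Y) * ((h * h' : ↥H) : Y)⁻¹
        = (h : Y) * ((h' : Y) * (k : Y) * (h' : Y)⁻¹) * (h : Y)⁻¹
      rw [Subgroup.coe_mul]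
      group
    · intro h k
      rfl
  have hKp' : ∀ k : ↥K, k ^ p = 1 := by
    intro k
    apply Subtype.ext
    rw [Subgroup.coe_pow]
    exact hKp k k.2
  have hreg' : ∀ k k' : ↥K, k ≠ 1 → k' ≠ 1 → ∃! x : ↥H, ψ x k = k' := by
    intro k k' hk hk'
    obtain ⟨h, hh, h1, h2⟩ := hreg k k.2 k' k'.2 (fun e => hk (Subtype.ext e))
      (fun e => hk' (Subtype.ext e))
    refine ⟨⟨h, hh⟩, Subtype.ext ((hψ _ _).trans h1), ?_⟩
    intro y hy
    apply Subtype.ext
    apply h2 y y.2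
    rw [← hψ, hy]
  have hψinj : Function.Injective ψ := by
    intro x y hxy
    obtain ⟨k₀, hk₀, hk₀1⟩ := hne
    have hk1 : (⟨k₀, hk₀⟩ : ↥K) ≠ 1 := fun e => hk₀1 (congrArg Subtype.val e)
    have hk2 : ψ y ⟨k₀, hk₀⟩ ≠ 1 := by
      intro e
      apply hk1
      have : ψ y ⟨k₀, hk₀⟩ = ψ y 1 := by rw [e, map_one]
      exact (ψ y).injective this
    obtain ⟨z, -, hz⟩ := hreg' ⟨k₀, hk₀⟩ (ψ y ⟨k₀, hk₀⟩) hk1 hk2
    have hx : ψ x ⟨k₀, hk₀⟩ = ψ y ⟨k₀, hk₀⟩ := by rw [hxy]
    rw [hz x hx, hz y rfl]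
  let instK : CommGroup ↥K :=
    { (inferInstance : Group ↥K) with mul_comm := fun x y => Subtype.ext (hKc x x.2 y y.2) }
  exact @reglin_mul ↥K instK _ ↥H _ p _ hKp' ψ hψinj hreg' hsolv h9

end RegLin

end Cfsg.Agent.Lib.Helper83
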