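import Mathlib
import Cfsg.Prelude.Def_RootSubgroups

set_option autoImplicit false

namespace Cfsg.Agent.Lib.Helper83

open Cfsg

variable {G : Type*} [Group G]

theorem orderOf_mul_comm' (a b : G) : orderOf (a * b) = orderOf (b * a) := by
  have h := orderOf_injective (MulAut.conj b).toMonoidHom (MulAut.conj b).injective (a * b)
  have e : (MulAut.conj b).toMonoidHom (a * b) = b * a := by
    show b * (a * b) * b⁻¹ = b * a
    group
  rw [e] at h
  exact h.symm

theorem orderOf_conj_inv (g y : G) : orderOf (g⁻¹ * y * g) = orderOf y := by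
  rw [orderOf_mul_comm', mul_inv_cancel_left]

/-- Two involutions whose product squares to one commute. -/
theorem invol_comm_of_sq {s t : G} (hs : s * s = 1) (ht : t * t = 1) (h : (s * t) * (s * t) = 1) :
    s * t = t * s := by
  calc s * t = s * t * (s * (t * t) * s) := by rw [ht, mul_one, hs, mul_one]
    _ = ((s * t) * (s * t)) * (t * s) := by group
    _ = t * s := by rw [h, one_mul]

section RootInvolutions

variable {D : Set G}

theorem rinv_sq (hD : IsRootInvolutionSet D) {d : G} (hd : d ∈ D) : d * d = 1 := by
  have h := hD.orderOf_eq d hd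
  rw [← pow_two, ← h]
  exact pow_orderOf_eq_one d

theorem rinv_ne_one (hD : IsRootInvolutionSet D) {d : G} (hd : d ∈ D) : d ≠ 1 := by
  intro h
  have h2 := hD.orderOf_eq d hd
  rw [h, orderOf_one] at h2
  omega

theorem rinv_inv (hD : IsRootInvolutionSet D) {d : G} (hd : d ∈ D) : d⁻¹ = d :=
  inv_eq_of_mul_eq_one_right (rinv_sq hD hd)

theorem rinv_conj' (hD : IsRootInvolutionSet D) {d : G} (hd : d ∈ D) (g : G) : g⁻¹ * d * g ∈ D := by
  have h := hD.conj_mem d hd g⁻¹
  rwa [inv_inv] at h

theorem rinv_conj_invol (hD : IsRootInvolutionSet D) {d e : G} (hd : d ∈ D) (he : e ∈ D) :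
    e * d * e ∈ D := by
  have h := hD.conj_mem d hd e
  rwa [rinv_inv hD he] at h

/-- No member `g` of `D` commuting with two members `u ≠ v` whose product has odd order can have
`g u ∈ D`. -/
theorem rinv_no_common_centralizer (hD : IsRootInvolutionSet D) {g u v : G} (hg : g ∈ D)
    (hu : u ∈ D) (hv : v ∈ D) (hgu : g * u = u * g) (hgv : g * v = v * g)
    (hodd : Odd (orderOf (u * v))) (hne : u ≠ v) : g * u ∉ D := by
  intro hgD
  have hcomm : Commute g (u * v) := by
    show g * (u * v) = (u * v) * g
    rw [← mul_assoc, hgu, mul_assoc, hgv, mul_assoc]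
  have hcop : Nat.Coprime (orderOf g) (orderOf (u * v)) := by
    rw [hD.orderOf_eq g hg]
    exact Nat.coprime_two_left.mpr hodd
  have hord : orderOf (g * u * v) = 2 * orderOf (u * v) := by
    rw [mul_assoc, hcomm.orderOf_mul_eq_mul_orderOf_of_coprime hcop, hD.orderOf_eq g hg]
  have hn1 : orderOf (u * v) ≠ 1 := by
    intro h1
    rw [orderOf_eq_one_iff] at h1
    apply hne
    have h2 : v = u⁻¹ := eq_inv_of_mul_eq_one_right h1
    rw [h2, rinv_inv hD hu]
  rcases hD.pair (g * u) hgD v hv with h | h | ⟨h, -⟩
  · have h2 : (g * u * v) ^ 2 = 1 := by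
      rw [pow_two]
      calc g * u * v * (g * u * v) = (g * u) * (v * (g * u)) * v := by group
        _ = (g * u) * ((g * u) * v) * v := by rw [h]
        _ = ((g * u) * (g * u)) * (v * v) := by group
        _ = 1 := by rw [rinv_sq hD hgD, rinv_sq hD hv, one_mul]
    have hdvd := orderOf_dvd_of_pow_eq_one h2
    rw [hord] at hdvd
    have hpos : 0 < orderOf (u * v) := Nat.pos_of_ne_zero (fun h0 => by rw [h0] at hodd; exact absurd hodd (by decide))
    have hle := Nat.le_of_dvd (by norm_num) hdvd
    omega
  · rw [hord] at h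
    exact absurd h (Nat.not_odd_iff_even.mpr (even_two_mul _))
  · rw [hord] at h
    have h2 : orderOf (u * v) = 2 := by omega
    rw [h2] at hodd
    exact absurd hodd (by decide)

/-- If `a, e, a e ∈ D` with `a e = e a`, and `x ∈ D` has odd order product with `a` (`x ≠ a`), then `x` has
odd order product with `e` or with `a e`. -/
theorem rinv_claimA (hD : IsRootInvolutionSet D) {a e x : G} (ha : a ∈ D) (he : e ∈ D)
    (hae : a * e = e * a) (hf : a * e ∈ D) (hx : x ∈ D) (hodd : Odd (orderOf (a * x)))
    (hax : a ≠ x) : Odd (orderOf (e * x)) ∨ Odd (orderOf (a * e * x)) := by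
  have a2 := rinv_sq hD ha
  have e2 := rinv_sq hD he
  have x2 := rinv_sq hD hx
  have hex : e * x ≠ x * e := by
    intro h
    exact rinv_no_common_centralizer hD he ha hx hae.symm h hodd hax (by rw [← hae]; exact hf)
  have hfx : a * e * x ≠ x * (a * e) := by
    intro h
    have hfa : a * e * a = a * (a * e) := by rw [mul_assoc, ← hae]
    have hmem : a * e * a ∈ D := by
      have h1 : a * e * a = e := by rw [hae, mul_assoc, a2, mul_one]
      rw [h1]; exact he
    exact rinv_no_common_centralizer hD hf ha hx hfa h hodd hax hmem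
  rcases hD.pair e he x hx with h | h | ⟨h4, hw⟩
  · exact absurd h hex
  · exact Or.inl h
  rcases hD.pair (a * e) hf x hx with h | h | ⟨hf4, -⟩
  · exact absurd h hfx
  · exact Or.inr h
  exfalso
  have hg : e * x * e ∈ D := rinv_conj_invol hD hx he
  have g2 := rinv_sq hD hg
  have e4 : (e * x) ^ 4 = 1 := by rw [← h4]; exact pow_orderOf_eq_one _
  have f4 : (a * e * x) ^ 4 = 1 := by rw [← hf4]; exact pow_orderOf_eq_one _
  -- g commutes with x
  have hgx : (e * x * e) * x = x * (e * x * e) := by
    apply invol_comm_of_sq g2 x2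
    have h1 : (e * x * e * x) * (e * x * e * x) = (e * x) ^ 4 := by
      simp only [pow_succ, pow_zero, one_mul, mul_assoc]
    rw [h1, e4]
  -- a g a commutes with x
  have ht : a * (e * x * e) * a ∈ D := rinv_conj_invol hD hg ha
  have htx : (a * (e * x * e) * a) * x = x * (a * (e * x * e) * a) := by
    apply invol_comm_of_sq (rinv_sq hD ht) x2
    have h1 : a * (e * x * e) * a * x = (a * e * x) * (a * e * x) := by
      calc a * (e * x * e) * a * x = a * e * x * (e * a) * x := by group
        _ = a * e * x * (a * e) * x := by rw [hae]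
        _ = (a * e * x) * (a * e * x) := by group
    rw [h1]
    have h2 : (a * e * x) * (a * e * x) * ((a * e * x) * (a * e * x)) = (a * e * x) ^ 4 := by
      simp only [pow_succ, pow_zero, one_mul, mul_assoc]
    rw [h2, f4]
  -- g commutes with a x a
  have hgaxa : (e * x * e) * (a * x * a) = (a * x * a) * (e * x * e) := by
    calc (e * x * e) * (a * x * a) = (a * a) * (e * x * e) * (a * x * a) := by rw [a2, one_mul]
      _ = a * ((a * (e * x * e) * a) * x) * a := by group
      _ = a * (x * (a * (e * x * e) * a)) * a := by rw [htx]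
      _ = (a * x * a) * (e * x * e) * (a * a) := by group
      _ = (a * x * a) * (e * x * e) := by rw [a2, mul_one]
  -- g commutes with (x a)^2
  have hc2 : Commute (e * x * e) ((x * a) ^ 2) := by
    have h1 : (x * a) ^ 2 = x * (a * x * a) := by rw [pow_two]; group
    rw [h1]
    show (e * x * e) * (x * (a * x * a)) = x * (a * x * a) * (e * x * e)
    calc (e * x * e) * (x * (a * x * a)) = ((e * x * e) * x) * (a * x * a) := by group
      _ = (x * (e * x * e)) * (a * x * a) := by rw [hgx]
      _ = x * ((e * x * e) * (a * x * a)) := by group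
      _ = x * ((a * x * a) * (e * x * e)) := by rw [hgaxa]
      _ = x * (a * x * a) * (e * x * e) := by group
  have hodd' : Odd (orderOf (x * a)) := by rw [orderOf_mul_comm']; exact hodd
  obtain ⟨k, hk⟩ := hodd'
  have hxa : ((x * a) ^ 2) ^ (k + 1) = x * a := by
    rw [← pow_mul]
    have h1 : 2 * (k + 1) = orderOf (x * a) + 1 := by omega
    rw [h1, pow_succ, pow_orderOf_eq_one, one_mul]
  have hc1 : Commute (e * x * e) (x * a) := by
    rw [← hxa]; exact hc2.pow_right _
  have hga : (e * x * e) * a = a * (e * x * e) := by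
    have h1 : a = x * (x * a) := by rw [← mul_assoc, x2, one_mul]
    calc (e * x * e) * a = (e * x * e) * (x * (x * a)) := by rw [← h1]
      _ = ((e * x * e) * x) * (x * a) := by group
      _ = (x * (e * x * e)) * (x * a) := by rw [hgx]
      _ = x * ((e * x * e) * (x * a)) := by group
      _ = x * ((x * a) * (e * x * e)) := by rw [hc1.eq]
      _ = (x * (x * a)) * (e * x * e) := by group
      _ = a * (e * x * e) := by rw [← h1]
  have hnot := rinv_no_common_centralizer hD hg hx ha hgx hga
    (by rw [orderOf_mul_comm']; exact hodd) (Ne.symm hax)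
  apply hnot
  have h1 : e * x * e * x = (e * x) ^ 2 := by rw [pow_two]; group
  rw [h1]; exact hw

theorem oddAdj_symm {a b : G} (h : OddAdj D a b) : OddAdj D b a :=
  ⟨h.2.1, h.1, h.2.2.1.symm, by rw [orderOf_mul_comm']; exact h.2.2.2⟩

theorem oddReach_symm {a b : G} (h : Relation.ReflTransGen (OddAdj D) a b) :
    Relation.ReflTransGen (OddAdj D) b a := by
  induction h with
  | refl => exact Relation.ReflTransGen.refl
  | tail _ hbc ih => exact Relation.ReflTransGen.head (oddAdj_symm hbc) ih

theorem oddComponent_eq {a b : G} (hb : b ∈ elemComponentOf (OddAdj D) D a) :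
    elemComponentOf (OddAdj D) D b = elemComponentOf (OddAdj D) D a := by
  ext c
  constructor
  · rintro ⟨hc, h⟩
    exact ⟨hc, hb.2.trans h⟩
  · rintro ⟨hc, h⟩
    exact ⟨hc, (oddReach_symm hb.2).trans h⟩

/-- A member with a non-trivial component has an odd neighbour. -/
theorem exists_oddAdj_of_component {a : G}
    (h : ∃ a' ∈ elemComponentOf (OddAdj D) D a, a' ≠ a) : ∃ x, OddAdj D a x := by
  obtain ⟨a', ha', hne⟩ := h
  rcases Relation.ReflTransGen.cases_head ha'.2 with e | ⟨x, hx, -⟩
  · exact absurd e.symm hne
  · exact ⟨x, hx⟩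

/-- Product partners of a member with non-trivial component lie in the component or are isolated. -/
theorem rinv_productPartner_component (hD : IsRootInvolutionSet D) {a e : G} (ha : a ∈ D)
    (hcomp : ∃ a' ∈ elemComponentOf (OddAdj D) D a, a' ≠ a) (he : e ∈ productPartners D a) :
    e ∈ elemComponentOf (OddAdj D) D a ∨ IsIsolatedElem (OddAdj D) D e := by
  obtain ⟨⟨heD, hea, hne⟩, hprod⟩ := he
  obtain ⟨x, hax⟩ := exists_oddAdj_of_component hcomp
  have hfD : a * e ∈ D := by rw [← hea]; exact hprod
  rcases rinv_claimA hD ha heD hea.symm hfD hax.2.1 hax.2.2.2 hax.2.2.1 with h | h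
  · left
    have hex : e ≠ x := by
      rintro rfl
      -- a * e has order 2
      have h2 : orderOf (a * e) = 2 := hD.orderOf_eq _ hfD
      have := hax.2.2.2
      rw [h2] at this
      exact absurd this (by decide)
    have hadj : OddAdj D x e := oddAdj_symm ⟨heD, hax.2.1, hex, h⟩
    exact ⟨heD, Relation.ReflTransGen.tail (Relation.ReflTransGen.single hax) hadj⟩
  · by_cases hiso : IsIsolatedElem (OddAdj D) D e
    · right; exact hiso
    left
    have hfx : a * e ≠ x := by
      rintro rfl
      have h1 : a * (a * e) = e := by rw [← mul_assoc, rinv_sq hD ha, one_mul]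
      have := hax.2.2.2
      rw [h1, hD.orderOf_eq e heD] at this
      exact absurd this (by decide)
    have hfa : Relation.ReflTransGen (OddAdj D) a (a * e) :=
      Relation.ReflTransGen.tail (Relation.ReflTransGen.single hax)
        (oddAdj_symm ⟨hfD, hax.2.1, hfx, h⟩)
    -- e has an odd neighbour y
    obtain ⟨y, hey⟩ : ∃ y, OddAdj D e y := by
      by_contra hcon
      push Not at hcon
      exact hiso ⟨heD, fun b => ⟨hcon b, fun hb => hcon b (oddAdj_symm hb)⟩⟩
    have hafD : e * a ∈ D := hprod
    rcases rinv_claimA hD heD ha hea hafD hey.2.1 hey.2.2.2 hey.2.2.1 with h' | h'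
    · -- a ~ y
      have hay : a ≠ y := by
        rintro rfl
        have h2 : orderOf (e * a) = 2 := hD.orderOf_eq _ hafD
        have := hey.2.2.2
        rw [h2] at this
        exact absurd this (by decide)
      exact ⟨heD, Relation.ReflTransGen.tail (Relation.ReflTransGen.single ⟨ha, hey.2.1, hay, h'⟩)
        (oddAdj_symm hey)⟩
    · -- (e a) ~ y, and e a = a e
      have hfy : a * e ≠ y := by
        rintro rfl
        have h1 : e * (a * e) = a := by rw [hea.symm, ← mul_assoc, rinv_sq hD heD, one_mul]
        have := hey.2.2.2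
        rw [h1, hD.orderOf_eq a ha] at this
        exact absurd this (by decide)
      have h'' : Odd (orderOf (a * e * y)) := by rw [← hea]; exact h'
      exact ⟨heD, Relation.ReflTransGen.tail
        (Relation.ReflTransGen.tail hfa ⟨hfD, hey.2.1, hfy, h''⟩) (oddAdj_symm hey)⟩

end RootInvolutions

end Cfsg.Agent.Lib.Helper83
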