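import Cfsg.Agent.Lib.Helper83.RootSet

set_option autoImplicit false

namespace Cfsg.Agent.Lib.Helper83

open Cfsg
open scoped commutatorElement

variable {G : Type*} [Group G]

/-- If the members of `S` inside `A ⊔ B` partition `A ⊔ B` (with `A`, `B` commuting and distinct) and `F` is a
rank one partner of `A`, then `F` and `B` do not commute. -/
theorem root_line_not_commute {S : Set (Subgroup G)} (hS : IsRootSubgroupSet S) {A B F : Subgroup G}
    (hA : A ∈ S) (hB : B ∈ S) (hF : F ∈ S) (hAF : IsRankOnePair A F) (hAB : ⁅A, B⁆ = ⊥) (hne : A ≠ B)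
    (hpart : IsSubgroupPartition (A ⊔ B) (membersIn S (A ⊔ B))) : ⁅F, B⁆ ≠ ⊥ := by
  intro hFB
  obtain ⟨⟨b, hb⟩, hb1⟩ := (Subgroup.ne_bot_iff_exists_ne_one).mp (hS.ne_bot B hB)
  have hb1' : b ≠ 1 := fun e => hb1 (Subtype.ext e)
  obtain ⟨⟨a, ha⟩, ha1⟩ := (Subgroup.ne_bot_iff_exists_ne_one).mp (hS.ne_bot A hA)
  have ha1' : a ≠ 1 := fun e => ha1 (Subtype.ext e)
  have hz : b ∈ Subgroup.centralizer ((A ⊔ F : Subgroup G) : Set G) := by
    have hAc : A ≤ Subgroup.centralizer ({b} : Set G) := by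
      intro x hx
      rw [Subgroup.mem_centralizer_iff]
      intro m hm
      rw [Set.mem_singleton_iff] at hm
      rw [hm]
      exact (commute_of_commutator_eq_bot hAB hx hb).symm
    have hFc : F ≤ Subgroup.centralizer ({b} : Set G) := by
      intro x hx
      rw [Subgroup.mem_centralizer_iff]
      intro m hm
      rw [Set.mem_singleton_iff] at hm
      rw [hm]
      exact (commute_of_commutator_eq_bot hFB hx hb).symm
    rw [Subgroup.mem_centralizer_iff]
    intro y hy
    have := (sup_le hAc hFc) hy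
    rw [Subgroup.mem_centralizer_iff] at this
    exact (this b rfl).symm
  have hnot := root_central_mul_not_root hS hF hAF hz hb1' ha ha1'
  apply hnot
  have hAm : A ∈ membersIn S (A ⊔ B) := ⟨hA, le_sup_left⟩
  have hBm : B ∈ membersIn S (A ⊔ B) := ⟨hB, le_sup_right⟩
  have hba1 : b * a ≠ 1 := by
    intro e
    have hbA : b ∈ A := by
      have : b = a⁻¹ := mul_eq_one_iff_eq_inv.mp e
      rw [this]; exact inv_mem ha
    have : b ∈ A ⊓ B := ⟨hbA, hb⟩
    rw [hpart.2.2 A hAm B hBm hne, Subgroup.mem_bot] at this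
    exact hb1' this
  obtain ⟨E, hE, hEm⟩ := hpart.2.1 (b * a) (mul_mem (Subgroup.mem_sup_right hb) (Subgroup.mem_sup_left ha)) hba1
  exact ⟨hba1, E, hE.1, hEm⟩

/-- If `(A, F)` is a rank one pair, `(F, B)` is in the commutator case and `A` commutes with `B`, then every
member of `S` containing a product `a * b` with `1 ≠ a ∈ A`, `b ∈ B` is a rank one partner of `F`. -/
theorem root_line_rankOne {S : Set (Subgroup G)} (hS : IsRootSubgroupSet S) {A B F E : Subgroup G}
    (hB : B ∈ S) (hF : F ∈ S) (hE : E ∈ S) (hAF : IsRankOnePair A F) (hFB : RootCommutatorCase S F B)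
    (hAB : ∀ a ∈ A, ∀ b ∈ B, a * b = b * a) {a b : G} (ha : a ∈ A) (ha1 : a ≠ 1) (hb : b ∈ B)
    (hab : a * b ∈ E) : IsRankOnePair E F := by
  have ha1' : a⁻¹ ≠ 1 := fun e => ha1 (inv_eq_one.mp e)
  obtain ⟨⟨f, hf⟩, hf1⟩ := (Subgroup.ne_bot_iff_exists_ne_one).mp (rankOne_ne_bot_right hAF)
  have hf1' : f ≠ 1 := fun e => hf1 (Subtype.ext e)
  rcases hS.pair E hE F hF with h0 | h1 | h2
  · exfalso
    have h1 : conjBy F (a * b) = F :=
      conjBy_eq_of_commute (fun c hc => commute_of_commutator_eq_bot h0 hab hc)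
    have h2 : conjBy F b = conjBy F a⁻¹ := by
      rw [← conjBy_conjBy] at h1
      exact conjBy_eq_iff.mp h1
    rcases root_eq_or_rankOne_of_conj_eq hS hF hB hAF (inv_mem ha) ha1' hb h2 with e | hp
    · subst e
      exact rankOne_not_commute_conj (rankOne_symm hAF) hf hf1'
        (commCase_commute_conj (hS.commutative B hB) hFB hf)
    · exact rankOne_not_commute_all hp hAB
  · exact h1
  · exfalso
    -- the commutator d = [b, f] lies in ⁅F, B⁆
    have hd : b * f * b⁻¹ * f⁻¹ ∈ ⁅F, B⁆ := by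
      have := Subgroup.commutator_mem_commutator hb hf
      rwa [commutatorElement_def, Subgroup.commutator_comm] at this
    have hdF : ∀ x ∈ F, (b * f * b⁻¹ * f⁻¹) * x = x * (b * f * b⁻¹ * f⁻¹) :=
      fun x hx => hFB.2.1 _ hd x (Subgroup.mem_sup_left hx)
    -- F commutes with its conjugate under a * b
    have hcomm := commCase_commute_conj (hS.commutative F hF) h2 hab
    have hmem : (a * b) * f * (a * b)⁻¹ ∈ conjBy F (a * b) := conj_mem_conjBy hf (a * b)
    have he : (a * b) * f * (a * b)⁻¹ = a * ((b * f * b⁻¹ * f⁻¹) * f) * a⁻¹ := by group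
    rw [he] at hmem
    -- so d * f centralizes the conjugate of F under a⁻¹
    have hcent : conjBy (conjBy F a⁻¹) ((b * f * b⁻¹ * f⁻¹) * f) = conjBy F a⁻¹ := by
      apply conjBy_eq_of_commute
      intro y hy
      rw [mem_conjBy, inv_inv] at hy
      have := hcomm _ hy _ hmem
      calc (b * f * b⁻¹ * f⁻¹) * f * y
          = a⁻¹ * ((a * ((b * f * b⁻¹ * f⁻¹) * f) * a⁻¹) * (a * y * a⁻¹)) * a := by group
        _ = a⁻¹ * ((a * y * a⁻¹) * (a * ((b * f * b⁻¹ * f⁻¹) * f) * a⁻¹)) * a := by rw [this]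
        _ = y * ((b * f * b⁻¹ * f⁻¹) * f) := by group
    have hFF : IsRankOnePair F (conjBy F a⁻¹) := by
      have hne : F ≠ conjBy F a⁻¹ := fun e =>
        ha1' (rankOne_eq_one_of_normalizes hAF (inv_mem ha) e.symm)
      exact (rankOne_pair_of_mem_unipotent hAF (rankOne_right_mem_unipotent hAF)
        (unipotent_conj_mem (rankOne_right_mem_unipotent hAF) (Subgroup.mem_sup_left (inv_mem ha))) hne).1
    have hxa : conjBy (conjBy F a⁻¹) (b * f * b⁻¹ * f⁻¹) = conjBy (conjBy F a⁻¹) f⁻¹ := by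
      have e : b * f * b⁻¹ * f⁻¹ = f⁻¹ * ((b * f * b⁻¹ * f⁻¹) * f) := by
        rw [← mul_assoc, ← hdF f⁻¹ (inv_mem hf)]; group
      rw [e, ← conjBy_conjBy, hcent]
    rcases root_eq_or_rankOne_of_conj_eq hS (hS.conj_mem F hF a⁻¹) hFB.1 hFF (inv_mem hf)
      (fun e => hf1' (inv_eq_one.mp e)) hd hxa with e | hp
    · -- ⁅F, B⁆ = F is central in F ⊔ B, so F commutes with B
      have hbf : b * f * b⁻¹ * f⁻¹ ∈ ⁅F, B⁆ := hd
      apply hS.ne_bot _ hFB.1
      rw [Subgroup.commutator_eq_bot_iff_le_centralizer]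
      intro x hx
      rw [Subgroup.mem_centralizer_iff]
      intro y hy
      have hx' : x ∈ ⁅F, B⁆ := by rw [e]; exact hx
      exact (hFB.2.1 x hx' y (Subgroup.mem_sup_right hy)).symm
    · apply rankOne_not_commute_all hp
      intro x hx y hy
      exact (hFB.2.1 y hy x (Subgroup.mem_sup_left hx)).symm

theorem FAdj_symm {S : Set (Subgroup G)} {A B : Subgroup G} (h : FAdj S A B) : FAdj S B A :=
  ⟨h.2.1, h.1, rankOne_symm h.2.2⟩

theorem FAdj_reachable_symm {S : Set (Subgroup G)} {A B : Subgroup G}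
    (h : Relation.ReflTransGen (FAdj S) A B) : Relation.ReflTransGen (FAdj S) B A := by
  induction h with
  | refl => exact Relation.ReflTransGen.refl
  | tail _ hbc ih => exact Relation.ReflTransGen.head (FAdj_symm hbc) ih

theorem componentOf_eq_of_reachable {S : Set (Subgroup G)} {A B : Subgroup G}
    (h : Relation.ReflTransGen (FAdj S) A B) :
    componentOf (FAdj S) S A = componentOf (FAdj S) S B := by
  ext C
  constructor
  · rintro ⟨hC, hAC⟩
    exact ⟨hC, (FAdj_reachable_symm h).trans hAC⟩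
  · rintro ⟨hC, hBC⟩
    exact ⟨hC, h.trans hBC⟩

theorem exists_FAdj_of_component_ne {S : Set (Subgroup G)} {A : Subgroup G}
    (h : ∃ A' ∈ componentOf (FAdj S) S A, A' ≠ A) : ∃ F, FAdj S A F := by
  obtain ⟨A', ⟨-, hrt⟩, hne⟩ := h
  rcases Relation.ReflTransGen.cases_head hrt with e | ⟨F, hF, -⟩
  · exact absurd e.symm hne
  · exact ⟨F, hF⟩

/-- Timmesfeld II(2.8). -/
theorem root_not_linePartner {S : Set (Subgroup G)} (hS : IsRootSubgroupSet S) {A B : Subgroup G}
    (hA : A ∈ S) (hB : B ∈ S)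
    (hne : componentOf (FAdj S) S A ≠ componentOf (FAdj S) S B)
    (hA2 : ∃ A' ∈ componentOf (FAdj S) S A, A' ≠ A) (hB2 : ∃ B' ∈ componentOf (FAdj S) S B, B' ≠ B) :
    B ∉ linePartners S A := by
  rintro ⟨⟨-, hBA, hcomm⟩, hpart⟩
  apply hne
  apply componentOf_eq_of_reachable
  obtain ⟨F, -, hF, hAF⟩ := exists_FAdj_of_component_ne hA2
  obtain ⟨H, -, hH, hBH⟩ := exists_FAdj_of_component_ne hB2
  have hAB : ∀ a ∈ A, ∀ b ∈ B, a * b = b * a := fun a ha b hb => commute_of_commutator_eq_bot hcomm ha hb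
  rcases hS.pair F hF B hB with h0 | h1 | hFB
  · exact absurd h0 (root_line_not_commute hS hA hB hF hAF hcomm (Ne.symm hBA) hpart)
  · exact Relation.ReflTransGen.head ⟨hA, hF, hAF⟩ (Relation.ReflTransGen.single ⟨hF, hB, h1⟩)
  · rcases hS.pair H hH A hA with h0 | h1 | hHA
    · have hcomm' : ⁅B, A⁆ = ⊥ := by rw [Subgroup.commutator_comm]; exact hcomm
      have hpart' : IsSubgroupPartition (B ⊔ A) (membersIn S (B ⊔ A)) := by rw [sup_comm]; exact hpart
      exact absurd h0 (root_line_not_commute hS hB hA hH hBH hcomm' hBA hpart')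
    · exact Relation.ReflTransGen.head ⟨hA, hH, rankOne_symm h1⟩
        (Relation.ReflTransGen.single ⟨hH, hB, rankOne_symm hBH⟩)
    · obtain ⟨⟨b, hb⟩, hb1⟩ := (Subgroup.ne_bot_iff_exists_ne_one).mp (hS.ne_bot B hB)
      have hb1' : b ≠ 1 := fun e => hb1 (Subtype.ext e)
      obtain ⟨⟨a, ha⟩, ha1⟩ := (Subgroup.ne_bot_iff_exists_ne_one).mp (hS.ne_bot A hA)
      have ha1' : a ≠ 1 := fun e => ha1 (Subtype.ext e)
      have hAm : A ∈ membersIn S (A ⊔ B) := ⟨hA, le_sup_left⟩
      have hBm : B ∈ membersIn S (A ⊔ B) := ⟨hB, le_sup_right⟩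
      have hab1 : a * b ≠ 1 := by
        intro e
        have haB : a ∈ B := by
          have : a = b⁻¹ := mul_eq_one_iff_eq_inv.mp e
          rw [this]; exact inv_mem hb
        have : a ∈ A ⊓ B := ⟨ha, haB⟩
        rw [hpart.2.2 A hAm B hBm (Ne.symm hBA), Subgroup.mem_bot] at this
        exact ha1' this
      obtain ⟨E, hE, hEm⟩ := hpart.2.1 (a * b)
        (mul_mem (Subgroup.mem_sup_left ha) (Subgroup.mem_sup_right hb)) hab1
      have hEF := root_line_rankOne hS hB hF hE.1 hAF hFB hAB ha ha1' hb hEm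
      have hEm' : b * a ∈ E := by rw [← hAB a ha b hb]; exact hEm
      have hEH := root_line_rankOne hS hA hH hE.1 hBH hHA (fun x hx y hy => (hAB y hy x hx).symm)
        hb hb1' ha hEm'
      exact Relation.ReflTransGen.head ⟨hA, hF, hAF⟩
        (Relation.ReflTransGen.head ⟨hF, hE.1, rankOne_symm hEF⟩
          (Relation.ReflTransGen.head ⟨hE.1, hH, hEH⟩
            (Relation.ReflTransGen.single ⟨hH, hB, rankOne_symm hBH⟩)))

end Cfsg.Agent.Lib.Helper83
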