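import Cfsg.Agent.Lib.Helper83.RootSet2

set_option autoImplicit false

namespace Cfsg.Agent.Lib.Helper83

open Cfsg
open scoped commutatorElement

variable {G : Type*} [Group G]

theorem commute_sup {A B : Subgroup G} {z : G} (hA : ∀ x ∈ A, z * x = x * z)
    (hB : ∀ x ∈ B, z * x = x * z) : ∀ x ∈ A ⊔ B, z * x = x * z := by
  have hAc : A ≤ Subgroup.centralizer ({z} : Set G) := by
    intro x hx
    rw [Subgroup.mem_centralizer_iff]
    intro m hm
    rw [Set.mem_singleton_iff] at hm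
    rw [hm]
    exact hA x hx
  have hBc : B ≤ Subgroup.centralizer ({z} : Set G) := by
    intro x hx
    rw [Subgroup.mem_centralizer_iff]
    intro m hm
    rw [Set.mem_singleton_iff] at hm
    rw [hm]
    exact hB x hx
  intro x hx
  have := (sup_le hAc hBc) hx
  rw [Subgroup.mem_centralizer_iff] at this
  exact this z rfl

theorem conjBy_eq_of_le {M : Subgroup G} {x : G} (h1 : conjBy M x ≤ M) (h2 : conjBy M x⁻¹ ≤ M) :
    conjBy M x = M := by
  apply le_antisymm h1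
  have := conjBy_mono h2 x
  rwa [conjBy_conjBy, mul_inv_cancel, conjBy_one] at this

theorem conjBy_commutator_left {A B : Subgroup G} {a : G} (ha : a ∈ A) : conjBy ⁅A, B⁆ a = ⁅A, B⁆ :=
  mem_normalizer_iff_conjBy.mp (Subgroup.normalizer_commutator_ge_left A B ha)

/-- Elements of a conjugate of `A` under `b ∈ B` are a commutator times an element of `A`. -/
theorem exists_commutator_mul_of_mem_conjBy {A B : Subgroup G} {b : G} (hb : b ∈ B) {x : G}
    (hx : x ∈ conjBy A b) : ∃ c ∈ ⁅A, B⁆, ∃ a ∈ A, x = c * a := by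
  rw [mem_conjBy] at hx
  refine ⟨b * (b⁻¹ * x * b) * b⁻¹ * (b⁻¹ * x * b)⁻¹, ?_, b⁻¹ * x * b, hx, by group⟩
  have := Subgroup.commutator_mem_commutator hb hx
  rwa [commutatorElement_def, Subgroup.commutator_comm] at this

/-- A rank one pair of members of a set of abstract root subgroups never has its commutator in the set. -/
theorem root_rankOne_commutator_not_mem {S : Set (Subgroup G)} (hS : IsRootSubgroupSet S)
    {A B : Subgroup G} (hA : A ∈ S) (hAB : IsRankOnePair A B) : ⁅A, B⁆ ∉ S := by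
  intro hC
  obtain ⟨⟨b₀, hb₀⟩, hb₀1⟩ := (Subgroup.ne_bot_iff_exists_ne_one).mp (rankOne_ne_bot_right hAB)
  have hb₀1' : b₀ ≠ 1 := fun e => hb₀1 (Subtype.ext e)
  have hBA := rankOne_symm hAB
  rcases hS.pair ⁅A, B⁆ hC A hA with h0 | h1 | h2
  · apply rankOne_not_commute_conj hBA hb₀ hb₀1'
    intro a ha a' ha'
    obtain ⟨c, hc, a₁, ha₁, rfl⟩ := exists_commutator_mul_of_mem_conjBy hb₀ ha'
    have h1 := commute_of_commutator_eq_bot h0 hc ha
    have h2 := mulComm_of_isMulCommutative (hS.commutative A hA) ha ha₁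
    calc a * (c * a₁) = (a * c) * a₁ := by group
      _ = (c * a) * a₁ := by rw [h1]
      _ = c * (a * a₁) := by group
      _ = c * (a₁ * a) := by rw [h2]
      _ = c * a₁ * a := by group
  · obtain ⟨⟨a, ha⟩, ha1⟩ := (Subgroup.ne_bot_iff_exists_ne_one).mp (rankOne_ne_bot_left hAB)
    exact ha1 (Subtype.ext (rankOne_eq_one_of_normalizes (rankOne_symm h1) ha (conjBy_commutator_left ha)))
  · have hDc : ∀ d ∈ ⁅⁅A, B⁆, A⁆, ∀ x ∈ ⁅A, B⁆ ⊔ A, d * x = x * d := h2.2.1
    obtain ⟨a₀, ha₀, -, e₀⟩ := rankOne_cond_pos hBA hb₀ hb₀1'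
    have hBle : B ≤ ⁅A, B⁆ ⊔ A := by
      have hB : B = conjBy (conjBy A b₀) a₀⁻¹ := conjBy_eq_iff.mp e₀
      have hle : conjBy A b₀ ≤ ⁅A, B⁆ ⊔ A := by
        intro x hx
        obtain ⟨c, hc, a, ha, rfl⟩ := exists_commutator_mul_of_mem_conjBy hb₀ hx
        exact mul_mem (Subgroup.mem_sup_left hc) (Subgroup.mem_sup_right ha)
      intro y hy
      rw [hB] at hy
      exact conjBy_le_of_mem hle (Subgroup.mem_sup_right (inv_mem ha₀)) hy
    have hCM : ∀ c ∈ ⁅A, B⁆, conjBy (⁅⁅A, B⁆, A⁆ ⊔ A) c ≤ ⁅⁅A, B⁆, A⁆ ⊔ A := by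
      intro c hc
      rw [conjBy_sup]
      refine sup_le ?_ ?_
      · rw [conjBy_eq_of_commute (fun d hd => (hDc d hd c (Subgroup.mem_sup_left hc)).symm)]
        exact le_sup_left
      · intro x hx
        rw [mem_conjBy] at hx
        have hcm : c * (c⁻¹ * x * c) * c⁻¹ * (c⁻¹ * x * c)⁻¹ ∈ ⁅⁅A, B⁆, A⁆ := by
          have := Subgroup.commutator_mem_commutator hc hx
          rwa [commutatorElement_def] at this
        have e : x = (c * (c⁻¹ * x * c) * c⁻¹ * (c⁻¹ * x * c)⁻¹) * (c⁻¹ * x * c) := by group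
        rw [e]
        exact mul_mem (Subgroup.mem_sup_left hcm) (Subgroup.mem_sup_right hx)
    have hnorm : ⁅A, B⁆ ⊔ A ≤ Subgroup.normalizer ((⁅⁅A, B⁆, A⁆ ⊔ A : Subgroup G) : Set G) := by
      refine sup_le ?_ ?_
      · intro c hc
        rw [mem_normalizer_iff_conjBy]
        exact conjBy_eq_of_le (hCM c hc) (hCM c⁻¹ (inv_mem hc))
      · intro a ha
        rw [mem_normalizer_iff_conjBy]
        exact conjBy_of_mem (Subgroup.mem_sup_right ha)
    have hb₀M : conjBy (⁅⁅A, B⁆, A⁆ ⊔ A) b₀ = ⁅⁅A, B⁆, A⁆ ⊔ A :=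
      mem_normalizer_iff_conjBy.mp (hnorm (hBle hb₀))
    apply rankOne_not_commute_conj hBA hb₀ hb₀1'
    intro a ha a' ha'
    have ha'M : a' ∈ ⁅⁅A, B⁆, A⁆ ⊔ A := by
      rw [← hb₀M]; exact conjBy_mono le_sup_right b₀ ha'
    exact commute_sup (fun d hd => (hDc d hd a (Subgroup.mem_sup_right ha)).symm)
      (fun x hx => mulComm_of_isMulCommutative (hS.commutative A hA) ha hx) a' ha'M

/-- If the commutator of two members is a member, the pair is in the commutator case. -/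
theorem root_commCase_of_commutator_mem {S : Set (Subgroup G)} (hS : IsRootSubgroupSet S)
    {A B : Subgroup G} (hA : A ∈ S) (hB : B ∈ S) (hC : ⁅A, B⁆ ∈ S) : RootCommutatorCase S A B := by
  rcases hS.pair A hA B hB with h0 | h1 | h2
  · exact absurd h0 (hS.ne_bot _ hC)
  · exact absurd hC (root_rankOne_commutator_not_mem hS hA h1)
  · exact h2

/-- In the commutator case with `A` having a rank one partner, no non-identity element of `B` commutes with a
non-identity element of `A`. -/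
theorem root_commCase_centralizer_trivial {S : Set (Subgroup G)} (hS : IsRootSubgroupSet S)
    {A B F : Subgroup G} (hA : A ∈ S) (hF : F ∈ S) (hAF : IsRankOnePair A F)
    (hc : RootCommutatorCase S A B) {a b : G} (ha : a ∈ A) (ha1 : a ≠ 1) (hb : b ∈ B)
    (hab : a * b = b * a) : b = 1 := by
  by_contra hb1
  have hconj : conjBy A b ∈ S := hS.conj_mem A hA b
  have hmem2 : a ∈ conjBy A b := by
    rw [mem_conjBy]
    have : b⁻¹ * a * b = a := by rw [mul_assoc, hab, ← mul_assoc, inv_mul_cancel, one_mul]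
    rw [this]; exact ha
  have hmem : a ∈ A ⊓ conjBy A b := ⟨ha, hmem2⟩
  rcases root_inf_eq_bot_or_eq hS hF hAF hconj with h | h
  · rw [h, Subgroup.mem_bot] at hmem; exact ha1 hmem
  · have hle : ⁅A, B⁆ ≤ A := by
      have hcl := hc.2.2.2 b hb hb1
      rw [← hcl, Subgroup.closure_le]
      rintro _ ⟨a', ha', rfl⟩
      have h1 : b * a'⁻¹ * b⁻¹ ∈ conjBy A b := conj_mem_conjBy (inv_mem ha') b
      rw [← h] at h1
      have := A.mul_mem ha' h1
      have e : a' * (b * a'⁻¹ * b⁻¹) = a' * b * a'⁻¹ * b⁻¹ := by group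
      rw [e] at this; exact this
    rcases root_inf_eq_bot_or_eq hS hF hAF hc.1 with h' | h'
    · apply hS.ne_bot _ hc.1
      rw [← h']; exact (inf_eq_right.mpr hle).symm
    · apply hS.ne_bot _ hc.1
      rw [Subgroup.commutator_eq_bot_iff_le_centralizer]
      intro x hx
      rw [Subgroup.mem_centralizer_iff]
      intro y hy
      have hx' : x ∈ ⁅A, B⁆ := by rw [← h']; exact hx
      exact (hc.2.1 x hx' y (Subgroup.mem_sup_right hy)).symm

theorem root_comm_map_injective {S : Set (Subgroup G)} (hS : IsRootSubgroupSet S)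
    {A B F : Subgroup G} (hA : A ∈ S) (hF : F ∈ S) (hAF : IsRankOnePair A F)
    (hc : RootCommutatorCase S A B) {a b₁ b₂ : G} (ha : a ∈ A) (ha1 : a ≠ 1) (hb₁ : b₁ ∈ B)
    (hb₂ : b₂ ∈ B) (e : a⁻¹ * b₁⁻¹ * a * b₁ = a⁻¹ * b₂⁻¹ * a * b₂) : b₁ = b₂ := by
  have e' : b₁⁻¹ * a * b₁ = b₂⁻¹ * a * b₂ := by
    have := congrArg (fun t => a * t) e
    simpa [mul_assoc] using this
  have h : a * (b₁ * b₂⁻¹) = (b₁ * b₂⁻¹) * a := by
    calc a * (b₁ * b₂⁻¹) = b₁ * (b₁⁻¹ * a * b₁) * b₂⁻¹ := by group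
      _ = b₁ * (b₂⁻¹ * a * b₂) * b₂⁻¹ := by rw [e']
      _ = (b₁ * b₂⁻¹) * a := by group
  have := root_commCase_centralizer_trivial hS hA hF hAF hc ha ha1 (mul_mem hb₁ (inv_mem hb₂)) h
  exact mul_inv_eq_one.mp this

theorem commCase_map_mem {A B : Subgroup G} {a b : G} (ha : a ∈ A) (hb : b ∈ B) :
    a⁻¹ * b⁻¹ * a * b ∈ ⁅A, B⁆ := by
  have := Subgroup.commutator_mem_commutator (inv_mem ha) (inv_mem hb)
  rwa [commutatorElement_def, inv_inv, inv_inv] at this

/-- The map `b ↦ a⁻¹ b⁻¹ a b` from `B` to `⁅A, B⁆` as a homomorphism, in the commutator case. -/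
def commCaseHom {S : Set (Subgroup G)} {A B : Subgroup G} (hc : RootCommutatorCase S A B) {a : G}
    (ha : a ∈ A) : B →* (⁅A, B⁆ : Subgroup G) :=
  MonoidHom.mk' (fun b => ⟨a⁻¹ * (b : G)⁻¹ * a * b, commCase_map_mem ha b.2⟩) (by
    intro b₁ b₂
    apply Subtype.ext
    have h1 := hc.2.1 _ (commCase_map_mem ha b₁.2) (b₂ : G) (Subgroup.mem_sup_right b₂.2)
    have h2 := hc.2.1 _ (commCase_map_mem ha b₁.2) (a⁻¹ * (b₂ : G)⁻¹ * a * b₂)
      (mul_mem (mul_mem (mul_mem (Subgroup.mem_sup_left (inv_mem ha)) (Subgroup.mem_sup_right (inv_mem b₂.2)))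
        (Subgroup.mem_sup_left ha)) (Subgroup.mem_sup_right b₂.2))
    show a⁻¹ * ((b₁ : G) * (b₂ : G))⁻¹ * a * ((b₁ : G) * (b₂ : G)) =
      (a⁻¹ * (b₁ : G)⁻¹ * a * b₁) * (a⁻¹ * (b₂ : G)⁻¹ * a * b₂)
    calc a⁻¹ * ((b₁ : G) * (b₂ : G))⁻¹ * a * ((b₁ : G) * (b₂ : G))
        = a⁻¹ * (b₂ : G)⁻¹ * a * ((a⁻¹ * (b₁ : G)⁻¹ * a * b₁) * b₂) := by group
      _ = a⁻¹ * (b₂ : G)⁻¹ * a * (b₂ * (a⁻¹ * (b₁ : G)⁻¹ * a * b₁)) := by rw [h1]
      _ = (a⁻¹ * (b₂ : G)⁻¹ * a * b₂) * (a⁻¹ * (b₁ : G)⁻¹ * a * b₁) := by group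
      _ = (a⁻¹ * (b₁ : G)⁻¹ * a * b₁) * (a⁻¹ * (b₂ : G)⁻¹ * a * b₂) := by rw [h2])

theorem commCaseHom_apply {S : Set (Subgroup G)} {A B : Subgroup G} (hc : RootCommutatorCase S A B)
    {a : G} (ha : a ∈ A) (b : B) :
    ((commCaseHom hc ha b : (⁅A, B⁆ : Subgroup G)) : G) = a⁻¹ * (b : G)⁻¹ * a * b :=
  rfl

theorem root_comm_map_surjective {S : Set (Subgroup G)} {A B : Subgroup G}
    (hc : RootCommutatorCase S A B) {a : G} (ha : a ∈ A) (ha1 : a ≠ 1) {c : G} (hcm : c ∈ ⁅A, B⁆) :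
    ∃ b ∈ B, c = a⁻¹ * b⁻¹ * a * b := by
  have hcl : c ∈ Subgroup.closure ((fun b : G => a⁻¹ * b * a⁻¹⁻¹ * b⁻¹) '' (B : Set G)) := by
    rw [hc.2.2.1 a⁻¹ (inv_mem ha) (fun e => ha1 (inv_eq_one.mp e))]; exact hcm
  have hK : Subgroup.closure ((fun b : G => a⁻¹ * b * a⁻¹⁻¹ * b⁻¹) '' (B : Set G)) ≤
      ((commCaseHom hc ha).range).map (⁅A, B⁆).subtype := by
    rw [Subgroup.closure_le]
    rintro _ ⟨b, hb, rfl⟩
    refine ⟨commCaseHom hc ha ⟨b⁻¹, inv_mem hb⟩, ⟨⟨b⁻¹, inv_mem hb⟩, rfl⟩, ?_⟩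
    rw [Subgroup.subtype_apply, commCaseHom_apply]
    simp
  obtain ⟨_, ⟨b, rfl⟩, e⟩ := hK hcl
  refine ⟨b.1, b.2, ?_⟩
  rw [← e, Subgroup.subtype_apply, commCaseHom_apply]

/-- In the commutator case, `a * c` with `1 ≠ a ∈ A` and `c ∈ ⁅A, B⁆` lies in a conjugate of `A` under `B`. -/
theorem root_comm_cover {S : Set (Subgroup G)} {A B : Subgroup G} (hc : RootCommutatorCase S A B)
    {a : G} (ha : a ∈ A) (ha1 : a ≠ 1) {c : G} (hcm : c ∈ ⁅A, B⁆) : ∃ b ∈ B, a * c ∈ conjBy A b := by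
  obtain ⟨b, hb, rfl⟩ := root_comm_map_surjective hc ha ha1 hcm
  refine ⟨b⁻¹, inv_mem hb, ?_⟩
  have h := conj_mem_conjBy ha b⁻¹
  have e : b⁻¹ * a * b⁻¹⁻¹ = a * (a⁻¹ * b⁻¹ * a * b) := by group
  rw [e] at h
  exact h

theorem conjBy_le_sup_commutator {A B : Subgroup G} {b : G} (hb : b ∈ B) : conjBy A b ≤ A ⊔ ⁅A, B⁆ := by
  intro x hx
  obtain ⟨c, hc, a, ha, rfl⟩ := exists_commutator_mul_of_mem_conjBy hb hx
  exact mul_mem (Subgroup.mem_sup_right hc) (Subgroup.mem_sup_left ha)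

theorem exists_mul_of_mem_sup_commutator {A B : Subgroup G} {x : G} (hx : x ∈ A ⊔ ⁅A, B⁆) :
    ∃ a ∈ A, ∃ c ∈ ⁅A, B⁆, x = a * c := by
  have : x ∈ ((A ⊔ ⁅A, B⁆ : Subgroup G) : Set G) := hx
  rw [Subgroup.coe_mul_of_left_le_normalizer_right A ⁅A, B⁆
    (Subgroup.normalizer_commutator_ge_left A B)] at this
  obtain ⟨a, ha, c, hc, e⟩ := Set.mem_mul.mp this
  exact ⟨a, ha, c, hc, e.symm⟩

/-- Timmesfeld II(2.6), the list of members inside `A ⊔ ⁅A, B⁆`. -/
theorem root_membersIn_sup_commutator {S : Set (Subgroup G)} (hS : IsRootSubgroupSet S)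
    {A B F : Subgroup G} (hA : A ∈ S) (hF : F ∈ S) (hAF : IsRankOnePair A F)
    (hc : RootCommutatorCase S A B) :
    membersIn S (A ⊔ ⁅A, B⁆) = (fun b : G => conjBy A b) '' (B : Set G) ∪ {⁅A, B⁆} := by
  have hcentral : ∀ c ∈ ⁅A, B⁆, ∀ x ∈ A, c * x = x * c :=
    fun c hcm x hx => hc.2.1 c hcm x (Subgroup.mem_sup_left hx)
  ext E
  constructor
  · rintro ⟨hE, hEle⟩
    by_cases hEC : E ≤ ⁅A, B⁆
    · right
      rw [Set.mem_singleton_iff]
      obtain ⟨⟨e, he⟩, he1⟩ := (Subgroup.ne_bot_iff_exists_ne_one).mp (hS.ne_bot E hE)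
      have he1' : e ≠ 1 := fun h => he1 (Subtype.ext h)
      have hinf : E ⊓ ⁅A, B⁆ ≠ ⊥ := by
        rw [inf_eq_left.mpr hEC]; exact hS.ne_bot E hE
      rcases hS.pair E hE F hF with h0 | h1 | h2
      · exfalso
        obtain ⟨⟨a, ha⟩, ha1⟩ := (Subgroup.ne_bot_iff_exists_ne_one).mp (hS.ne_bot A hA)
        have ha1' : a ≠ 1 := fun h => ha1 (Subtype.ext h)
        have hz : e ∈ Subgroup.centralizer ((A ⊔ F : Subgroup G) : Set G) := by
          rw [Subgroup.mem_centralizer_iff]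
          intro y hy
          exact (commute_sup (fun x hx => hcentral e (hEC he) x hx)
            (fun x hx => commute_of_commutator_eq_bot h0 he hx) y hy).symm
        apply root_central_mul_not_root hS hF hAF hz he1' ha ha1'
        obtain ⟨b, hb, hmem⟩ := root_comm_cover hc ha ha1' (hEC he)
        rw [← hcentral e (hEC he) a ha] at hmem
        refine ⟨?_, conjBy A b, hS.conj_mem A hA b, hmem⟩
        intro h
        have : e = a⁻¹ := mul_eq_one_iff_eq_inv.mp h
        have heA1 : e ∈ A := by rw [this]; exact inv_mem ha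
        have heA : e ∈ A ⊓ ⁅A, B⁆ := ⟨heA1, hEC he⟩
        rcases root_inf_eq_bot_or_eq hS hF hAF hc.1 with h' | h'
        · rw [h', Subgroup.mem_bot] at heA; exact he1' heA
        · apply hS.ne_bot _ hc.1
          rw [Subgroup.commutator_eq_bot_iff_le_centralizer]
          intro x hx
          rw [Subgroup.mem_centralizer_iff]
          intro y hy
          have hx' : x ∈ ⁅A, B⁆ := by rw [← h']; exact hx
          exact (hc.2.1 x hx' y (Subgroup.mem_sup_right hy)).symm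
      · rcases root_inf_eq_bot_or_eq hS hF h1 hc.1 with h' | h'
        · exact absurd h' hinf
        · exact h'
      · rcases hS.pair ⁅A, B⁆ hc.1 F hF with h0' | h1' | h2'
        · exfalso
          apply hS.ne_bot _ h2.1
          rw [eq_bot_iff, ← h0']
          exact Subgroup.commutator_mono hEC le_rfl
        · rcases root_inf_eq_bot_or_eq hS hF h1' hE with h' | h'
          · rw [inf_comm] at h'; exact absurd h' hinf
          · exact h'.symm
        · -- both in the commutator case with F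
          have hDeq : ⁅E, F⁆ = ⁅⁅A, B⁆, F⁆ := by
            rw [← h2.2.2.1 e he he1', ← h2'.2.2.1 e (hEC he) he1']
          obtain ⟨⟨f, hf⟩, hf1⟩ := (Subgroup.ne_bot_iff_exists_ne_one).mp (hS.ne_bot F hF)
          have hf1' : f ≠ 1 := fun h => hf1 (Subtype.ext h)
          have hFE : RootCommutatorCase S F E :=
            root_commCase_of_commutator_mem hS hF hE (by rw [Subgroup.commutator_comm]; exact h2.1)
          have hFC : RootCommutatorCase S F ⁅A, B⁆ :=
            root_commCase_of_commutator_mem hS hF hc.1 (by rw [Subgroup.commutator_comm]; exact h2'.1)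
          apply le_antisymm hEC
          intro c hcm
          have h1 : f⁻¹ * c⁻¹ * f * c ∈ ⁅F, E⁆ := by
            rw [Subgroup.commutator_comm, hDeq, Subgroup.commutator_comm]
            exact commCase_map_mem hf hcm
          obtain ⟨e', he', heq⟩ := root_comm_map_surjective hFE hf hf1' h1
          have := root_comm_map_injective hS hF hA (rankOne_symm hAF) hFC hf hf1' hcm (hEC he') heq
          rw [this]; exact he'
    · left
      have : ∃ x ∈ E, x ∉ ⁅A, B⁆ := by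
        by_contra hno
        apply hEC
        intro x hx
        by_contra hx'
        exact hno ⟨x, hx, hx'⟩
      obtain ⟨x, hx, hxC⟩ := this
      obtain ⟨a, ha, c, hcm, rfl⟩ := exists_mul_of_mem_sup_commutator (hEle hx)
      have ha1 : a ≠ 1 := by
        rintro rfl
        rw [one_mul] at hxC
        exact hxC hcm
      obtain ⟨b, hb, hmem⟩ := root_comm_cover hc ha ha1 hcm
      refine ⟨b, hb, ?_⟩
      rcases root_inf_eq_bot_or_eq hS (hS.conj_mem F hF b) (rankOne_conj hAF b) hE with h' | h'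
      · exfalso
        have h1 : a * c ∈ conjBy A b ⊓ E := ⟨hmem, hx⟩
        rw [h', Subgroup.mem_bot] at h1
        apply hxC
        rw [h1]; exact one_mem _
      · exact h'
  · rintro (⟨b, hb, rfl⟩ | h)
    · exact ⟨hS.conj_mem A hA b, conjBy_le_sup_commutator hb⟩
    · rw [Set.mem_singleton_iff] at h
      rw [h]
      exact ⟨hc.1, le_sup_right⟩

theorem root_ne_commutator {S : Set (Subgroup G)} (hS : IsRootSubgroupSet S) {A B : Subgroup G}
    (hc : RootCommutatorCase S A B) : A ≠ ⁅A, B⁆ := by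
  intro h'
  apply hS.ne_bot _ hc.1
  rw [Subgroup.commutator_eq_bot_iff_le_centralizer]
  intro x hx
  rw [Subgroup.mem_centralizer_iff]
  intro y hy
  have hx' : x ∈ ⁅A, B⁆ := by rw [← h']; exact hx
  exact (hc.2.1 x hx' y (Subgroup.mem_sup_right hy)).symm

/-- Timmesfeld II(2.6), the partition. -/
theorem root_partition_sup_commutator {S : Set (Subgroup G)} (hS : IsRootSubgroupSet S)
    {A B F : Subgroup G} (hA : A ∈ S) (hF : F ∈ S) (hAF : IsRankOnePair A F)
    (hc : RootCommutatorCase S A B) :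
    IsSubgroupPartition (A ⊔ ⁅A, B⁆) (membersIn S (A ⊔ ⁅A, B⁆)) := by
  have hmem := root_membersIn_sup_commutator hS hA hF hAF hc
  refine ⟨fun C hC => hC.2, ?_, ?_⟩
  · intro x hx hx1
    obtain ⟨a, ha, c, hcm, rfl⟩ := exists_mul_of_mem_sup_commutator hx
    by_cases ha1 : a = 1
    · refine ⟨⁅A, B⁆, ?_, ?_⟩
      · rw [hmem]; right; rfl
      · rw [ha1, one_mul]; exact hcm
    · obtain ⟨b, hb, hm⟩ := root_comm_cover hc ha ha1 hcm
      refine ⟨conjBy A b, ?_, hm⟩
      rw [hmem]; left; exact ⟨b, hb, rfl⟩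
  · intro C hC D hD hne
    have hC' := hC
    have hD' := hD
    rw [hmem] at hC' hD'
    rcases hC' with ⟨b, hb, rfl⟩ | hC'
    · rcases root_inf_eq_bot_or_eq hS (hS.conj_mem F hF b) (rankOne_conj hAF b) hD.1 with h | h
      · exact h
      · exact absurd h hne
    · rcases hD' with ⟨b, hb, rfl⟩ | hD'
      · rcases root_inf_eq_bot_or_eq hS (hS.conj_mem F hF b) (rankOne_conj hAF b) hC.1 with h | h
        · rw [inf_comm]; exact h
        · exact absurd h.symm hne
      · rw [Set.mem_singleton_iff] at hC' hD'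
        exact absurd (hC'.trans hD'.symm) hne

/-- Timmesfeld II(2.6): `A` is a line partner of `⁅A, B⁆`. -/
theorem root_mem_linePartners_commutator {S : Set (Subgroup G)} (hS : IsRootSubgroupSet S)
    {A B F : Subgroup G} (hA : A ∈ S) (hF : F ∈ S) (hAF : IsRankOnePair A F)
    (hc : RootCommutatorCase S A B) : A ∈ linePartners S ⁅A, B⁆ := by
  refine ⟨⟨hA, root_ne_commutator hS hc, ?_⟩, ?_⟩
  · rw [Subgroup.commutator_eq_bot_iff_le_centralizer]
    intro x hx
    rw [Subgroup.mem_centralizer_iff]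
    intro y hy
    exact (hc.2.1 x hx y (Subgroup.mem_sup_left hy)).symm
  · rw [sup_comm]
    exact root_partition_sup_commutator hS hA hF hAF hc

/-- Timmesfeld II(2.6): the isomorphism `b ↦ a⁻¹ b⁻¹ a b` from `B` onto `⁅A, B⁆`. -/
theorem root_comm_equiv {S : Set (Subgroup G)} (hS : IsRootSubgroupSet S)
    {A B F : Subgroup G} (hA : A ∈ S) (hF : F ∈ S) (hAF : IsRankOnePair A F)
    (hc : RootCommutatorCase S A B) {a : G} (ha : a ∈ A) (ha1 : a ≠ 1) :
    ∃ φ : ↥B ≃* ↥⁅A, B⁆, ∀ b : ↥B, (φ b : G) = a⁻¹ * (b : G)⁻¹ * a * b := by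
  have hbij : Function.Bijective (commCaseHom hc ha) := by
    constructor
    · intro b₁ b₂ e
      apply Subtype.ext
      have e' := congrArg Subtype.val e
      rw [commCaseHom_apply, commCaseHom_apply] at e'
      exact root_comm_map_injective hS hA hF hAF hc ha ha1 b₁.2 b₂.2 e'
    · intro c
      obtain ⟨b, hb, e⟩ := root_comm_map_surjective hc ha ha1 c.2
      refine ⟨⟨b, hb⟩, ?_⟩
      apply Subtype.ext
      rw [commCaseHom_apply, e]
  exact ⟨MulEquiv.ofBijective (commCaseHom hc ha) hbij, fun b => commCaseHom_apply hc ha b⟩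

end Cfsg.Agent.Lib.Helper83
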