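import Cfsg.Agent.Lib.Helper83.Nilp

set_option autoImplicit false

namespace Cfsg.Agent.Lib.Helper83

open Cfsg
open scoped commutatorElement

variable {G : Type*} [Group G]

theorem commCase_le_centralizer {S : Set (Subgroup G)} {A B : Subgroup G}
    (hc : RootCommutatorCase S A B) :
    ⁅A, B⁆ ≤ Subgroup.centralizer ((A ⊔ B : Subgroup G) : Set G) := by
  intro c hcm
  rw [Subgroup.mem_centralizer_iff]
  intro x hx
  exact (hc.2.1 c hcm x hx).symm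

theorem conjBy_inv_le_sup_commutator {B C : Subgroup G} {b : G} (hb : b ∈ B) :
    conjBy C b ≤ C ⊔ ⁅B, C⁆ := by
  have := conjBy_le_sup_commutator (A := C) hb
  rwa [Subgroup.commutator_comm] at this

/-- In the commutator case, `⁅B, C⁆` lies in `C · C^b` for every non-identity `b ∈ B`. -/
theorem commCase_le_sup_conj {S : Set (Subgroup G)} (hS : IsRootSubgroupSet S) {B C : Subgroup G}
    (hB : B ∈ S) (hC : C ∈ S) (hBC : ⁅B, C⁆ ∈ S) {b : G} (hb : b ∈ B) (hb1 : b ≠ 1) :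
    ⁅B, C⁆ ≤ C ⊔ conjBy C b⁻¹ := by
  have hc := root_commCase_of_commutator_mem hS hB hC hBC
  intro e he
  obtain ⟨c, hcC, rfl⟩ := root_comm_map_surjective hc hb hb1 he
  have h1 : b⁻¹ * c⁻¹ * b ∈ conjBy C b⁻¹ := by
    have := conj_mem_conjBy (inv_mem hcC) b⁻¹
    rwa [inv_inv] at this
  exact mul_mem (Subgroup.mem_sup_right h1) (Subgroup.mem_sup_left hcC)

/-- If `C` centralizes `A` and `C^b`, then `(A, C^b)` is not a rank one pair. -/
theorem root_not_rankOne_conj_of_central {S : Set (Subgroup G)} (hS : IsRootSubgroupSet S)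
    {A B C : Subgroup G} (hA : A ∈ S) (hC : C ∈ S) (hBC : ⁅B, C⁆ ∈ S) {b : G} (hb : b ∈ B)
    (h1 : C ≤ Subgroup.centralizer (A : Set G))
    (h2 : C ≤ Subgroup.centralizer ((conjBy C b⁻¹ : Subgroup G) : Set G)) :
    ¬ IsRankOnePair A (conjBy C b⁻¹) := by
  intro hp
  obtain ⟨⟨c, hc⟩, hc1⟩ := (Subgroup.ne_bot_iff_exists_ne_one).mp (hS.ne_bot C hC)
  have hc1' : c ≠ 1 := fun e => hc1 (Subtype.ext e)
  have hc' : b⁻¹ * c * b ∈ conjBy C b⁻¹ := by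
    have := conj_mem_conjBy hc b⁻¹
    rwa [inv_inv] at this
  have hc'1 : b⁻¹ * c * b ≠ 1 := by
    intro e
    apply hc1'
    have e' : c = b * (b⁻¹ * c * b) * b⁻¹ := by group
    rw [e', e]; group
  have hz : c⁻¹ ∈ Subgroup.centralizer ((conjBy C b⁻¹ ⊔ A : Subgroup G) : Set G) :=
    (le_centralizer_sup h2 h1) (inv_mem hc)
  have hz1 : c⁻¹ ≠ 1 := fun e => hc1' (inv_eq_one.mp e)
  have hnot := root_central_mul_not_root hS hA (rankOne_symm hp) hz hz1 hc' hc'1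
  apply hnot
  refine ⟨?_, ⁅B, C⁆, hBC, ?_⟩
  · intro e
    have e' : b⁻¹ * c * b = c := by
      have := congrArg (fun t => c * t) e
      simpa [mul_assoc] using this
    have hmem : c ∈ conjBy C b⁻¹ ⊓ Subgroup.normalizer (A : Set G) :=
      ⟨by rw [← e']; exact hc', le_normalizer_of_le_centralizer h1 hc⟩
    rw [rankOne_inf_normalizer (rankOne_symm hp)] at hmem
    exact hc1' hmem
  · have := commCase_map_mem hc hb
    rw [Subgroup.commutator_comm] at this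
    have e : c⁻¹ * (b⁻¹ * c * b) = c⁻¹ * b⁻¹ * c * b := by group
    rw [e]; exact this

/-- `⁅A, C^b⁆ = ⁅A, ⁅B, C⁆⁆` when `A` centralizes `C` and `b ∈ B` is not the identity. -/
theorem root_commutator_conj_eq {S : Set (Subgroup G)} (hS : IsRootSubgroupSet S)
    {A B C : Subgroup G} (hB : B ∈ S) (hC : C ∈ S) (hBC : ⁅B, C⁆ ∈ S)
    (hAC : A ≤ Subgroup.centralizer (C : Set G)) {b : G} (hb : b ∈ B) (hb1 : b ≠ 1) :
    ⁅A, conjBy C b⁻¹⁆ = ⁅A, ⁅B, C⁆⁆ := by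
  have hc := root_commCase_of_commutator_mem hS hB hC hBC
  have cEC : ⁅B, C⁆ ≤ Subgroup.centralizer (C : Set G) :=
    le_centralizer_of_le (commCase_le_centralizer hc) le_sup_right
  have cCC : C ≤ Subgroup.centralizer (C : Set G) :=
    Subgroup.le_centralizer_iff_isMulCommutative.mpr (hS.commutative C hC)
  have hC'le : conjBy C b⁻¹ ≤ C ⊔ ⁅B, C⁆ := conjBy_inv_le_sup_commutator (inv_mem hb)
  have hEle : ⁅B, C⁆ ≤ C ⊔ conjBy C b⁻¹ := commCase_le_sup_conj hS hB hC hBC hb hb1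
  have cC'C : conjBy C b⁻¹ ≤ Subgroup.centralizer (C : Set G) := hC'le.trans (sup_le cCC cEC)
  apply le_antisymm
  · refine (Subgroup.commutator_mono le_rfl hC'le).trans ?_
    exact comm_sup_right (comm_le_of_le_centralizer hAC) le_rfl
      (le_normalizer_of_le_centralizer
        (le_centralizer_commutator (le_centralizer_symm hAC) (le_centralizer_symm cEC)))
      (Subgroup.normalizer_commutator_ge_right A ⁅B, C⁆)
  · refine (Subgroup.commutator_mono le_rfl hEle).trans ?_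
    exact comm_sup_right (comm_le_of_le_centralizer hAC) le_rfl
      (le_normalizer_of_le_centralizer
        (le_centralizer_commutator (le_centralizer_symm hAC) (le_centralizer_symm cC'C)))
      (Subgroup.normalizer_commutator_ge_right A (conjBy C b⁻¹))

theorem commutatorElement_mul_left' (d a e : G) : ⁅d * a, e⁆ = d * ⁅a, e⁆ * d⁻¹ * ⁅d, e⁆ := by
  simp only [commutatorElement_def]; group

/-- A three subgroup type inclusion. -/
theorem comm3_le {A B E : Subgroup G} (hBE : B ≤ Subgroup.centralizer (E : Set G))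
    (hDF : ⁅B, A⁆ ≤ Subgroup.centralizer ((⁅A, E⁆ : Subgroup G) : Set G))
    (hn : ⁅A, E⁆ ≤ Subgroup.normalizer ((⁅⁅B, A⁆, E⁆ : Subgroup G) : Set G)) :
    ⁅⁅A, E⁆, B⁆ ≤ ⁅⁅B, A⁆, E⁆ := by
  apply comm_commutator_left hn
  intro a ha e he b' hb'
  have hd : ⁅b', a⁆ ∈ ⁅B, A⁆ := Subgroup.commutator_mem_commutator hb' ha
  have hf : ⁅a, e⁆ ∈ ⁅A, E⁆ := Subgroup.commutator_mem_commutator ha he
  have hdf : ⁅b', a⁆ * ⁅a, e⁆ = ⁅a, e⁆ * ⁅b', a⁆ :=
    ((Subgroup.mem_centralizer_iff.mp (hDF hd)) _ hf).symm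
  have hbe : b' * e = e * b' := ((Subgroup.mem_centralizer_iff.mp (hBE hb')) e he).symm
  have e1 : b' * ⁅a, e⁆ * b'⁻¹ = ⁅b' * a * b'⁻¹, b' * e * b'⁻¹⁆ := by
    simp only [commutatorElement_def]; group
  have e2 : b' * e * b'⁻¹ = e := by rw [hbe, mul_inv_cancel_right]
  have e3 : b' * a * b'⁻¹ = ⁅b', a⁆ * a := by
    simp only [commutatorElement_def]; group
  have e5 : ⁅b', a⁆ * ⁅a, e⁆ * ⁅b', a⁆⁻¹ = ⁅a, e⁆ := by rw [hdf, mul_inv_cancel_right]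
  have e6 : b' * ⁅a, e⁆ * b'⁻¹ = ⁅a, e⁆ * ⁅⁅b', a⁆, e⁆ := by
    rw [e1, e2, e3, commutatorElement_mul_left', e5]
  have e7 : ⁅⁅a, e⁆, b'⁆ = ⁅a, e⁆ * ⁅⁅b', a⁆, e⁆⁻¹ * ⁅a, e⁆⁻¹ := by
    have : ⁅⁅a, e⁆, b'⁆ = ⁅a, e⁆ * (b' * ⁅a, e⁆ * b'⁻¹)⁻¹ := by
      rw [commutatorElement_def ⁅a, e⁆ b']; group
    rw [this, e6]; group
  rw [e7]
  exact (Subgroup.mem_normalizer_iff.mp (hn hf) _).mp
    (inv_mem (Subgroup.commutator_mem_commutator hd he))

theorem comm_R3_right {K A B C W : Subgroup G} (hA : ⁅K, A⁆ ≤ W) (hB : ⁅K, B⁆ ≤ W)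
    (hC : ⁅K, C⁆ ≤ W) (nA : A ≤ Subgroup.normalizer (W : Set G))
    (nB : B ≤ Subgroup.normalizer (W : Set G)) (nC : C ≤ Subgroup.normalizer (W : Set G)) :
    ⁅K, A ⊔ B ⊔ C⁆ ≤ W :=
  comm_sup_right (comm_sup_right hA hB nA nB) hC (sup_le nA nB) nC

theorem comm_R3_left {K A B C W : Subgroup G} (hA : ⁅A, K⁆ ≤ W) (hB : ⁅B, K⁆ ≤ W)
    (hC : ⁅C, K⁆ ≤ W) (nA : A ≤ Subgroup.normalizer (W : Set G))
    (nB : B ≤ Subgroup.normalizer (W : Set G)) (nC : C ≤ Subgroup.normalizer (W : Set G)) :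
    ⁅A ⊔ B ⊔ C, K⁆ ≤ W :=
  comm_sup_left (comm_sup_left hA hB nA nB) hC (sup_le nA nB) nC

theorem comm_R4_left {K A B C D W : Subgroup G} (hA : ⁅A, K⁆ ≤ W) (hB : ⁅B, K⁆ ≤ W)
    (hC : ⁅C, K⁆ ≤ W) (hD : ⁅D, K⁆ ≤ W) (nA : A ≤ Subgroup.normalizer (W : Set G))
    (nB : B ≤ Subgroup.normalizer (W : Set G)) (nC : C ≤ Subgroup.normalizer (W : Set G))
    (nD : D ≤ Subgroup.normalizer (W : Set G)) :
    ⁅A ⊔ B ⊔ C ⊔ D, K⁆ ≤ W :=
  comm_sup_left (comm_R3_left hA hB hC nA nB nC) hD (sup_le (sup_le nA nB) nC) nD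

theorem isNilpotent_of_chain5 {R K₁ K₂ K₃ K₄ : Subgroup G} (h0 : ⁅R, R⁆ ≤ K₁)
    (h1 : ⁅K₁, R⁆ ≤ K₂) (h2 : ⁅K₂, R⁆ ≤ K₃) (h3 : ⁅K₃, R⁆ ≤ K₄) (h4 : ⁅K₄, R⁆ = ⊥) :
    Group.IsNilpotent ↥R := by
  rw [Subgroup.isNilpotent_iff_lowerCentralSeries]
  refine ⟨5, ?_⟩
  have a1 : R.lowerCentralSeries 1 ≤ K₁ := h0
  have a2 : R.lowerCentralSeries 2 ≤ K₂ := (Subgroup.commutator_mono a1 le_rfl).trans h1
  have a3 : R.lowerCentralSeries 3 ≤ K₃ := (Subgroup.commutator_mono a2 le_rfl).trans h2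
  have a4 : R.lowerCentralSeries 4 ≤ K₄ := (Subgroup.commutator_mono a3 le_rfl).trans h3
  have a5 : R.lowerCentralSeries 5 ≤ ⊥ := (Subgroup.commutator_mono a4 le_rfl).trans h4.le
  exact le_bot_iff.mp a5

end Cfsg.Agent.Lib.Helper83
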