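import Cfsg.Agent.Lib.Helper83.RootSet5
import Cfsg.Agent.S5030

set_option autoImplicit false
open Cfsg
open scoped commutatorElement

namespace Cfsg.Agent.Lib.Helper83

variable {G : Type*} [Group G]

theorem conjBy_inf (H K : Subgroup G) (g : G) : conjBy (H ⊓ K) g = conjBy H g ⊓ conjBy K g :=
  Subgroup.map_inf H K _ (MulAut.conj g).injective

theorem conjBy_centralizer (B : Subgroup G) (g : G) :
    conjBy (Subgroup.centralizer (B : Set G)) g =
      Subgroup.centralizer ((conjBy B g : Subgroup G) : Set G) := by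
  ext x
  rw [mem_conjBy, Subgroup.mem_centralizer_iff, Subgroup.mem_centralizer_iff]
  constructor
  · intro h y hy
    have hy' : g⁻¹ * y * g ∈ B := mem_conjBy.mp hy
    have := h _ hy'
    have e1 : y * x = g * ((g⁻¹ * y * g) * (g⁻¹ * x * g)) * g⁻¹ := by group
    have e2 : x * y = g * ((g⁻¹ * x * g) * (g⁻¹ * y * g)) * g⁻¹ := by group
    rw [e1, e2, this]
  · intro h b hb
    have hy : g * b * g⁻¹ ∈ conjBy B g := conj_mem_conjBy hb g
    have := h _ hy
    have e1 : b * (g⁻¹ * x * g) = g⁻¹ * ((g * b * g⁻¹) * x) * g := by group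
    have e2 : (g⁻¹ * x * g) * b = g⁻¹ * (x * (g * b * g⁻¹)) * g := by group
    rw [e1, e2, this]

/-- The "natural module" key step: if `C = C_N(B)`, `A = C_N(D)` and `B^d = D^b` then `C^d = A^b`. -/
theorem natmod_key {N A C B D : Subgroup G} (hC : C = N ⊓ Subgroup.centralizer (B : Set G))
    (hA : A = N ⊓ Subgroup.centralizer (D : Set G)) (hNB : ∀ b ∈ B, conjBy N b = N)
    (hND : ∀ d ∈ D, conjBy N d = N) {b d : G} (hb : b ∈ B) (hd : d ∈ D)
    (e : conjBy B d⁻¹ = conjBy D b⁻¹) : conjBy C d⁻¹ = conjBy A b⁻¹ := by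
  calc conjBy C d⁻¹ = conjBy (N ⊓ Subgroup.centralizer (B : Set G)) d⁻¹ :=
        congrArg (fun K => conjBy K d⁻¹) hC
    _ = N ⊓ Subgroup.centralizer ((conjBy B d⁻¹ : Subgroup G) : Set G) := by
        rw [conjBy_inf, conjBy_centralizer, hND _ (inv_mem hd)]
    _ = N ⊓ Subgroup.centralizer ((conjBy D b⁻¹ : Subgroup G) : Set G) := by rw [e]
    _ = conjBy (N ⊓ Subgroup.centralizer (D : Set G)) b⁻¹ := by
        rw [conjBy_inf, conjBy_centralizer, hNB _ (inv_mem hb)]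
    _ = conjBy A b⁻¹ := (congrArg (fun K => conjBy K b⁻¹) hA).symm

/-- Timmesfeld II (2.3)-type statement: `C = ⁅A, B⁆ ∈ S`, `⁅D, C⁆ = A`. Then `⟨B, D⟩` is a rank one
group acting on `N = A C` like `SL₂` on its natural module. -/
theorem root_opposite_main {S : Set (Subgroup G)} (hS : IsRootSubgroupSet S)
    {A B C D : Subgroup G} (hA : A ∈ S) (hB : B ∈ S) (hCS : C ∈ S) (hD : D ∈ S)
    (hAB : ⁅A, B⁆ = C) (hDC : ⁅D, C⁆ = A) :
    IsRankOnePair B D ∧
    {E | ∃ x ∈ B ⊔ D, E = conjBy A x} = {E | ∃ x ∈ B ⊔ D, E = conjBy C x} ∧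
    {E | ∃ x ∈ B ⊔ D, E = conjBy A x} = (fun b : G => conjBy A b) '' (B : Set G) ∪ {C} ∧
    {E | ∃ x ∈ B ⊔ D, E = conjBy A x} = (fun d : G => conjBy C d) '' (D : Set G) ∪ {A} ∧
    IsSubgroupPartition (A ⊔ C) {E | ∃ x ∈ B ⊔ D, E = conjBy A x} ∧
    ∀ x ∈ (B ⊔ D) ⊓ Subgroup.centralizer ((A ⊔ C : Subgroup G) : Set G), ∀ y ∈ B ⊔ D,
      x * y = y * x := by
  have hCS' : ⁅A, B⁆ ∈ S := hAB.symm ▸ hCS
  have hAS' : ⁅D, C⁆ ∈ S := hDC.symm ▸ hA
  have hcAB := root_commCase_of_commutator_mem hS hA hB hCS'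
  have hcDC := root_commCase_of_commutator_mem hS hD hCS hAS'
  have hcBA : RootCommutatorCase S B A :=
    root_commCase_of_commutator_mem hS hB hA (by rw [Subgroup.commutator_comm]; exact hCS')
  have cC : ∀ c ∈ C, ∀ x ∈ A ⊔ B, c * x = x * c := fun c hc => hcAB.2.1 c (hAB.symm ▸ hc)
  have cA : ∀ a ∈ A, ∀ x ∈ D ⊔ C, a * x = x * a := fun a ha => hcDC.2.1 a (hDC.symm ▸ ha)
  have cCB : C ≤ Subgroup.centralizer (B : Set G) := by
    intro c hc; rw [Subgroup.mem_centralizer_iff]; intro b hb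
    exact (cC c hc b (Subgroup.mem_sup_right hb)).symm
  have cCA : C ≤ Subgroup.centralizer (A : Set G) := by
    intro c hc; rw [Subgroup.mem_centralizer_iff]; intro b hb
    exact (cC c hc b (Subgroup.mem_sup_left hb)).symm
  have cAD : A ≤ Subgroup.centralizer (D : Set G) := by
    intro a ha; rw [Subgroup.mem_centralizer_iff]; intro d hd
    exact (cA a ha d (Subgroup.mem_sup_left hd)).symm
  have cAC : A ≤ Subgroup.centralizer (C : Set G) := le_centralizer_symm cCA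
  have hCbot : C ≠ ⊥ := hS.ne_bot C hCS
  have hAbot : A ≠ ⊥ := hS.ne_bot A hA
  have hAD : D ≠ A := by
    intro e
    apply hAbot
    have h1 : ⁅D, C⁆ = ⊥ := by rw [e]; exact comm_eq_bot_of_le_centralizer cAC
    rw [hDC] at h1; exact h1
  obtain ⟨⟨b₀, hb₀⟩, hb₀1⟩ := (Subgroup.ne_bot_iff_exists_ne_one).mp (hS.ne_bot B hB)
  have hb₀1' : b₀ ≠ 1 := fun e => hb₀1 (Subtype.ext e)
  obtain ⟨⟨d₀, hd₀⟩, hd₀1⟩ := (Subgroup.ne_bot_iff_exists_ne_one).mp (hS.ne_bot D hD)
  have hd₀1' : d₀ ≠ 1 := fun e => hd₀1 (Subtype.ext e)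
  -- rank one
  have hBD : IsRankOnePair B D := by
    rcases hS.pair B hB D hD with h0 | h1 | h2
    · exfalso
      apply hCbot
      have t1 : ⁅⁅C, B⁆, D⁆ = ⊥ := by
        rw [comm_eq_bot_of_le_centralizer cCB]; exact Subgroup.commutator_bot_left D
      have t2 : ⁅⁅B, D⁆, C⁆ = ⊥ := by
        rw [h0]; exact Subgroup.commutator_bot_left C
      have t3 := Subgroup.commutator_commutator_eq_bot_of_rotate t1 t2
      rw [hDC, hAB] at t3
      exact t3
    · exact h1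
    · exfalso
      have hcomm : D ∈ commutingPartners S A := ⟨hD, hAD, comm_eq_bot_of_le_centralizer cAD⟩
      have hnil := (Cfsg.Agent.S5030.result hS hA hB hD hCS' h2.1 hcomm hb₀ hb₀1').2.2.2.2
      rw [Subgroup.isNilpotent_iff_lowerCentralSeries] at hnil
      obtain ⟨n, hn⟩ := hnil
      have key : ∀ i, A ≤ (A ⊔ B ⊔ D).lowerCentralSeries i ∧
          C ≤ (A ⊔ B ⊔ D).lowerCentralSeries i := by
        intro i
        induction i with
        | zero =>
          constructor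
          · show A ≤ A ⊔ B ⊔ D
            exact le_sup_left.trans le_sup_left
          · show C ≤ A ⊔ B ⊔ D
            rw [← hAB]; exact (Subgroup.commutator_le_sup A B).trans le_sup_left
        | succ i ih =>
          rw [Subgroup.lowerCentralSeries_succ]
          constructor
          · calc A = ⁅C, D⁆ := by rw [Subgroup.commutator_comm]; exact hDC.symm
              _ ≤ _ := Subgroup.commutator_mono ih.2 le_sup_right
          · calc C = ⁅A, B⁆ := hAB.symm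
              _ ≤ _ := Subgroup.commutator_mono ih.1 (le_sup_right.trans le_sup_left)
      apply hAbot
      rw [eq_bot_iff, ← hn]
      exact (key n).1
  have hDB := rankOne_symm hBD
  have hAcentB : ∀ b ∈ B, b ≠ 1 → ∀ a ∈ A, b * a = a * b → a = 1 := fun b hb hb1 a ha hab =>
    root_commCase_centralizer_trivial hS hB hD hBD hcBA hb hb1 ha hab
  have hCcentD : ∀ d ∈ D, d ≠ 1 → ∀ c ∈ C, d * c = c * d → c = 1 := fun d hd hd1 c hc hdc =>
    root_commCase_centralizer_trivial hS hD hB hDB hcDC hd hd1 hc hdc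
  have hAC : A ⊓ C = ⊥ := by
    rw [eq_bot_iff]
    intro x hx
    rw [Subgroup.mem_bot]
    exact hAcentB b₀ hb₀ hb₀1' x hx.1 ((cC x hx.2 b₀ (Subgroup.mem_sup_right hb₀)).symm)
  have hNdec : ∀ x ∈ A ⊔ C, ∃ a ∈ A, ∃ c ∈ C, x = a * c := by
    intro x hx
    have hx' : x ∈ A ⊔ ⁅A, B⁆ := by rw [hAB]; exact hx
    obtain ⟨a, ha, c, hc, e⟩ := exists_mul_of_mem_sup_commutator hx'
    exact ⟨a, ha, c, hAB ▸ hc, e⟩
  have hCeq : C = (A ⊔ C) ⊓ Subgroup.centralizer (B : Set G) := by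
    apply le_antisymm (le_inf le_sup_right cCB)
    rintro x ⟨hxN, hxB⟩
    obtain ⟨a, ha, c, hc, rfl⟩ := hNdec x hxN
    have hab : b₀ * a = a * b₀ := by
      have h1 : b₀ * (a * c) = (a * c) * b₀ := (Subgroup.mem_centralizer_iff.mp hxB) b₀ hb₀
      have h2 : c * b₀ = b₀ * c := cC c hc b₀ (Subgroup.mem_sup_right hb₀)
      have h3 : b₀ * a * c = a * b₀ * c := by
        calc b₀ * a * c = b₀ * (a * c) := mul_assoc _ _ _
          _ = a * c * b₀ := h1
          _ = a * (c * b₀) := mul_assoc _ _ _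
          _ = a * (b₀ * c) := by rw [h2]
          _ = a * b₀ * c := (mul_assoc _ _ _).symm
      exact mul_right_cancel h3
    rw [hAcentB b₀ hb₀ hb₀1' a ha hab, one_mul]; exact hc
  have hAeq : A = (A ⊔ C) ⊓ Subgroup.centralizer (D : Set G) := by
    apply le_antisymm (le_inf le_sup_left cAD)
    rintro x ⟨hxN, hxD⟩
    obtain ⟨a, ha, c, hc, rfl⟩ := hNdec x hxN
    have hdc : d₀ * c = c * d₀ := by
      have h1 : d₀ * (a * c) = (a * c) * d₀ := (Subgroup.mem_centralizer_iff.mp hxD) d₀ hd₀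
      have h2 : a * d₀ = d₀ * a := cA a ha d₀ (Subgroup.mem_sup_left hd₀)
      have h3 : a * (d₀ * c) = a * (c * d₀) := by
        calc a * (d₀ * c) = a * d₀ * c := (mul_assoc _ _ _).symm
          _ = d₀ * a * c := by rw [h2]
          _ = d₀ * (a * c) := mul_assoc _ _ _
          _ = a * c * d₀ := h1
          _ = a * (c * d₀) := mul_assoc _ _ _
      exact mul_left_cancel h3
    rw [hCcentD d₀ hd₀ hd₀1' c hc hdc, mul_one]; exact ha
  have hAconj : ∀ b ∈ B, conjBy A b ≤ A ⊔ C := by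
    intro b hb; have := conjBy_le_sup_commutator (A := A) hb; rwa [hAB] at this
  have hCconjB : ∀ b ∈ B, conjBy C b = C := fun b hb =>
    conjBy_eq_of_commute (fun c hc => (cC c hc b (Subgroup.mem_sup_right hb)).symm)
  have hAconjD : ∀ d ∈ D, conjBy A d = A := fun d hd =>
    conjBy_eq_of_commute (fun a ha => (cA a ha d (Subgroup.mem_sup_left hd)).symm)
  have hCconj : ∀ d ∈ D, conjBy C d ≤ A ⊔ C := by
    intro d hd; have := conjBy_inv_le_sup_commutator (C := C) hd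
    rw [hDC, sup_comm] at this; exact this
  have hNB : ∀ b ∈ B, conjBy (A ⊔ C) b = A ⊔ C := by
    have h : ∀ b ∈ B, conjBy (A ⊔ C) b ≤ A ⊔ C := by
      intro b hb; rw [conjBy_sup, hCconjB b hb]; exact sup_le (hAconj b hb) le_sup_right
    intro b hb; exact conjBy_eq_of_le (h b hb) (h b⁻¹ (inv_mem hb))
  have hND : ∀ d ∈ D, conjBy (A ⊔ C) d = A ⊔ C := by
    have h : ∀ d ∈ D, conjBy (A ⊔ C) d ≤ A ⊔ C := by
      intro d hd; rw [conjBy_sup, hAconjD d hd]; exact sup_le le_sup_left (hCconj d hd)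
    intro d hd; exact conjBy_eq_of_le (h d hd) (h d⁻¹ (inv_mem hd))
  have hkey : ∀ b ∈ B, ∀ d ∈ D, conjBy B d⁻¹ = conjBy D b⁻¹ → conjBy C d⁻¹ = conjBy A b⁻¹ :=
    fun b hb d hd e => natmod_key hCeq hAeq hNB hND hb hd e
  have hT : (fun b : G => conjBy A b) '' (B : Set G) ∪ {C} =
      (fun d : G => conjBy C d) '' (D : Set G) ∪ {A} := by
    ext E
    constructor
    · rintro (⟨b, hb, rfl⟩ | hE)
      · by_cases hb1 : b = 1
        · right; rw [hb1]; exact conjBy_one A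
        · left
          obtain ⟨d, hd, -, e⟩ := hBD.cond_left b⁻¹ (inv_mem hb) (fun e => hb1 (inv_eq_one.mp e))
          have := hkey b⁻¹ (inv_mem hb) d hd e
          rw [inv_inv] at this
          exact ⟨d⁻¹, inv_mem hd, this⟩
      · left; exact ⟨1, one_mem D, (conjBy_one C).trans (Set.mem_singleton_iff.mp hE).symm⟩
    · rintro (⟨d, hd, rfl⟩ | hE)
      · by_cases hd1 : d = 1
        · right; rw [hd1]; exact conjBy_one C
        · left
          obtain ⟨b, hb, -, e⟩ := hBD.cond_right d⁻¹ (inv_mem hd) (fun e => hd1 (inv_eq_one.mp e))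
          have := hkey b hb d⁻¹ (inv_mem hd) e.symm
          rw [inv_inv] at this
          exact ⟨b⁻¹, inv_mem hb, this.symm⟩
      · left; exact ⟨1, one_mem B, (conjBy_one A).trans (Set.mem_singleton_iff.mp hE).symm⟩
  obtain ⟨T, hTdef⟩ : ∃ T : Set (Subgroup G), T = (fun b : G => conjBy A b) '' (B : Set G) ∪ {C} :=
    ⟨_, rfl⟩
  have memT : ∀ E, E ∈ T ↔ ((∃ b ∈ B, conjBy A b = E) ∨ E = C) := by
    intro E; rw [hTdef]; exact Iff.rfl
  have memT' : ∀ E, E ∈ T ↔ ((∃ d ∈ D, conjBy C d = E) ∨ E = A) := by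
    intro E; rw [hTdef, hT]; exact Iff.rfl
  have hAT : A ∈ T := (memT A).mpr (Or.inl ⟨1, one_mem B, conjBy_one A⟩)
  have hCT : C ∈ T := (memT C).mpr (Or.inr rfl)
  have hBstab : B ≤ conjStabilizer T := by
    have h : ∀ b ∈ B, ∀ E ∈ T, conjBy E b ∈ T := by
      intro b hb E hE
      rcases (memT E).mp hE with ⟨b', hb', rfl⟩ | hEC
      · exact (memT _).mpr (Or.inl ⟨b * b', mul_mem hb hb', (conjBy_conjBy A b' b).symm⟩)
      · rw [hEC]; exact (memT _).mpr (Or.inr (hCconjB b hb))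
    intro b hb
    exact ⟨h b hb, h b⁻¹ (inv_mem hb)⟩
  have hDstab : D ≤ conjStabilizer T := by
    have h : ∀ d ∈ D, ∀ E ∈ T, conjBy E d ∈ T := by
      intro d hd E hE
      rcases (memT' E).mp hE with ⟨d', hd', rfl⟩ | hEA
      · exact (memT' _).mpr (Or.inl ⟨d * d', mul_mem hd hd', (conjBy_conjBy C d' d).symm⟩)
      · rw [hEA]; exact (memT' _).mpr (Or.inr (hAconjD d hd))
    intro d hd
    exact ⟨h d hd, h d⁻¹ (inv_mem hd)⟩
  have hXstab : B ⊔ D ≤ conjStabilizer T := sup_le hBstab hDstab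
  obtain ⟨x₀, hx₀, hCx₀⟩ : ∃ x₀ ∈ B ⊔ D, C = conjBy A x₀ := by
    obtain ⟨d, hd, -, e⟩ := hBD.cond_left b₀ hb₀ hb₀1'
    have := hkey b₀ hb₀ d hd e
    refine ⟨d * b₀⁻¹, mul_mem (Subgroup.mem_sup_right hd) (inv_mem (Subgroup.mem_sup_left hb₀)), ?_⟩
    rw [← conjBy_conjBy A, ← this, conjBy_conjBy C]; simp [conjBy_one]
  have hP : {E | ∃ x ∈ B ⊔ D, E = conjBy A x} = T := by
    ext E
    constructor
    · rintro ⟨x, hx, rfl⟩
      exact (hXstab hx).1 A hAT
    · intro hE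
      rcases (memT E).mp hE with ⟨b, hb, rfl⟩ | hEC
      · exact ⟨b, Subgroup.mem_sup_left hb, rfl⟩
      · exact ⟨x₀, hx₀, hEC.trans hCx₀⟩
  have hPC : {E | ∃ x ∈ B ⊔ D, E = conjBy A x} = {E | ∃ x ∈ B ⊔ D, E = conjBy C x} := by
    ext E
    constructor
    · rintro ⟨x, hx, rfl⟩
      refine ⟨x * x₀⁻¹, mul_mem hx (inv_mem hx₀), ?_⟩
      have e : conjBy C (x * x₀⁻¹) = conjBy (conjBy A x₀) (x * x₀⁻¹) :=
        congrArg (fun K => conjBy K (x * x₀⁻¹)) hCx₀
      rw [e, conjBy_conjBy A, inv_mul_cancel_right]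
    · rintro ⟨x, hx, rfl⟩
      refine ⟨x * x₀, mul_mem hx hx₀, ?_⟩
      have e : conjBy C x = conjBy (conjBy A x₀) x := congrArg (fun K => conjBy K x) hCx₀
      rw [e, conjBy_conjBy A]
  have hα : ∀ b ∈ B, conjBy A b ⊓ C = ⊥ := by
    intro b hb
    rw [eq_bot_iff]
    rintro x ⟨hxA, hxC⟩
    have hxA' : b⁻¹ * x * b ∈ A := mem_conjBy.mp hxA
    have e : b⁻¹ * x * b = x := by
      rw [mul_assoc, cC x hxC b (Subgroup.mem_sup_right hb), ← mul_assoc, inv_mul_cancel, one_mul]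
    rw [e] at hxA'
    rw [← hAC]; exact ⟨hxA', hxC⟩
  have hβ : ∀ b ∈ B, b ≠ 1 → conjBy A b ⊓ A = ⊥ := by
    intro b hb hb1
    rw [eq_bot_iff]
    rintro x ⟨hxb, hxA⟩
    have hxb' : b⁻¹ * x * b ∈ A := mem_conjBy.mp hxb
    have h1 : x * (b⁻¹ * x * b)⁻¹ ∈ A := mul_mem hxA (inv_mem hxb')
    have h2 : x * (b⁻¹ * x * b)⁻¹ ∈ C := by
      have := Subgroup.commutator_mem_commutator hxA (inv_mem hb)
      rw [hAB, commutatorElement_def] at this
      have e : x * (b⁻¹ * x * b)⁻¹ = x * b⁻¹ * x⁻¹ * b⁻¹⁻¹ := by group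
      rw [e]; exact this
    have h3 : x * (b⁻¹ * x * b)⁻¹ = 1 := by
      have : x * (b⁻¹ * x * b)⁻¹ ∈ A ⊓ C := ⟨h1, h2⟩
      rw [hAC] at this; exact this
    have h4 : b * x = x * b := by
      have e : x = b⁻¹ * x * b := by
        rw [mul_inv_eq_one] at h3; exact h3
      calc b * x = b * (b⁻¹ * x * b) := by rw [← e]
        _ = x * b := by group
    rw [Subgroup.mem_bot]
    exact hAcentB b hb hb1 x hxA h4
  have hγ : ∀ b₁ ∈ B, ∀ b₂ ∈ B, conjBy A b₁ ≠ conjBy A b₂ → conjBy A b₁ ⊓ conjBy A b₂ = ⊥ := by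
    intro b₁ hb₁ b₂ hb₂ hne
    have hb : b₂⁻¹ * b₁ ≠ 1 := by
      intro e
      apply hne
      rw [inv_mul_eq_one] at e
      rw [e]
    have e1 : conjBy A b₁ = conjBy (conjBy A (b₂⁻¹ * b₁)) b₂ := by
      rw [conjBy_conjBy A, mul_inv_cancel_left]
    rw [e1, ← conjBy_inf, hβ _ (mul_mem (inv_mem hb₂) hb₁) hb, conjBy_bot]
  have hpart : IsSubgroupPartition (A ⊔ C) T := by
    refine ⟨?_, ?_, ?_⟩
    · intro E hE
      rcases (memT E).mp hE with ⟨b, hb, rfl⟩ | hEC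
      · exact hAconj b hb
      · rw [hEC]; exact le_sup_right
    · intro x hx hx1
      obtain ⟨a, ha, c, hc, rfl⟩ := hNdec x hx
      by_cases ha1 : a = 1
      · refine ⟨C, hCT, ?_⟩
        rw [ha1, one_mul]; exact hc
      · obtain ⟨b, hb, hmem⟩ := root_comm_cover hcAB ha ha1 (hAB.symm ▸ hc)
        exact ⟨conjBy A b, (memT _).mpr (Or.inl ⟨b, hb, rfl⟩), hmem⟩
    · intro E hE F hF hne
      rcases (memT E).mp hE with ⟨b₁, hb₁, rfl⟩ | hEC <;>
        rcases (memT F).mp hF with ⟨b₂, hb₂, rfl⟩ | hFC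
      · exact hγ b₁ hb₁ b₂ hb₂ hne
      · rw [hFC]; exact hα b₁ hb₁
      · rw [hEC, inf_comm]; exact hα b₂ hb₂
      · exact absurd (hEC.trans hFC.symm) hne
  have hlast : ∀ x ∈ (B ⊔ D) ⊓ Subgroup.centralizer ((A ⊔ C : Subgroup G) : Set G),
      ∀ y ∈ B ⊔ D, x * y = y * x := by
    rintro x ⟨hxX, hxN⟩ y hy
    have hxc : ∀ n ∈ A ⊔ C, x * n = n * x := fun n hn =>
      ((Subgroup.mem_centralizer_iff.mp hxN) n hn).symm
    have hnorm : ∀ E ∈ unipotentSubgroups B D, conjBy E x = E := by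
      intro E hE
      by_contra hne
      have hE' : conjBy E x ∈ unipotentSubgroups B D := unipotent_conj_mem hE hxX
      obtain ⟨hp, hsup⟩ := rankOne_pair_of_mem_unipotent hBD hE' hE hne
      obtain ⟨y', hy', rfl⟩ := hE
      have hC'N : conjBy C y' ≤ A ⊔ C := by
        have : conjBy C y' ∈ T := by rw [← hP, hPC]; exact ⟨y', hy', rfl⟩
        exact hpart.1 _ this
      have h1 : conjBy C y' ≤ Subgroup.centralizer ((conjBy B y' : Subgroup G) : Set G) := by
        rw [← conjBy_centralizer]; exact conjBy_mono cCB y'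
      have h2 : conjBy C y' ≤
          Subgroup.centralizer ((conjBy (conjBy B y') x : Subgroup G) : Set G) := by
        rw [← conjBy_centralizer]
        have e : conjBy (conjBy C y') x = conjBy C y' :=
          conjBy_eq_of_commute (fun c hc => hxc c (hC'N hc))
        calc conjBy C y' = conjBy (conjBy C y') x := e.symm
          _ ≤ _ := conjBy_mono h1 x
      have h3 : conjBy C y' ≤ Subgroup.centralizer ((B ⊔ D : Subgroup G) : Set G) := by
        rw [← hsup]; exact le_centralizer_sup h2 h1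
      have h4 : conjBy C y' ≤ A ⊓ C := by
        apply le_inf
        · exact (le_inf hC'N (le_centralizer_of_le h3 le_sup_right)).trans hAeq.ge
        · exact (le_inf hC'N (le_centralizer_of_le h3 le_sup_left)).trans hCeq.ge
      rw [hAC] at h4
      exact conjBy_ne_bot hCbot y' (le_bot_iff.mp h4)
    have := rankOne_centralizes_of_normalizes_all hBD hnorm
    exact ((Subgroup.mem_centralizer_iff.mp this) y hy).symm
  refine ⟨hBD, hPC, hP.trans hTdef, hP.trans (hTdef.trans hT), ?_, hlast⟩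
  rw [hP]; exact hpart

end Cfsg.Agent.Lib.Helper83
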