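import Cfsg.Agent.Lib.Helper83.RootSet7

set_option autoImplicit false
open Cfsg
open scoped commutatorElement

namespace Cfsg.Agent.Lib.Helper83

variable {G : Type*} [Group G]

/-- Every line `P ⊔ Q` through `P` is of the form `P ⊔ ⁅P, T⁆` for some `T ∈ S` in the commutator
case with `P`. -/
theorem root_line_T {S : Set (Subgroup G)} (hS : IsRootSubgroupSet S) {P Q K : Subgroup G}
    (hP : P ∈ S) (hK : K ∈ S) (hPK : IsRankOnePair P K) (hQ : Q ∈ linePartners S P) :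
    ∃ T ∈ S, RootCommutatorCase S P T ∧ P ⊔ ⁅P, T⁆ = P ⊔ Q := by
  obtain ⟨E, hE, hKE, hsup⟩ := root_line_special hS hP hK hPK hQ
  obtain ⟨⟨hES, hEP, hPE⟩, hpartE⟩ := hE
  have hline : ∀ c ∈ E, ∀ a ∈ P, c * a ≠ 1 → ∃ E' ∈ S, c * a ∈ E' := by
    intro c hc a ha hne
    obtain ⟨E', hE', hm⟩ := hpartE.2.1 (c * a)
      (mul_mem (Subgroup.mem_sup_right hc) (Subgroup.mem_sup_left ha)) hne
    exact ⟨E', hE'.1, hm⟩
  have hPT : ⁅P, ⁅K, E⁆⁆ = E := root_comm_comm_eq hS hP hK hES hPK hPE hEP hKE hline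
  refine ⟨⁅K, E⁆, hKE, root_commCase_of_commutator_mem hS hP hKE (by rw [hPT]; exact hES), ?_⟩
  rw [hPT]; exact hsup

/-- The action of `T` on the line `P ⊔ ⁅P, T⁆`. -/
theorem root_line_stab {S : Set (Subgroup G)} (hS : IsRootSubgroupSet S) {P T K : Subgroup G}
    (hP : P ∈ S) (hK : K ∈ S) (hPK : IsRankOnePair P K) (hT : T ∈ S)
    (hc : RootCommutatorCase S P T) :
    T ∈ normalizingMembers S (P ⊔ ⁅P, T⁆) ∧
    (∀ Q₁ ∈ membersIn S (P ⊔ ⁅P, T⁆), ∀ Q₂ ∈ membersIn S (P ⊔ ⁅P, T⁆), Q₁ ≠ ⁅P, T⁆ → Q₂ ≠ ⁅P, T⁆ →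
      ∃ x ∈ T, conjBy Q₁ x = Q₂ ∧ conjBy ⁅P, T⁆ x = ⁅P, T⁆) ∧
    (∀ t ∈ T, t ≠ 1 → conjBy P t ≠ P ∧ conjBy P t ≠ ⁅P, T⁆ ∧
      conjBy P t ∈ membersIn S (P ⊔ ⁅P, T⁆)) := by
  have hEfix : ∀ t ∈ T, conjBy ⁅P, T⁆ t = ⁅P, T⁆ := fun t ht =>
    conjBy_eq_of_commute (fun c hcm => (hc.2.1 c hcm t (Subgroup.mem_sup_right ht)).symm)
  have hmem := root_membersIn_sup_commutator hS hP hK hPK hc
  refine ⟨⟨hT, ?_⟩, ?_, ?_⟩
  · apply le_normalizer_of_conjBy_le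
    intro t ht
    rw [conjBy_sup, hEfix t ht]
    exact sup_le (conjBy_le_sup_commutator ht) le_sup_right
  · intro Q₁ hQ₁ Q₂ hQ₂ h1 h2
    rw [hmem] at hQ₁ hQ₂
    rcases hQ₁ with ⟨t₁, ht₁, rfl⟩ | h
    swap
    · exact absurd (Set.mem_singleton_iff.mp h) h1
    rcases hQ₂ with ⟨t₂, ht₂, rfl⟩ | h
    swap
    · exact absurd (Set.mem_singleton_iff.mp h) h2
    refine ⟨t₂ * t₁⁻¹, mul_mem ht₂ (inv_mem ht₁), ?_, hEfix _ (mul_mem ht₂ (inv_mem ht₁))⟩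
    show conjBy (conjBy P t₁) (t₂ * t₁⁻¹) = conjBy P t₂
    rw [conjBy_conjBy P, inv_mul_cancel_right]
  · intro t ht ht1
    have hPE : P ⊓ ⁅P, T⁆ = ⊥ := by
      rcases root_inf_eq_bot_or_eq hS hK hPK hc.1 with h | h
      · exact h
      · exact absurd h (root_ne_commutator hS hc)
    refine ⟨?_, ?_, hS.conj_mem P hP t, conjBy_le_sup_commutator ht⟩
    · intro e
      obtain ⟨⟨a, ha⟩, ha1⟩ := (Subgroup.ne_bot_iff_exists_ne_one).mp (hS.ne_bot P hP)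
      have ha1' : a ≠ 1 := fun e => ha1 (Subtype.ext e)
      have h1 : t⁻¹ * a * t ∈ P := by
        have : a ∈ conjBy P t := by rw [e]; exact ha
        exact mem_conjBy.mp this
      have h2 : a⁻¹ * t⁻¹ * a * t ∈ P := by
        have := mul_mem (inv_mem ha) h1
        have e' : a⁻¹ * (t⁻¹ * a * t) = a⁻¹ * t⁻¹ * a * t := by group
        rwa [e'] at this
      have h3 : a⁻¹ * t⁻¹ * a * t ∈ P ⊓ ⁅P, T⁆ := ⟨h2, commCase_map_mem ha ht⟩
      rw [hPE, Subgroup.mem_bot] at h3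
      have h4 : a * t = t * a := by
        calc a * t = t * a * (a⁻¹ * t⁻¹ * a * t) := by group
          _ = t * a := by rw [h3, mul_one]
      exact ht1 (root_commCase_centralizer_trivial hS hP hK hPK hc ha ha1' ht h4)
    · intro e
      rw [conjBy_eq_iff, hEfix t⁻¹ (inv_mem ht)] at e
      exact root_ne_commutator hS hc e

end Cfsg.Agent.Lib.Helper83
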