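import Cfsg.Agent.Lib.Helper83.SLp
import Cfsg.Agent.Lib.Helper83.Quasi
import Cfsg.Agent.S5017

/-!
# Structure of special rank one groups with abelian unipotent subgroups
-/

set_option autoImplicit false

namespace Cfsg.Agent.Lib.Helper83

open Cfsg

variable {G : Type*} [Group G] {A B : Subgroup G}

/-- A special rank one group whose unipotent subgroup has prime order `p` is `(P)SL₂(p)`. -/
theorem special_prime_card_iso (h : IsRankOneGroup G A B) (hs : IsSpecialRankOnePair A B)
    {p : ℕ} [Fact p.Prime] (hcard : Nat.card A = p) :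
    Nonempty (G ≃* Matrix.SpecialLinearGroup (Fin 2) (ZMod p)) ∨
    Nonempty (G ≃* Matrix.ProjectiveSpecialLinearGroup (Fin 2) (ZMod p)) := by
  obtain ⟨htop, hp⟩ := h
  have hfin : Finite A := Nat.finite_of_card_ne_zero (by rw [hcard]; exact (Fact.out : p.Prime).ne_zero)
  have hexp : ∀ x ∈ A, x ^ p = 1 := by
    intro x hx
    have h1 : (⟨x, hx⟩ : A) ^ Nat.card A = 1 := pow_card_eq_one'
    rw [hcard] at h1
    have h2 := congrArg Subtype.val h1
    simpa using h2
  obtain ⟨⟨a, ha⟩, ha1⟩ := (Subgroup.ne_bot_iff_exists_ne_one).mp (rankOne_ne_bot_left hp)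
  have ha1' : a ≠ 1 := fun e => ha1 (Subtype.ext e)
  obtain ⟨b, r⟩ := rpartner_exists hp ha ha1'
  have hAle : A ≤ Subgroup.closure ({a, b} : Set G) := by
    intro x hx
    have hz : Subgroup.zpowers (⟨a, ha⟩ : A) = ⊤ := zpowers_eq_top_of_prime_card hcard ha1
    have hxm : (⟨x, hx⟩ : A) ∈ Subgroup.zpowers (⟨a, ha⟩ : A) := by rw [hz]; trivial
    obtain ⟨k, hk⟩ := Subgroup.mem_zpowers_iff.mp hxm
    have hk' : a ^ k = x := by
      have := congrArg Subtype.val hk
      simpa using this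
    rw [← hk']
    exact Subgroup.zpow_mem _ (Subgroup.subset_closure (by simp)) _
  have hn : (a * b⁻¹ * a)⁻¹ ∈ Subgroup.closure ({a, b} : Set G) := by
    have ha' : a ∈ Subgroup.closure ({a, b} : Set G) := Subgroup.subset_closure (by simp)
    have hb' : b ∈ Subgroup.closure ({a, b} : Set G) := Subgroup.subset_closure (by simp)
    exact inv_mem (mul_mem (mul_mem ha' (inv_mem hb')) ha')
  have hBle : B ≤ Subgroup.closure ({a, b} : Set G) := by
    rw [← special_swap_left hs r]
    exact conjBy_le_of_mem hAle hn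
  have hcl : Subgroup.closure ({a, b} : Set G) = ⊤ := by
    rw [eq_top_iff, ← htop]
    exact sup_le hAle hBle
  have e0 : G ≃* ↥(Subgroup.closure ({a, b} : Set G)) :=
    (Subgroup.topEquiv (G := G)).symm.trans (MulEquiv.subgroupCongr hcl.symm)
  rcases special_closure_sl2p hs hexp r with h1 | h1
  · obtain ⟨e⟩ := h1
    exact Or.inl ⟨e0.trans e⟩
  · obtain ⟨e⟩ := h1
    exact Or.inr ⟨e0.trans e⟩

/-- `PSL₂(2) ≅ SL₂(2)`. -/
theorem psl2_two_iso : Nonempty (Matrix.ProjectiveSpecialLinearGroup (Fin 2) (ZMod 2) ≃*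
    Matrix.SpecialLinearGroup (Fin 2) (ZMod 2)) := by
  have hc : Subgroup.center (Matrix.SpecialLinearGroup (Fin 2) (ZMod 2)) = ⊥ := by
    rw [eq_bot_iff]
    intro z hz
    rw [Matrix.SpecialLinearGroup.mem_center_iff] at hz
    obtain ⟨c, hc, hcz⟩ := hz
    rw [scalar2] at hcz
    have hc1 : c = 1 := by
      have hc2 : c ^ 2 = 1 := by simpa using hc
      have key : ∀ d : ZMod 2, d ^ 2 = 1 → d = 1 := by decide
      exact key c hc2
    rw [Subgroup.mem_bot]
    rw [hc1] at hcz
    exact Subtype.ext (hcz.symm.trans (Matrix.one_fin_two (α := ZMod 2)).symm)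
  exact ⟨(QuotientGroup.quotientMulEquivOfEq hc).trans QuotientGroup.quotientBot⟩

/-- The large case: `A = [A, H]`, `X` perfect and quasisimple. -/
theorem special_large_structure (h : IsRankOneGroup G A B) (hs : IsSpecialRankOnePair A B)
    (hab : HasAbelianUnipotents A B) (h3 : 3 < ENat.card A) :
    commutator G ⊔ A = ⊤ ∧ IsQuasisimple (commutator G) ∧
      3 < ENat.card ↥(⁅A, rankOneDiagonal A B⁆ : Subgroup G) := by
  have hAle : A ≤ ⁅A, rankOneDiagonal A B⁆ := special_comm_diag_top_of_card hs hab.1 h3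
  have hle : ⁅A, rankOneDiagonal A B⁆ ≤ commutator G := by
    rw [commutator_def]
    exact Subgroup.commutator_mono le_top le_top
  have hAc : A ≤ commutator G := hAle.trans hle
  obtain ⟨⟨a, ha⟩, ha1⟩ := (Subgroup.ne_bot_iff_exists_ne_one).mp (rankOne_ne_bot_left h.2)
  have ha1' : a ≠ 1 := fun e => ha1 (Subtype.ext e)
  obtain ⟨b, r⟩ := rpartner_exists h.2 ha ha1'
  have hBc : B ≤ commutator G := by
    rw [← special_swap_left hs r]
    intro x hx
    rw [mem_conjBy] at hx
    have h1 := hAc hx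
    have h2 := (inferInstance : (commutator G).Normal).conj_mem _ h1 ((a * b⁻¹ * a)⁻¹)
    have e : (a * b⁻¹ * a)⁻¹ * ((a * b⁻¹ * a)⁻¹⁻¹ * x * (a * b⁻¹ * a)⁻¹) * (a * b⁻¹ * a)⁻¹⁻¹ = x := by
      group
    rwa [e] at h2
  have hctop : commutator G = ⊤ := by
    rw [eq_top_iff, ← h.1]
    exact sup_le hAc hBc
  refine ⟨by rw [hctop, top_sup_eq], ?_, ?_⟩
  · have hq : IsQuasisimple G := (Cfsg.Agent.S5017.result h).2 (Group.isPerfect_def.mpr hctop)
    exact isQuasisimple_congr ((MulEquiv.subgroupCongr hctop).trans Subgroup.topEquiv) hq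
  · exact lt_of_lt_of_le h3 (ENat.card_le_card_of_injective (Subgroup.inclusion_injective hAle))

end Cfsg.Agent.Lib.Helper83
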