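import Cfsg.Agent.Lib.Helper83.StHom

/-!
# Recognising `PSL₂(F)` from a coordinatised Zassenhaus configuration

`G` acts on `Ω`, no non-identity element fixes three points, `a ≠ b` are two points, the elements
`θ z` (`z ∈ F`) fix `a` and act regularly on the other points, the two-point stabiliser `H` acts
on them by multiplications `lam h` forming a subgroup of index two containing `-1`, and every
element interchanging `a` and `b` is an involution.  Then `G ≅ PSL₂(F)`.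
-/

set_option autoImplicit false

namespace Cfsg.Agent.Lib.Helper83

/-- Zassenhaus configuration with a field coordinatisation. -/
structure ZField (G Ω F : Type*) [Group G] [MulAction G Ω] [Field F] (a b : Ω) (H : Subgroup G)
    (θ : F → G) (lam : G → F) : Prop where
  hab : a ≠ b
  three : ∀ g : G, ∀ x y z : Ω, x ≠ y → y ≠ z → x ≠ z → g • x = x → g • y = y → g • z = z → g = 1
  memH : ∀ g : G, g ∈ H ↔ g • a = a ∧ g • b = b
  θ_add : ∀ x y : F, θ (x + y) = θ x * θ y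
  θ_a : ∀ z : F, θ z • a = a
  θ_surj : ∀ y : Ω, y ≠ a → ∃ z : F, θ z • b = y
  θ_free : ∀ z : F, θ z • b = b → z = 0
  lam_conj : ∀ h ∈ H, ∀ z : F, h * θ z * h⁻¹ = θ (lam h * z)
  lam_mul : ∀ h ∈ H, ∀ h' ∈ H, lam (h * h') = lam h * lam h'
  lam_one : lam 1 = 1
  swap_sq : ∀ g : G, g • a = b → g • b = a → g * g = 1
  swap_fix : ∀ x : Ω, x ≠ a → x ≠ b → ∃ g : G, g • a = b ∧ g • b = a ∧ g • x = x
  neg_mem : ∃ t ∈ H, lam t = -1
  idx : ∀ x v : F, x ≠ 0 → v ≠ 0 → (∀ h ∈ H, lam h ≠ v) → (∀ h ∈ H, lam h ≠ x) →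
    ∃ h ∈ H, lam h = x * v⁻¹
  beta : ∃ s : F, (∃ h ∈ H, lam h = s) ∧ s ≠ 1 ∧ ∀ h ∈ H, lam h ≠ s - 1
  sq : ∀ h ∈ H, ∃ t : F, lam h = t ^ 2
  two : (2 : F) ≠ 0

/-- The point with coordinate `z`. -/
def zpt {G Ω F : Type*} [Group G] [MulAction G Ω] (θ : F → G) (b : Ω) (z : F) : Ω := θ z • b

namespace ZField

variable {G Ω F : Type*} [Group G] [MulAction G Ω] [Field F] {a b : Ω} {H : Subgroup G}
  {θ : F → G} {lam : G → F}

theorem θ_zero (Z : ZField G Ω F a b H θ lam) : θ 0 = 1 := by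
  have h := Z.θ_add 0 0
  rw [add_zero] at h
  exact mul_left_cancel (a := θ 0) (by rw [← h, mul_one])

theorem θ_neg (Z : ZField G Ω F a b H θ lam) (z : F) : θ (-z) = (θ z)⁻¹ := by
  apply eq_inv_of_mul_eq_one_left
  rw [← Z.θ_add, neg_add_cancel, Z.θ_zero]

theorem pt_zero (Z : ZField G Ω F a b H θ lam) : zpt θ b 0 = b := by
  rw [zpt, Z.θ_zero, one_smul]

theorem pt_ne_a (Z : ZField G Ω F a b H θ lam) (z : F) : zpt θ b z ≠ a := by
  intro h
  have h1 : θ z • b = θ z • a := by rw [Z.θ_a]; exact h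
  exact Z.hab (smul_left_cancel _ h1).symm

theorem θ_smul_pt (Z : ZField G Ω F a b H θ lam) (u z : F) :
    θ u • zpt θ b z = zpt θ b (u + z) := by
  rw [zpt, zpt, ← mul_smul, ← Z.θ_add]

theorem pt_inj (Z : ZField G Ω F a b H θ lam) {z z' : F} (h : zpt θ b z = zpt θ b z') : z = z' := by
  have h1 : θ (-z') • zpt θ b z = θ (-z') • zpt θ b z' := by rw [h]
  rw [Z.θ_smul_pt, Z.θ_smul_pt, neg_add_cancel, Z.pt_zero] at h1
  have h2 := Z.θ_free _ h1
  linear_combination h2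

theorem pt_ne_b (Z : ZField G Ω F a b H θ lam) {z : F} (hz : z ≠ 0) : zpt θ b z ≠ b := by
  intro h
  have h' : zpt θ b z = zpt θ b 0 := by rw [Z.pt_zero]; exact h
  exact hz (Z.pt_inj h')

theorem exists_pt (Z : ZField G Ω F a b H θ lam) {y : Ω} (hy : y ≠ a) : ∃ z, zpt θ b z = y :=
  Z.θ_surj y hy

theorem H_smul_pt (Z : ZField G Ω F a b H θ lam) {h : G} (hh : h ∈ H) (z : F) :
    h • zpt θ b z = zpt θ b (lam h * z) := by
  have hb : h • b = b := ((Z.memH h).mp hh).2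
  have e : h * θ z = (h * θ z * h⁻¹) * h := by group
  rw [zpt, zpt, ← mul_smul, e, mul_smul, hb, Z.lam_conj h hh]

theorem lam_mul_inv (Z : ZField G Ω F a b H θ lam) {h : G} (hh : h ∈ H) :
    lam h * lam h⁻¹ = 1 := by
  rw [← Z.lam_mul h hh h⁻¹ (inv_mem hh), mul_inv_cancel, Z.lam_one]

theorem lam_ne_zero (Z : ZField G Ω F a b H θ lam) {h : G} (hh : h ∈ H) : lam h ≠ 0 := by
  intro h0
  have := Z.lam_mul_inv hh
  rw [h0, zero_mul] at this
  exact zero_ne_one this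

theorem lam_inv (Z : ZField G Ω F a b H θ lam) {h : G} (hh : h ∈ H) : lam h⁻¹ = (lam h)⁻¹ :=
  eq_inv_of_mul_eq_one_right (Z.lam_mul_inv hh)

theorem lam_eq_one (Z : ZField G Ω F a b H θ lam) {h : G} (hh : h ∈ H) (h1 : lam h = 1) : h = 1 := by
  have ha : h • a = a := ((Z.memH h).mp hh).1
  have hb : h • b = b := ((Z.memH h).mp hh).2
  have hp : h • zpt θ b 1 = zpt θ b 1 := by rw [Z.H_smul_pt hh, h1, one_mul]
  exact Z.three h a b (zpt θ b 1) Z.hab (Ne.symm (Z.pt_ne_b one_ne_zero)) (Ne.symm (Z.pt_ne_a 1))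
    ha hb hp

theorem lam_inj (Z : ZField G Ω F a b H θ lam) {h h' : G} (hh : h ∈ H) (hh' : h' ∈ H)
    (e : lam h = lam h') : h = h' := by
  have h1 : lam (h * h'⁻¹) = 1 := by
    rw [Z.lam_mul h hh h'⁻¹ (inv_mem hh'), e, Z.lam_mul_inv hh']
  have := Z.lam_eq_one (H.mul_mem hh (inv_mem hh')) h1
  exact mul_inv_eq_one.mp this

theorem swap_inv (Z : ZField G Ω F a b H θ lam) {g : G} (hga : g • a = b) (hgb : g • b = a) :
    g⁻¹ = g :=
  inv_eq_of_mul_eq_one_right (Z.swap_sq g hga hgb)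

theorem swap_conj (Z : ZField G Ω F a b H θ lam) {g : G} (hga : g • a = b) (hgb : g • b = a)
    {h : G} (hh : h ∈ H) : g * h = h⁻¹ * g := by
  have ha : h • a = a := ((Z.memH h).mp hh).1
  have hb : h • b = b := ((Z.memH h).mp hh).2
  have h1 : (g * h) * (g * h) = 1 :=
    Z.swap_sq (g * h) (by rw [mul_smul, ha, hga]) (by rw [mul_smul, hb, hgb])
  have h2 : g * h = (g * h)⁻¹ := (inv_eq_of_mul_eq_one_right h1).symm
  rw [h2, mul_inv_rev, Z.swap_inv hga hgb]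

theorem swap_pt (Z : ZField G Ω F a b H θ lam) {g : G} (hga : g • a = b) (hgb : g • b = a)
    {x : F} (hx : x ≠ 0) : ∃ ζ : F, ζ ≠ 0 ∧ g • zpt θ b x = zpt θ b ζ := by
  have h1 : g • zpt θ b x ≠ a := by
    intro h
    rw [← hgb] at h
    exact Z.pt_ne_b hx (smul_left_cancel _ h)
  obtain ⟨ζ, hζ⟩ := Z.exists_pt h1
  refine ⟨ζ, ?_, hζ.symm⟩
  rintro rfl
  have h2 : g • zpt θ b x = g • a := by rw [hga, ← hζ, Z.pt_zero]
  exact Z.pt_ne_a x (smul_left_cancel _ h2)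

theorem swap_lam (Z : ZField G Ω F a b H θ lam) {g : G} (hga : g • a = b) (hgb : g • b = a)
    {h : G} (hh : h ∈ H) (x : F) :
    g • zpt θ b (lam h * x) = h⁻¹ • (g • zpt θ b x) := by
  rw [← Z.H_smul_pt hh, ← mul_smul, Z.swap_conj hga hgb hh, mul_smul]

/-- For every `w ≠ 0` some element interchanging `a` and `b` acts as `x ↦ -w²/x`. -/
theorem main_swap (Z : ZField G Ω F a b H θ lam) {w : F} (hw : w ≠ 0) :
    ∃ g : G, g • a = b ∧ g • b = a ∧ ∀ x : F, x ≠ 0 → g • zpt θ b x = zpt θ b (-(w ^ 2 / x)) := by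
  obtain ⟨g₁, hg₁a, hg₁b, hg₁w⟩ := Z.swap_fix (zpt θ b w) (Z.pt_ne_a w) (Z.pt_ne_b hw)
  obtain ⟨t, htH, hlt⟩ := Z.neg_mem
  have hta : t • a = a := ((Z.memH t).mp htH).1
  have htb : t • b = b := ((Z.memH t).mp htH).2
  obtain ⟨g, hgdef⟩ : ∃ g, g = t * g₁ := ⟨_, rfl⟩
  have hga : g • a = b := by rw [hgdef, mul_smul, hg₁a, htb]
  have hgb : g • b = a := by rw [hgdef, mul_smul, hg₁b, hta]
  have hgw : g • zpt θ b w = zpt θ b (-w) := by
    rw [hgdef, mul_smul, hg₁w, Z.H_smul_pt htH, hlt, neg_one_mul]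
  have hgg : ∀ y : Ω, g • (g • y) = y := by
    intro y
    rw [← mul_smul, Z.swap_sq g hga hgb, one_smul]
  -- the class of `w`
  have c1 : ∀ h ∈ H, g • zpt θ b (lam h * w) = zpt θ b (-(w / lam h)) := by
    intro h hh
    rw [Z.swap_lam hga hgb hh, hgw, Z.H_smul_pt (inv_mem hh), Z.lam_inv hh]
    congr 1
    have := Z.lam_ne_zero hh
    field_simp
  -- the element of order three
  obtain ⟨ρ, hρdef⟩ : ∃ ρ, ρ = θ w * g := ⟨_, rfl⟩
  have hρa : ρ • a = zpt θ b w := by rw [hρdef, mul_smul, hga]; rfl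
  have hρw : ρ • zpt θ b w = b := by
    rw [hρdef, mul_smul, hgw, Z.θ_smul_pt, add_neg_cancel, Z.pt_zero]
  have hρb : ρ • b = a := by rw [hρdef, mul_smul, hgb, Z.θ_a]
  have hρ3 : ρ * ρ * ρ = 1 := by
    apply Z.three _ a b (zpt θ b w) Z.hab (Ne.symm (Z.pt_ne_b hw)) (Ne.symm (Z.pt_ne_a w))
    · rw [mul_smul, mul_smul, hρa, hρw, hρb]
    · rw [mul_smul, mul_smul, hρb, hρa, hρw]
    · rw [mul_smul, mul_smul, hρw, hρb, hρa]
  have hρ : ∀ y : Ω, ρ • (ρ • (ρ • y)) = y := by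
    intro y
    rw [← mul_smul, ← mul_smul, hρ3, one_smul]
  obtain ⟨s, ⟨hs, hsH, hls⟩, hs1, hsn⟩ := Z.beta
  have hs0 : s ≠ 0 := by rw [← hls]; exact Z.lam_ne_zero hsH
  have hs10 : s - 1 ≠ 0 := sub_ne_zero.mpr hs1
  have key : g • zpt θ b ((s - 1) * w) = zpt θ b (-(w / (s - 1))) := by
    obtain ⟨η, hη0, hη⟩ := Z.swap_pt hga hgb (mul_ne_zero hs10 hw)
    have e1 : g • zpt θ b (s * w) = zpt θ b (-(w / s)) := by
      have := c1 hs hsH
      rwa [hls] at this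
    have e2 : g • zpt θ b (lam hs⁻¹ * ((s - 1) * w)) = hs⁻¹⁻¹ • (g • zpt θ b ((s - 1) * w)) :=
      Z.swap_lam hga hgb (inv_mem hsH) _
    rw [inv_inv, hη, Z.H_smul_pt hsH, hls, Z.lam_inv hsH, hls] at e2
    have e3 := hρ (zpt θ b (s * w))
    have e4 : ρ • zpt θ b (s * w) = zpt θ b (s⁻¹ * ((s - 1) * w)) := by
      rw [hρdef, mul_smul, e1, Z.θ_smul_pt]
      congr 1
      field_simp
      ring
    have e5 : ρ • zpt θ b (s⁻¹ * ((s - 1) * w)) = zpt θ b (w + s * η) := by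
      rw [hρdef, mul_smul, e2, Z.θ_smul_pt]
    rw [e4, e5, hρdef, mul_smul] at e3
    have e6 : g • zpt θ b (w + s * η) = zpt θ b ((s - 1) * w) := by
      have h1 : θ (-w) • (θ w • g • zpt θ b (w + s * η)) = θ (-w) • zpt θ b (s * w) := by rw [e3]
      rw [← mul_smul, ← Z.θ_add, neg_add_cancel, Z.θ_zero, one_smul, Z.θ_smul_pt] at h1
      rw [h1]
      congr 1
      ring
    have e7 : zpt θ b (w + s * η) = zpt θ b η := by
      have h1 : g • (g • zpt θ b (w + s * η)) = g • zpt θ b ((s - 1) * w) := by rw [e6]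
      rw [hgg, hη] at h1
      exact h1
    have e8 := Z.pt_inj e7
    rw [hη]
    congr 1
    field_simp
    linear_combination e8
  refine ⟨g, hga, hgb, ?_⟩
  intro x hx
  by_cases hcl : ∃ h ∈ H, lam h = x / w
  · obtain ⟨h, hh, hl⟩ := hcl
    have e : x = lam h * w := by rw [hl]; field_simp
    have e' := c1 h hh
    rw [← e, hl] at e'
    rw [e']
    congr 1
    field_simp
  · push Not at hcl
    obtain ⟨h, hh, hl⟩ := Z.idx (x / w) (s - 1) (div_ne_zero hx hw) hs10 hsn hcl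
    have e : x = lam h * ((s - 1) * w) := by rw [hl]; field_simp
    have e' := Z.swap_lam hga hgb hh ((s - 1) * w)
    rw [← e, key, Z.H_smul_pt (inv_mem hh), Z.lam_inv hh, hl] at e'
    rw [e']
    congr 1
    field_simp

/-- Structure of `W_t = θ(t) σ θ(1/t) σ θ(t)`. -/
theorem W_props (Z : ZField G Ω F a b H θ lam) {σ : G} (hσa : σ • a = b) (hσb : σ • b = a)
    (hσ : ∀ x : F, x ≠ 0 → σ • zpt θ b x = zpt θ b (-x⁻¹)) {t : F} (ht : t ≠ 0) :
    ∃ h ∈ H, lam h = t ^ 2 ∧ θ t * (σ * θ t⁻¹ * σ) * θ t = h * σ := by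
  obtain ⟨W, hWdef⟩ : ∃ W, W = θ t * (σ * θ t⁻¹ * σ) * θ t := ⟨_, rfl⟩
  have hσσ := Z.swap_sq σ hσa hσb
  have ht' : t⁻¹ ≠ 0 := inv_ne_zero ht
  have h2t : t + t ≠ 0 := by
    have : t + t = 2 * t := by ring
    rw [this]; exact mul_ne_zero Z.two ht
  have hWa : W • a = b := by
    rw [hWdef]
    simp only [mul_smul]
    rw [Z.θ_a, hσa]
    show θ t • σ • zpt θ b t⁻¹ = b
    rw [hσ _ ht', inv_inv, Z.θ_smul_pt, add_neg_cancel, Z.pt_zero]
  have hWb : W • b = a := by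
    rw [hWdef]
    simp only [mul_smul]
    show θ t • σ • θ t⁻¹ • σ • zpt θ b t = a
    rw [hσ _ ht, Z.θ_smul_pt, add_neg_cancel, Z.pt_zero, hσb, Z.θ_a]
  have hWt : W • zpt θ b t = zpt θ b (-t) := by
    rw [hWdef]
    simp only [mul_smul]
    rw [Z.θ_smul_pt, hσ _ h2t, Z.θ_smul_pt]
    have e : t⁻¹ + -(t + t)⁻¹ = (t + t)⁻¹ := by
      have h2 : (2:F) ≠ 0 := Z.two
      have e1 : t + t = 2 * t := by ring
      rw [e1]
      field_simp
      norm_num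
    rw [e, hσ _ (inv_ne_zero h2t), inv_inv, Z.θ_smul_pt]
    congr 1
    ring
  have hhH : W * σ ∈ H :=
    (Z.memH _).mpr ⟨by rw [mul_smul, hσa, hWb], by rw [mul_smul, hσb, hWa]⟩
  have hlam : lam (W * σ) = t ^ 2 := by
    have h1 : (W * σ) • zpt θ b (-t⁻¹) = zpt θ b (-t) := by
      rw [mul_smul, hσ _ (neg_ne_zero.mpr ht'), inv_neg, inv_inv, neg_neg, hWt]
    rw [Z.H_smul_pt hhH] at h1
    have h2 := Z.pt_inj h1
    have h3 : lam (W * σ) = (lam (W * σ) * (-t⁻¹)) * (-t) := by field_simp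
    rw [h3, h2]
    ring
  refine ⟨W * σ, hhH, hlam, ?_⟩
  rw [← hWdef, mul_assoc, hσσ, mul_one]

/-- The coordinatised Zassenhaus configuration is `PSL₂(F)`. -/
theorem psl_iso [Finite F] (Z : ZField G Ω F a b H θ lam) :
    Nonempty (G ≃* Matrix.ProjectiveSpecialLinearGroup (Fin 2) F) := by
  obtain ⟨σ, hσa, hσb, hσ0⟩ := Z.main_swap (w := 1) one_ne_zero
  have hσ : ∀ x : F, x ≠ 0 → σ • zpt θ b x = zpt θ b (-x⁻¹) := by
    intro x hx
    rw [hσ0 x hx]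
    congr 1
    rw [one_pow, one_div]
  have hσσ := Z.swap_sq σ hσa hσb
  have hσinv := Z.swap_inv hσa hσb
  have R1 : ∀ t u : F, t ≠ 0 →
      (θ t * (σ * θ t⁻¹ * σ) * θ t) * θ u * (θ t * (σ * θ t⁻¹ * σ) * θ t)⁻¹
        = σ * θ (t⁻¹ ^ 2 * u) * σ := by
    intro t u ht
    obtain ⟨h, hh, hl, hW⟩ := Z.W_props hσa hσb hσ ht
    rw [hW]
    have c1 : σ * h⁻¹ = h * σ := by
      have := Z.swap_conj hσa hσb (inv_mem hh)
      rwa [inv_inv] at this
    have c2 : h⁻¹ * θ u * h = θ (t⁻¹ ^ 2 * u) := by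
      have := Z.lam_conj h⁻¹ (inv_mem hh) u
      rw [inv_inv, Z.lam_inv hh, hl] at this
      rw [this, inv_pow]
    rw [← c1, mul_inv_rev, inv_inv, hσinv]
    have e : σ * h⁻¹ * θ u * (h * σ) = σ * (h⁻¹ * θ u * h) * σ := by group
    rw [e, c2]
  apply st_psl_iso θ (fun z => σ * θ (-z) * σ)
  · intro t u
    exact (Z.θ_add t u).symm
  · intro t u
    show σ * θ (-t) * σ * (σ * θ (-u) * σ) = σ * θ (-(t + u)) * σ
    have e : σ * θ (-t) * σ * (σ * θ (-u) * σ) = σ * θ (-t) * (σ * σ) * θ (-u) * σ := by group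
    rw [e, hσσ, mul_one, mul_assoc σ, ← Z.θ_add, neg_add]
  · intro t u ht
    show (θ t * (σ * θ (-(-t⁻¹)) * σ) * θ t) * θ u * (θ t * (σ * θ (-(-t⁻¹)) * σ) * θ t)⁻¹
      = σ * θ (-(-(t⁻¹ ^ 2 * u))) * σ
    rw [neg_neg, neg_neg]
    exact R1 t u ht
  · intro t u ht
    show (σ * θ (-t) * σ * θ (-t⁻¹) * (σ * θ (-t) * σ)) * (σ * θ (-u) * σ) *
        (σ * θ (-t) * σ * θ (-t⁻¹) * (σ * θ (-t) * σ))⁻¹ = θ (-(t⁻¹ ^ 2 * u))
    have r := R1 (-t) (-u) (neg_ne_zero.mpr ht)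
    have e1 : (-t)⁻¹ = -t⁻¹ := by rw [inv_neg]
    have e2 : (-t⁻¹) ^ 2 * -u = -(t⁻¹ ^ 2 * u) := by ring
    rw [e1, e2] at r
    have e3 : σ * θ (-t) * σ * θ (-t⁻¹) * (σ * θ (-t) * σ)
        = σ * (θ (-t) * (σ * θ (-t⁻¹) * σ) * θ (-t)) * σ := by group
    rw [e3]
    generalize θ (-t) * (σ * θ (-t⁻¹) * σ) * θ (-t) = W at r
    have e4 : (σ * W * σ) * (σ * θ (-u) * σ) * (σ * W * σ)⁻¹
        = σ * W * (σ * σ) * θ (-u) * W⁻¹ * σ⁻¹ := by group
    rw [e4, hσσ, mul_one]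
    have e5 : σ * W * θ (-u) * W⁻¹ * σ⁻¹ = σ * (W * θ (-u) * W⁻¹) * σ⁻¹ := by group
    rw [e5, r]
    have e6 : σ * (σ * θ (-(t⁻¹ ^ 2 * u)) * σ) * σ⁻¹ = (σ * σ) * θ (-(t⁻¹ ^ 2 * u)) := by group
    rw [e6, hσσ, one_mul]
  · intro t u e
    have e' : θ t = σ * θ (-u) * σ := e
    have h1 : θ t • b = b := by
      rw [e']
      simp only [mul_smul]
      rw [hσb, Z.θ_a, hσa]
    have ht := Z.θ_free t h1
    subst ht
    rw [Z.θ_zero] at e'
    have h2 : θ (-u) = 1 := by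
      have : θ (-u) = σ⁻¹ * (σ * θ (-u) * σ) * σ⁻¹ := by group
      rw [this, ← e', mul_one, hσinv, hσσ]
    have h3 : θ (-u) • b = b := by rw [h2, one_smul]
    have h4 := Z.θ_free _ h3
    exact ⟨rfl, by linear_combination (-1 : F) * h4⟩
  · rw [eq_top_iff]
    obtain ⟨C, hCdef⟩ : ∃ C : Subgroup G,
        C = Subgroup.closure (Set.range θ ∪ Set.range (fun z => σ * θ (-z) * σ)) := ⟨_, rfl⟩
    rw [← hCdef]
    have hθC : ∀ z, θ z ∈ C := fun z => by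
      rw [hCdef]; exact Subgroup.subset_closure (Or.inl ⟨z, rfl⟩)
    have hyC : ∀ z, σ * θ (-z) * σ ∈ C := fun z => by
      rw [hCdef]; exact Subgroup.subset_closure (Or.inr ⟨z, rfl⟩)
    have hWC : ∀ t : F, θ t * (σ * θ t⁻¹ * σ) * θ t ∈ C := by
      intro t
      have := hyC (-t⁻¹)
      rw [neg_neg] at this
      exact C.mul_mem (C.mul_mem (hθC t) this) (hθC t)
    have hσC : σ ∈ C := by
      obtain ⟨h, hh, hl, hW⟩ := Z.W_props hσa hσb hσ (t := 1) one_ne_zero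
      have h1 : h = 1 := Z.lam_eq_one hh (by rw [hl, one_pow])
      rw [h1, one_mul] at hW
      rw [← hW]
      exact hWC 1
    have hHC : ∀ h ∈ H, h ∈ C := by
      intro h hh
      obtain ⟨t, ht⟩ := Z.sq h hh
      have ht0 : t ≠ 0 := by
        rintro rfl
        rw [zero_pow two_ne_zero] at ht
        exact Z.lam_ne_zero hh ht
      obtain ⟨h', hh', hl', hW⟩ := Z.W_props hσa hσb hσ ht0
      have e : h = h' := Z.lam_inj hh hh' (by rw [ht, hl'])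
      have h2 : h' = (θ t * (σ * θ t⁻¹ * σ) * θ t) * σ⁻¹ := by rw [hW]; group
      rw [e, h2]
      exact C.mul_mem (hWC t) (C.inv_mem hσC)
    have hGa : ∀ g : G, g • a = a → g ∈ C := by
      intro g hg
      have h1 : g • b ≠ a := by
        intro h
        have h' : g • b = g • a := by rw [hg]; exact h
        exact Z.hab (smul_left_cancel _ h').symm
      obtain ⟨z, hz⟩ := Z.exists_pt h1
      have hH' : (θ z)⁻¹ * g ∈ H := by
        rw [Z.memH]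
        constructor
        · rw [mul_smul, hg, inv_smul_eq_iff, Z.θ_a]
        · rw [mul_smul, ← hz, inv_smul_eq_iff]; rfl
      have e : g = θ z * ((θ z)⁻¹ * g) := by group
      rw [e]
      exact C.mul_mem (hθC z) (hHC _ hH')
    intro g _
    by_cases hg : g • a = a
    · exact hGa g hg
    · obtain ⟨z, hz⟩ := Z.exists_pt hg
      have h1 : ((θ z * σ)⁻¹ * g) • a = a := by
        rw [mul_smul, ← hz, inv_smul_eq_iff, mul_smul, hσa]; rfl
      have e : g = θ z * σ * ((θ z * σ)⁻¹ * g) := by group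
      rw [e]
      exact C.mul_mem (C.mul_mem (hθC z) hσC) (hGa _ h1)
  · show (θ 1 * (σ * θ (-(-1)) * σ) * θ 1) * (θ 1 * (σ * θ (-(-1)) * σ) * θ 1) = 1
    rw [neg_neg]
    obtain ⟨h, hh, hl, hW⟩ := Z.W_props hσa hσb hσ (t := 1) one_ne_zero
    rw [inv_one] at hW
    rw [hW]
    exact Z.swap_sq (h * σ) (by rw [mul_smul, hσa, ((Z.memH h).mp hh).2])
      (by rw [mul_smul, hσb, ((Z.memH h).mp hh).1])

end ZField

end Cfsg.Agent.Lib.Helper83
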